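import Cfsg.Agent.H5.Un2
/-! Conjugating elements of prime order of `PSL` into subgroups. -/
set_option autoImplicit false
namespace H5
open Module Pointwise Matrix Form Polynomial

universe u
variable {F : Type u} [Field F] {V : Type u} [AddCommGroup V] [Module F V] [FiniteDimensional F V] {r m k : ℕ} {g s t : V ≃ₗ[F] V} {z b : Fˣ} {W U : Submodule F V}
  {H : Subgroup (V ≃ₗ[F] V)}

/-- `g` is conjugate into `H` by an element of determinant one. -/
def SLC (H : Subgroup (V ≃ₗ[F] V)) (g : V ≃ₗ[F] V) : Prop := ∃ t, LinearEquiv.det t = 1 ∧ t⁻¹ * g * t ∈ H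
/-- The centralizer of `g` has all determinants. -/
def CD (g : V ≃ₗ[F] V) : Prop := ∀ d : Fˣ, ∃ c, c * g = g * c ∧ LinearEquiv.det c = d

section
omit [FiniteDimensional F V]
theorem CD.slc (h : CD g) (hs : s ∈ H) (e : ∃ e : V ≃ₗ[F] V, ∀ x, e (s x) = g (e x)) : SLC H g := by
  obtain ⟨e, he⟩ := e
  obtain ⟨c, c1, c2⟩ := h (LinearEquiv.det e)⁻¹
  refine ⟨c * e, by simp [c2], ?_⟩
  rwa [_root_.mul_inv_rev, mul_assoc, ← mul_assoc g, ← c1, mul_assoc c, ← show e * s = g * e from LinearEquiv.ext he, mul_assoc, inv_mul_cancel_left, inv_mul_cancel_left]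

theorem CD.scal (h : CD g) : CD (g * scal V b) := fun d => (h d).imp fun c h => ⟨by rw [← mul_assoc, h.1, mul_assoc, scal_comm, mul_assoc], h.2⟩

theorem SLC.scal (hH : ∀ c, scal V c ∈ H) (h : SLC H g) : SLC H (g * scal V b) :=
  h.imp fun t h => ⟨h.1, by rw [mul_assoc, mul_assoc, ← scal_comm, ← mul_assoc, ← mul_assoc]; exact mul_mem h.2 (hH b)⟩

theorem conj_pow' (t g : V ≃ₗ[F] V) (k : ℕ) : (t⁻¹ * g * t) ^ k = t⁻¹ * g ^ k * t := by simpa using conj_pow (a := t⁻¹) (b := g) (i := k)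

theorem conj_scal (e : g ^ r = H5.scal V z) (t : V ≃ₗ[F] V) : (t⁻¹ * g * t) ^ r = H5.scal V z := by rw [conj_pow', e, mul_assoc, ← scal_comm, inv_mul_cancel_left]

theorem finrank_mv_conj (t g : V ≃ₗ[F] V) : finrank F (mv (t⁻¹ * g * t)) = finrank F (mv g) := by
  refine (t.finrank_map_eq _).symm.trans (congrArg (fun W : Submodule F V => finrank F W) (le_antisymm ?_ ?_))
  · rintro _ ⟨_, ⟨x, rfl⟩, rfl⟩; exact ⟨t x, by simp⟩
  · rintro _ ⟨x, rfl⟩; exact ⟨_, ⟨t.symm x, rfl⟩, by simp⟩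
end

theorem CD.sum (c : IsCompl U W) (i : ∀ v ∈ U, g v ∈ U) (j : ∀ v ∈ W, g v ∈ W) (h : CD (resAut g U i)) : CD g := fun d => by
  obtain ⟨a, a1, a2⟩ := h d
  refine ⟨sumAut c (a, 1), LinearEquiv.ext fun x => ?_, by simp [det_sumAut, a2]⟩
  obtain ⟨x, y, rfl⟩ := exists_add_of_isCompl c x
  rw [LinearEquiv.mul_apply, LinearEquiv.mul_apply, sumAut_apply, map_add, map_add, sumAut_left c _ ⟨_, i _ x.2⟩, sumAut_right c _ ⟨_, j _ y.2⟩, map_add]
  exact congrArg (· + _) (congrArg Subtype.val (LinearEquiv.congr_fun a1 x))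

theorem cd_root (h : ∀ d : Fˣ, ∃ s, s ^ finrank F V = d) : CD g := fun d => let ⟨s, e⟩ := h d; ⟨scal V s, (scal_comm ..).symm, (det_scal s).trans e⟩

theorem ev_invol (h2 : (2 : F) ≠ 0) (e : g ^ 2 = 1) : ev (g : End F V) = .replicate (finrank F (mv g)) (-1) + .replicate (finrank F V - finrank F (mv g)) 1 := by
  have i := mv_inf_fixSp (n := 2) (by simpa) e
  have c := IsCompl.of_eq i (Submodule.eq_top_of_finrank_eq (by rw [finrank_sup_disj (disjoint_iff.2 i), finrank_mv_add]))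
  conv_lhs => rw [show g = sumAut c (scal _ (-1), scal _ 1) from LinearEquiv.ext fun x => by
    obtain ⟨⟨_, x, rfl⟩, y, rfl⟩ := exists_add_of_isCompl c x
    rw [sumAut_apply]
    simp [show g (g x) = x from LinearEquiv.congr_fun (sq g ▸ e) x, mem_fixSp.1 y.2]]
  rw [ev_sumAut, ev_scal, ev_scal]; simp [← finrank_mv_add g]

theorem exists_refl [Nontrivial V] (c : Fˣ) (c1 : c ≠ 1) : ∃ t : V ≃ₗ[F] V, LinearEquiv.det t = c ∧ finrank F (mv t) = 1 ∧ ∀ k, c ^ k = 1 → t ^ k = 1 := by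
  obtain ⟨v, v0⟩ := exists_ne (0 : V)
  obtain ⟨W, h⟩ := (F ∙ v).exists_isCompl
  refine ⟨sumAut h (scal _ c, 1), by simp [det_sumAut, det_scal, finrank_span_singleton v0], ?_, fun k e => sumAut_pow h (by rw [← map_pow, e, map_one]) (one_pow _)⟩
  rw [finrank_mv_compl, mv_one, finrank_bot, finrank_mv_fpf fun x hx => ?_, finrank_span_singleton v0]
  by_contra x0
  exact c1 (Units.ext (smul_left_injective F x0 (by simpa using hx)))

theorem ne_scal (h : 0 < finrank F (mv g)) (h' : finrank F (mv g) < finrank F V) (c : Fˣ) : g ≠ scal V c := by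
  rintro rfl
  by_cases c1 : c = 1
  · rw [c1, map_one, mv_one, finrank_bot] at h; omega
  refine h'.ne (finrank_mv_fpf fun x hx => by_contra fun x0 => c1 (Units.ext (smul_left_injective F x0 (by simpa using hx))))

theorem elg_iff [Nontrivial V] [hr : Fact r.Prime] {P : (V ≃ₗ[F] V) → Prop} (hP : ∀ g b, P g → P (g * scal V b)) : ElG LinearEquiv.det.ker r P ↔ (∀ g, g ^ r = 1 → (∀ c, g ≠ scal V c) →
    (∃ b : Fˣ, LinearEquiv.det g * b ^ finrank F V = 1) → P g) ∧ ∀ z : Fˣ, (∀ b : F, b ^ r ≠ z) → ∀ g, LinearEquiv.det g = 1 → g ^ r = scal V z → P g := by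
  refine ⟨fun H => ⟨fun g g1 g2 ⟨b, b2⟩ => ?_, fun z np g g1 g2 => H g g1 ⟨z, g2⟩ fun c h => np c ?_⟩, fun H g g1 ⟨z, e⟩ ns => ?_⟩
  · simpa [mul_assoc, ← map_mul, -map_inv] using hP _ b⁻¹ (H (g * scal V b) (by simpa [det_scal] using b2) ⟨b ^ r, by rw [Commute.mul_pow (scal_comm _ _), g1, map_pow, one_mul]⟩
      fun c k => g2 (c * b⁻¹) (by rw [map_mul, ← k, map_inv, mul_inv_cancel_right]))
  · rw [h, ← map_pow] at g2; simp [← scal_injective g2]
  by_cases np : ∀ b : F, b ^ r ≠ z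
  · exact H.2 z np g g1 e
  push Not at np
  obtain ⟨b, hb⟩ := np
  lift b to Fˣ using Ne.isUnit (by rintro rfl; simp [hr.out.ne_zero] at hb; exact z.ne_zero hb.symm)
  obtain rfl : b ^ r = z := Units.ext hb
  simpa [mul_assoc, ← map_mul, -map_inv] using hP _ b (H.1 (g * scal V b⁻¹) (by rw [Commute.mul_pow (scal_comm _ _), e, ← map_pow, ← map_mul]; simp)
    (fun c k => ns (c * b) (by rw [map_mul, ← k, map_inv, inv_mul_cancel_right])) ⟨b, by simp [det_scal, show LinearEquiv.det g = 1 from g1]⟩)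

theorem elg_slc {n : ℕ} [NeZero n] {H : Subgroup (GL (Fin n) F)} : (∀ x : SpecialLinearGroup (Fin n) F, (∃ z : F, (x ^ r).1 = z • 1) → (∀ z : F, x.1 ≠ z • 1) →
    ∃ P : SpecialLinearGroup (Fin n) F, P⁻¹ * x * P ∈ H.comap SpecialLinearGroup.toGL) ↔ ElG LinearEquiv.det.ker r (SLC (H.comap (glEquiv (ι := Fin n) (F := F)).symm.toMonoidHom)) := by
  rw [← elg_sl]
  refine forall₃_congr fun x _ _ => ⟨fun ⟨P, h⟩ => ⟨glEquiv (SpecialLinearGroup.toGL P), (det_glEquiv' _).trans (Units.ext P.2), by simpa using h⟩, fun ⟨t, a, h⟩ => ?_⟩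
  obtain ⟨t, rfl⟩ := glEquiv.surjective t
  obtain ⟨P, rfl⟩ : ∃ P : SpecialLinearGroup (Fin n) F, SpecialLinearGroup.toGL P = t := ⟨⟨t.1, congrArg Units.val ((det_glEquiv' _).symm.trans a)⟩, Units.ext rfl⟩
  exact ⟨P, by simpa using h⟩

theorem neg_pow_gen (h2 : (2 : F) ≠ 0) {γ : Fˣ} {M : ℕ} (M0 : M ≠ 0) (g2 : orderOf γ = M) {n : ℕ} (n0 : n ≠ 0) :
    (∃ b : Fˣ, b ^ M = 1 ∧ b ^ n = -1) ↔ ¬ padicValNat 2 M ≤ padicValNat 2 n := by
  have m1 : (-1 : Fˣ) ≠ 1 := fun e => h2 (by have := congrArg Units.val e; push_cast at this ⊢; linear_combination -this)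
  obtain ⟨v, u, o, e⟩ := Nat.exists_eq_two_pow_mul_odd M0
  obtain ⟨s, t, o', rfl⟩ := Nat.exists_eq_two_pow_mul_odd n0
  have k : ∀ {a b : ℕ}, Odd b → padicValNat 2 (2 ^ a * b) = a := fun h => by
    rw [padicValNat.mul (by simp) h.pos.ne', padicValNat.prime_pow, padicValNat.eq_zero_of_not_dvd h.not_two_dvd_nat, add_zero]
  have g1 : γ ^ M = 1 := g2 ▸ pow_orderOf_eq_one γ
  rw [show padicValNat 2 M = v by rw [e, k o], k o']
  refine ⟨fun ⟨b, b1, b2⟩ l => m1 ?_, fun l => ?_⟩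
  · obtain ⟨d, rfl⟩ := Nat.exists_eq_add_of_le l
    rw [← o.neg_one_pow, ← b2, ← pow_mul, show 2 ^ (v + d) * t * u = M * (2 ^ d * t) by rw [e]; ring, pow_mul, b1, one_pow]
  obtain ⟨d, rfl⟩ := Nat.exists_eq_add_of_lt (not_le.1 l)
  have e' : M = 2 ^ d * u * 2 ^ s * 2 := by rw [e]; ring
  refine ⟨γ ^ (2 ^ d * u), by rw [pow_right_comm, g1, one_pow], ?_⟩
  rw [pow_mul, ← pow_mul γ, show γ ^ (2 ^ d * u * 2 ^ s) = -1 from Units.ext ((sq_eq_one_iff.1 (by
    rw [← Units.val_pow_eq_pow_val, ← pow_mul, ← e', g1]; rfl)).resolve_left fun e =>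
      pow_ne_one_of_lt_orderOf (x := γ) (by omega) (by omega) (Units.ext e)), o'.neg_one_pow]

variable [Fintype F]
theorem neg_pow_units (h2 : (2 : F) ≠ 0) {n : ℕ} (n0 : n ≠ 0) : (∃ b : Fˣ, b ^ n = -1) ↔ ¬ padicValNat 2 (Fintype.card F - 1) ≤ padicValNat 2 n := by
  obtain ⟨γ, hγ⟩ := IsCyclic.exists_ofOrder_eq_natCard (α := Fˣ)
  rw [Nat.card_units, Nat.card_eq_fintype_card] at hγ
  rw [← neg_pow_gen h2 (Nat.sub_ne_zero_of_lt Fintype.one_lt_card) hγ n0]
  exact exists_congr fun b => (and_iff_right (Units.ext (by simpa using FiniteField.pow_card_sub_one_eq_one b.1 b.ne_zero))).symm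

theorem cp_intertw (r0 : (r : F) ≠ 0) (e : g ^ r = scal V z) (e' : s ^ r = scal V z) (h : (s : End F V).charpoly = (g : End F V).charpoly) : ∃ e : V ≃ₗ[F] V, ∀ x, e (s x) = g (e x) := by
  have z1 : z ^ (Fintype.card F - 1) = 1 := Units.ext (by simpa using FiniteField.pow_card_sub_one_eq_one z.1 z.ne_zero)
  exact exists_intertw (a := (s : End F V)) (b := (g : End F V)) (n := r * (Fintype.card F - 1)) (by simpa [Nat.cast_sub Fintype.card_pos])
    (by rw [coe_pow_end, pow_mul, e', ← map_pow, z1, map_one]; rfl) (by rw [coe_pow_end, pow_mul, e, ← map_pow, z1, map_one]; rfl) (by rw [ev, h, ev])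

theorem ne_of_npow [hr : Fact r.Prime] (np : ∀ b : F, b ^ r ≠ z) : (r : F) ≠ 0 := fun e => by
  obtain ⟨p, _, n, pp, hn⟩ := FiniteField.card' F
  haveI := Fact.mk pp
  obtain rfl : p = r := by_contra fun h => cast_ne (F := F) p hr.out (Ne.symm h) e
  exact (bijective_frobenius F p).2 z |>.elim np

theorem npow_intertw [hr : Fact r.Prime] (np : ∀ b : F, b ^ r ≠ z) (e : g ^ r = scal V z) (e' : s ^ r = scal V z) : ∃ e : V ≃ₗ[F] V, ∀ x, e (s x) = g (e x) := by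
  obtain ⟨k, a⟩ := cp_npow np e
  obtain ⟨l, b⟩ := cp_npow np e'
  obtain rfl : k = l := Nat.eq_of_mul_eq_mul_left hr.out.pos ((cp_det hr.out.ne_zero a).1.symm.trans (cp_det hr.out.ne_zero b).1)
  exact cp_intertw (ne_of_npow np) e e' (b.trans a.symm)

theorem inv_intertw (e : s ^ 2 = 1) (e' : t ^ 2 = 1) (h : finrank F (mv s) = finrank F (mv t)) : ∃ e : V ≃ₗ[F] V, ∀ x, e (s x) = t (e x) := by
  by_cases h2 : (2 : F) = 0
  · haveI := CharTwo.of_one_ne_zero_of_two_eq_zero one_ne_zero h2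
    obtain ⟨μ, -, l, j⟩ := exists_je_of_pow 2 e
    have z : ∀ g : V ≃ₗ[F] V, g ^ 2 = 1 → nl g ^ 2 = 0 := fun g e => LinearMap.ext fun x => by
      simp [sq, show g (g x) = x from LinearEquiv.congr_fun (sq g ▸ e) x, sub_sub, sub_eq_zero, ← add_sub_assoc, ← two_smul F, h2, eq_neg_iff_add_eq_zero]
    obtain ⟨c, hc⟩ := j.exists_equiv (g := nl t) (fun k => (j k).symm ▸ by
      rcases k with _ | _ | k
      · rw [pow_zero, pow_zero]
      · have := LinearMap.finrank_range_add_finrank_ker (nl s)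
        have := LinearMap.finrank_range_add_finrank_ker (nl t)
        rw [zero_add, pow_one, pow_one]; replace h : finrank F (LinearMap.range (nl s)) = finrank F (LinearMap.range (nl t)) := h; omega
      · rw [show k + 1 + 1 = k + 2 from rfl, pow_add, pow_add, z s e, z t e', mul_zero, mul_zero]) l l
    exact ⟨c, fun x => by simpa using hc x⟩
  exact exists_intertw (a := (s : End F V)) (b := (t : End F V)) (n := 2) (by simpa) (by rw [coe_pow_end, e]; rfl) (by rw [coe_pow_end, e']; rfl)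
    (by rw [ev_invol h2 e, ev_invol h2 e', h])

theorem cd_ss [Nontrivial V] (r0 : (r : F) ≠ 0) (e : g ^ r = scal V z) : CD g := fun d => by
  haveI : Nonempty (Fin (finrank F V)) := ⟨⟨0, finrank_pos⟩⟩
  have z1 : z ^ (Fintype.card F - 1) = 1 := Units.ext (by simpa using FiniteField.pow_card_sub_one_eq_one z.1 z.ne_zero)
  let φ := LinearMap.toMatrixAlgEquiv (finBasis F V)
  obtain ⟨x, x1, x2⟩ := exists_comm_det (A := φ g) (semisimple_of_pow (n := r * (Fintype.card F - 1)) (by simpa [Nat.cast_sub Fintype.card_pos])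
    (by rw [← map_pow, coe_pow_end, pow_mul, e, ← map_pow, z1, map_one]; exact map_one φ)) d
  obtain ⟨x, rfl⟩ := φ.surjective x
  replace x2 : LinearMap.det x = d := (LinearMap.det_toMatrix _ x).symm.trans x2
  rw [← map_mul, ← map_mul, φ.injective.eq_iff] at x1
  exact ⟨x.equivOfDetNeZero (by simp [x2]), LinearEquiv.ext (LinearMap.congr_fun x1), Units.ext ((LinearEquiv.coe_det _).trans x2)⟩

theorem cd_two [Nontrivial V] (e : g ^ 2 = scal V z) : CD g := by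
  by_cases h2 : (2 : F) = 0
  · haveI := CharTwo.of_one_ne_zero_of_two_eq_zero one_ne_zero h2
    obtain ⟨u, c, e', rfl⟩ := exists_unip 2 e
    obtain ⟨μ, l, s, j⟩ := exists_je_of_pow 2 e'
    obtain ⟨a, ha⟩ := Multiset.exists_mem_of_ne_zero (s := μ) (by rintro rfl; exact finrank_pos.ne s)
    obtain ⟨U, W, c1, c2, c3, c4⟩ := j.exists_split s (Multiset.singleton_le.2 ha)
    refine (CD.sum c1 (fun v hv => by simpa using add_mem (c3 v hv) hv) (fun v hv => by simpa using add_mem (c4 v hv) hv) (cd_root fun d => ?_)).scal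
    obtain ⟨x, hx⟩ := FiniteField.isSquare_of_char_two (ringChar.eq F 2) d.1
    obtain rfl | rfl : a = 1 ∨ a = 2 := by have := l a ha; omega
    exacts [⟨d, by simp [c2]⟩, ⟨.mk0 x (by rintro rfl; simp at hx), Units.ext (by simp [c2, hx, sq])⟩]
  exact cd_ss (r := 2) (by simpa) e

theorem el2_iff [Nontrivial V] (hH : ∀ c, scal V c ∈ H) : ElG LinearEquiv.det.ker 2 (SLC H) ↔ (∀ t : V ≃ₗ[F] V, t ^ 2 = 1 → (∀ c, t ≠ scal V c) →
    (∃ b : Fˣ, LinearEquiv.det t * b ^ finrank F V = 1) → ∃ s ∈ H, s ^ 2 = 1 ∧ finrank F (mv s) = finrank F (mv t)) ∧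
      ∀ z : Fˣ, (∀ b : F, b ^ 2 ≠ z) → ∀ k, finrank F V = 2 * k → ((-1) ^ (2 + 1) * z : F) ^ k = 1 → ∃ s ∈ H, s ^ 2 = scal V z := by
  refine (elg_iff (P := SLC H) fun g b h => h.scal (b := b) hH).trans (and_congr (forall₄_congr fun t t1 _ _ => ⟨fun ⟨u, _, h⟩ => ⟨_, h, by simp [conj_pow', t1], finrank_mv_conj ..⟩, fun ⟨s, s1, s2, s3⟩ =>
    (cd_two (z := 1) (by simpa)).slc s1 (inv_intertw s2 t1 s3)⟩) (forall₂_congr fun z np => ⟨fun H k k1 k2 => ?_, fun H g g1 g2 => ?_⟩))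
  · obtain ⟨g, e⟩ := exists_npow z k1
    obtain ⟨l, l1, l2⟩ := det_npow np e
    obtain rfl : k = l := by omega
    obtain ⟨u, -, h⟩ := H g (Units.ext (l2.trans k2)) e
    exact ⟨_, h, conj_scal e u⟩
  · obtain ⟨l, l1, l2⟩ := det_npow np g2
    obtain ⟨s, s1, s2⟩ := H l l1 (by rw [← l2, g1]; rfl)
    exact (cd_two g2).slc s1 (npow_intertw np g2 s2)

/-- The first condition of `el2_iff` in odd characteristic, for subgroups with all involutions of even rank but none of rank one. -/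
theorem el2_odd [Nontrivial V] (h2 : (2 : F) ≠ 0) (n2 : 2 ≤ finrank F V) (h0 : ∀ a, 2 * a ≤ finrank F V → ∃ s ∈ H, s ^ 2 = 1 ∧ finrank F (mv s) = 2 * a)
    (h1 : ∀ s ∈ H, s ^ 2 = 1 → finrank F (mv s) ≠ 1) : (∀ t : V ≃ₗ[F] V, t ^ 2 = 1 → (∀ c, t ≠ scal V c) → (∃ b : Fˣ, LinearEquiv.det t * b ^ finrank F V = 1) →
      ∃ s ∈ H, s ^ 2 = 1 ∧ finrank F (mv s) = finrank F (mv t)) ↔ padicValNat 2 (Fintype.card F - 1) ≤ padicValNat 2 (finrank F V) := by
  rw [← not_not (a := _ ≤ _), ← neg_pow_units h2 finrank_pos.ne']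
  refine ⟨fun H ⟨b, hb⟩ => ?_, fun H t t1 _ ⟨b, hb⟩ => ?_⟩
  · obtain ⟨t, t1, t2, t3⟩ := exists_refl (V := V) (-1 : Fˣ) fun e => h2 (by have := congrArg Units.val e; push_cast at this ⊢; linear_combination -this)
    obtain ⟨s, s1, s2, s3⟩ := H t (t3 2 (by simp)) (ne_scal (by omega) (by omega)) ⟨b, by simp [t1, hb]⟩
    exact h1 s s1 s2 (s3.trans t2)
  rcases (finrank F (mv t)).even_or_odd' with ⟨a, e | e⟩
  · exact e ▸ h0 a (e ▸ Submodule.finrank_le _)
  · rw [det_invol h2 t1, e, pow_succ, pow_mul] at hb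
    exact (H ⟨b, by simpa [neg_eq_iff_eq_neg] using hb⟩).elim
end H5
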