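import Cfsg.Agent.H5.Cj
import Cfsg.Prelude.Def_GeometricClasses
/-! Elements of prime order of `PSL` and similarities of alternating forms. -/
set_option autoImplicit false
namespace H5
open Module Pointwise Matrix Form Polynomial

universe u
variable {F : Type u} [Field F] {κ : Kind F} {V : Type u} [AddCommGroup V] [Module F V] [FiniteDimensional F V] {r m k : ℕ} {g s t : V ≃ₗ[F] V} {z b : Fˣ} {W U : Submodule F V}
  {H : Subgroup (V ≃ₗ[F] V)}

theorem index_slc {n : ℕ} (H : Subgroup (GL (Fin n) F)) : (H.comap (SpecialLinearGroup.toGL : SpecialLinearGroup (Fin n) F →* _)).index =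
    (H.comap (glEquiv (ι := Fin n) (F := F)).symm.toMonoidHom).relIndex LinearEquiv.det.ker := by
  rw [Subgroup.index_comap, Subgroup.relIndex_comap]; congr 1; ext g
  refine ⟨fun ⟨x, e⟩ => ⟨glEquiv g, (det_glEquiv' _).trans (Units.ext (e ▸ x.2)), by simp⟩, fun ⟨t, a, e⟩ => ⟨⟨g.1, ?_⟩, Units.ext rfl⟩⟩
  obtain ⟨t, rfl⟩ := glEquiv.surjective t
  obtain rfl : t = g := by simpa using e
  exact congrArg Units.val ((det_glEquiv' _).symm.trans a)

theorem mul_card_dvd {G : Type*} [Group G] {H K S : Subgroup G} (h : r ∣ H.relIndex K) (a : S ≤ H) (b : S ≤ K) : r * Nat.card S ∣ Nat.card K := by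
  rw [← (S.subgroupOf K).card_mul_index, Nat.card_congr (Subgroup.subgroupOfEquivOfLe b).toEquiv, mul_comm]
  exact mul_dvd_mul_left _ (h.trans (Subgroup.relIndex_dvd_of_le_left _ a))

theorem card_aut' [Fintype F] : ∃ k, Nat.card (V ≃ₗ[F] V) = Fintype.card F ^ k * ∏ i ∈ Finset.range (finrank F V), (Fintype.card F ^ (i + 1) - 1) := by
  obtain ⟨a, ha⟩ := card_GL' (F := F) (finrank F V)
  refine ⟨a, ?_⟩
  rw [Nat.card_congr (autCongr (finBasis F V).equivFun).toEquiv, ← Nat.card_congr (glEquiv (ι := Fin _) (F := F)).toEquiv, ha, ← Finset.Ico_add_one_right_eq_Icc,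
    Finset.prod_Ico_eq_prod_range]
  simp [add_comm]

theorem prod_odd_even (f : ℕ → ℕ) (m : ℕ) : ∏ i ∈ Finset.range (2 * m), f (i + 1) = (∏ i ∈ Finset.range m, f (2 * i + 1)) * ∏ i ∈ Finset.range m, f (2 * (i + 1)) := by
  induction m with
  | zero => simp
  | succ m ih => rw [mul_add, mul_one, Finset.prod_range_succ, Finset.prod_range_succ, ih, Finset.prod_range_succ, Finset.prod_range_succ]; ring_nf

theorem cnt_false {G : Type*} [CommGroup G] [DecidableEq G] {ω c : G} {N : ℕ} (n1 : ω ≠ 1) (n2 : ω * ω ≠ 1) (n4 : ω * ω * (ω * ω) ≠ 1)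
    (hN : N = 1 ∨ 4 ≤ N ∨ N = 3 ∧ (ω * ω)⁻¹ ≠ ω) (h : ∀ x, (ω ::ₘ ω ::ₘ (ω * ω)⁻¹ ::ₘ .replicate N 1).count (c * x⁻¹) = (ω ::ₘ ω ::ₘ (ω * ω)⁻¹ ::ₘ .replicate N 1).count x) : False := by
  have k1 := h 1
  have k2 := h ω
  simp only [Multiset.count_cons, Multiset.count_replicate, inv_one, mul_one, if_true, n1.symm, if_false, one_eq_inv, n2] at k1 k2
  by_cases c1 : c = 1
  · subst c1
    simp [n1, n2, inv_eq_iff_mul_eq_one] at k2
  rw [if_neg (Ne.symm c1)] at k1
  by_cases c2 : c = ω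
  · subst c2
    clear k2
    rw [if_pos rfl] at k1
    split_ifs at k1 with h' <;> first | omega | exact hN.elim (by omega) fun k => k.elim (by omega) fun k => k.2 h'.symm
  rw [if_neg c2] at k1
  split_ifs at k1 with c3; swap; · omega
  subst c3
  rw [if_neg (Ne.symm c2), if_neg (show ¬ _ = ω from fun e => n4 (by rw [mul_inv_eq_iff_eq_mul, inv_eq_iff_mul_eq_one] at e; exact e)),
    if_neg (show ¬ _ = (ω * ω)⁻¹ by simpa)] at k2
  split_ifs at k2 <;> omega

theorem exists_ev_diag (E : Multiset Fˣ) (h : E.card = finrank F V) : ∃ g : V ≃ₗ[F] V, ev (g : End F V) = E.map (fun x => algebraMap F _ x.1) ∧ LinearEquiv.det g = E.prod ∧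
    ∀ k, (∀ x ∈ E, x ^ k = 1) → g ^ k = 1 := by
  obtain ⟨d, rfl⟩ := exists_enum E h
  let A : GL (Fin (finrank F V)) F := .mkOfDetNeZero (diagonal fun i => (d i).1) (by simp [Finset.prod_ne_zero_iff])
  refine ⟨autCongr (finBasis F V).equivFun.symm (glEquiv A), ?_, Units.ext ?_, fun k e => ?_⟩
  · rw [← ev_congr (a := (glEquiv A : End F _)) (finBasis F V).equivFun.symm (by simp [autCongr_apply, -Basis.equivFun_symm_apply]), glEquiv_coe, show A.1 = diagonal _ from rfl,
      ev_diagonal, Multiset.map_map]; rfl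
  · rw [det_autCongr, det_glEquiv']; simp [A, -Fin.univ_val_map]
  · rw [← map_pow, ← map_pow, show A ^ k = 1 from Units.ext ?_, map_one, map_one]
    change diagonal _ ^ k = 1
    rw [diagonal_pow, ← diagonal_one]; congr 1; ext i
    simpa using congrArg Units.val (e (d i) (by simp))

namespace Form
variable {Φ : Form κ V} {c : Fˣ}
omit [FiniteDimensional F V] in
theorem neg_mem' : scal V (-1 : Fˣ) ∈ Φ.isom := ⟨fun x y => by simp, fun x => (Φ.Q_smul _ x).trans (by simp)⟩

theorem Nondeg.exists_neg' (n : Φ.Nondeg) (h2 : (2 : F) ≠ 0) (n₀ : (Φ.res W).Nondeg) : ∃ g ∈ Φ.isom, g ^ 2 = 1 ∧ finrank F (mv g) = finrank F W := by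
  have c := n.isCompl_perp n₀
  refine ⟨_, (Φ.sumAut_mem_iff c le_rfl (scal _ (-1), 1)).2 ⟨neg_mem', one_mem _⟩, sumAut_pow c (by rw [← map_pow]; simp) (one_pow _), ?_⟩
  rw [finrank_mv_compl, mv_one, finrank_bot, add_zero]
  exact finrank_mv_fpf fun x hx => (smul_eq_zero.1 (show (2 : F) • x = 0 by rw [two_smul]; simpa [neg_eq_iff_add_eq_zero] using hx)).resolve_left h2

omit [FiniteDimensional F V] in
theorem sim_pow (h : ∀ u v, Φ.B (g u) (g v) = c * Φ.B u v) (k : ℕ) (u v : V) : Φ.B ((g ^ k) u) ((g ^ k) v) = (c ^ k : Fˣ) * Φ.B u v := by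
  induction k with
  | zero => simp
  | succ k ih => rw [pow_succ', LinearEquiv.mul_apply, LinearEquiv.mul_apply, h, ih, pow_succ', Units.val_mul, mul_assoc]

omit [FiniteDimensional F V] in
theorem Nondeg.sim_one [Nontrivial V] (n : Φ.Nondeg) (h : ∀ u v, Φ.B (g u) (g v) = c * Φ.B u v) (e : g ^ r = 1) : c ^ r = 1 := by
  obtain ⟨v, hv⟩ := _root_.exists_ne (0 : V)
  obtain ⟨u, hu⟩ := n.exists_ne hv
  exact Units.ext (by simpa [e, hu] using sim_pow h r u v)

theorem Nondeg.sim_fix (n : Φ.Nondeg) (h : ∀ u v, Φ.B (g u) (g v) = c * Φ.B u v) (l : 2 * finrank F (mv g) < finrank F V) : c = 1 := by_contra fun c1 => by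
  have := finrank_mv_add g
  have := n.finrank_perp (fixSp g)
  have := Submodule.finrank_mono (show fixSp g ≤ Φ.perp (fixSp g) from fun x hx y hy => by
    have := h x y
    rw [mem_fixSp.1 hx, mem_fixSp.1 hy] at this
    exact by_contra fun k => c1 (Units.ext (by simpa [k] using this)))
  omega

theorem Nondeg.ev_sim (n : Φ.Nondeg) (hσ : ∀ a, κ.σ a = a) (h : ∀ u v, Φ.B (g u) (g v) = c * Φ.B u v) (r0 : r ≠ 0) (e : g ^ r = 1) :
    ev (g : End F V) = (ev (g : End F V)).map fun x => algebraMap F _ c.1 * x⁻¹ := by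
  obtain ⟨r, rfl⟩ := Nat.exists_eq_add_one_of_ne_zero r0
  have a := n.charpoly_adj (g : End F V)
  rw [show κ.σ = .id F from RingHom.ext hσ, Polynomial.map_id, n.adj_eq (g := aeval (g : End F V) (C c.1 * X ^ r)) fun x y => by
    have := h x ((g ^ r) y)
    rw [← LinearEquiv.mul_apply, ← pow_succ', e] at this
    simpa [coe_pow_end, hσ] using this] at a
  conv_lhs => rw [ev, ← a, ← ev, ev_aeval]
  exact Multiset.map_congr rfl fun x hx => by
    simp [← eq_inv_of_mul_eq_one_left ((pow_succ _ r).symm.trans (pow_of_mem_ev (by rw [coe_pow_end, e]; rfl) hx))]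
end Form

theorem exists_symp {n : ℕ} {f : (Fin n → F) → (Fin n → F) → F} (hf : Cfsg.Geo.IsSymplecticForm f) : ∃ Φ : Form (.symp F) (Fin n → F), Φ.Nondeg ∧
    ∀ g, g ∈ (Cfsg.Geo.similarityGroup f).comap (glEquiv (ι := Fin n) (F := F)).symm.toMonoidHom ↔ ∃ c : Fˣ, ∀ u v, Φ.B (g u) (g v) = c * Φ.B u v :=
  ⟨ofAlt (LinearMap.mk₂ F f hf.1.1 hf.1.2 hf.1.3 hf.1.4) hf.3, fun y hy => by_contra fun h => (hf.4 y h).1.elim fun x k => k (hy x), fun g =>
    exists_congr fun c => forall₂_congr fun u v => by rw [← glEquiv_symm_mulVec g, ← glEquiv_symm_mulVec g]; rfl⟩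

variable [Fintype F] {Φ : Form (.symp F) V} (n : Φ.Nondeg) (hH : ∀ g, g ∈ H ↔ ∃ c : Fˣ, ∀ u v, Φ.B (g u) (g v) = c * Φ.B u v) (n4 : 4 ≤ finrank F V)
include n
theorem Form.Nondeg.symp_det (hg : g ∈ Φ.isom) : LinearEquiv.det g = 1 := by
  obtain ⟨m, hm, -⟩ := n.symp_hasTS
  obtain ⟨e, i⟩ := symp_iso n (sympF_nondeg m) (by simp [hm, two_mul])
  obtain ⟨x, hx⟩ := (spEquiv m).surjective ⟨_, (i.mem_iff g).1 hg⟩
  rw [← det_autCongr e, ← show (spEquiv m x).1 = autCongr e g from congrArg Subtype.val hx]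
  refine Units.ext ((LinearEquiv.coe_det _).trans (.trans ?_ (SymplecticGroup.det_eq_one x.2)))
  rw [← LinearMap.det_toLin']; congr 1

include hH n4
theorem symp_el2 : ElG LinearEquiv.det.ker 2 (SLC H) ↔ padicValNat 2 (Fintype.card F - 1) ≤ padicValNat 2 (finrank F V) := by
  haveI : Nontrivial V := nontrivial_of_finrank_pos (R := F) (by omega)
  have le : Φ.isom ≤ H := fun g h => (hH g).2 ⟨1, by simp [h.1]⟩
  rw [el2_iff fun c => (hH _).2 ⟨c * c, fun u v => by simp [mul_assoc]⟩, and_iff_left fun z _ k hk _ => ?_]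
  · by_cases h2 : (2 : F) = 0
    · obtain ⟨m, hm, -⟩ := n.symp_hasTS
      refine iff_of_true (fun t t1 t2 _ => ?_) (by
        rw [padicValNat.eq_zero_of_not_dvd (by have := even_of_two h2; have := Fintype.card_pos (α := F); omega)]; exact Nat.zero_le _)
      have := finrank_mv_add t
      have := Submodule.finrank_mono (show mv t ≤ fixSp t by
        rintro _ ⟨x, rfl⟩
        simp [mem_fixSp, show t (t x) = x from LinearEquiv.congr_fun (sq t ▸ t1) x, sub_eq_sub_iff_add_eq_add, ← two_smul F, h2])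
      have := Submodule.one_le_finrank_iff.2 (mt mv_eq_bot.1 (by simpa using t2 1))
      obtain ⟨s, s1, s2, s3, -⟩ := n.symp_nalt h2 hm (finrank F (mv t) - 1) (by omega)
      exact ⟨s, le s1, sq s ▸ s2, by omega⟩
    refine el2_odd h2 (by omega) (fun a ha => ?_) fun s s1 s2 s3 => ?_
    · obtain ⟨W, w1, w2⟩ := n.exists_nd ha
      obtain ⟨s, s1, s2⟩ := n.exists_neg' h2 w1
      exact ⟨s, le s1, w2 ▸ s2⟩
    · obtain ⟨c, hc⟩ := (hH s).1 s1
      obtain rfl := n.sim_fix hc (by omega)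
      obtain ⟨j, hj, -⟩ := (n.mv_nondeg ((mem_isom_symp _).2 (by simpa using hc)) (n := 2) (by simpa) s2).symp_hasTS
      omega
  obtain ⟨e, i⟩ := symp_iso (sympF_nondeg k) n (by simp [hk, two_mul])
  let s := autCongr (LinearEquiv.sumArrowLequivProdArrow (Fin k) (Fin k) F F).symm ((LinearEquiv.prodComm F _ _).trans ((scal _ z).prodCongr (.refl F _)))
  have s0 : ∀ u, s u = Sum.elim (z.1 • (u ∘ .inr)) (u ∘ .inl) := fun u => funext fun j => by cases j <;> rfl
  refine ⟨autCongr e s, (hH _).2 ⟨-z, e.surjective.forall₂.2 fun u v => ?_⟩, by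
    rw [← map_pow, show s ^ 2 = scal _ z from LinearEquiv.ext fun u => funext fun j => by cases j <;> simp [sq, s0], autCongr_scal]⟩
  simp [autCongr_apply, i.1, s0, Cfsg.sympForm, J, fromBlocks_mulVec, dotProduct, neg_mulVec, Finset.mul_sum, mul_add, mul_assoc, mul_left_comm, add_comm]

theorem symp_der [hr : Fact r.Prime] (r2 : r ≠ 2) (gap : ¬ (finrank F V = 6 ∧ r = 3)) (h : r ∣ H.relIndex LinearEquiv.det.ker) : ¬ ElG LinearEquiv.det.ker r (SLC H) := fun E => by
  classical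
  haveI : Nontrivial V := nontrivial_of_finrank_pos (R := F) (by omega)
  obtain ⟨m, hm, -⟩ := n.symp_hasTS
  obtain ⟨p, _, _, pp, -⟩ := FiniteField.card' F
  haveI := Fact.mk pp
  have r3 : 3 ≤ r := by have := hr.out.two_le; omega
  have one : r.Coprime (Fintype.card F - 1) → ∀ c : Fˣ, c ^ r = 1 → c = 1 := fun h c e =>
    (powCoprime (n := r) (by rw [Nat.card_units, Nat.card_eq_fintype_card]; exact h.symm)).injective (e.trans (one_pow r).symm)
  by_cases rp : r = p
  · subst rp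
    obtain ⟨g, j, g1, g2, g3⟩ := exists_je_aut (F := F) (V := V) r (μ := 3 ::ₘ .replicate (finrank F V - 3) 1) (by simp [Multiset.mem_replicate]; omega) (by simp; omega)
    obtain ⟨u, -, k⟩ := E g g2 ⟨1, by simpa⟩ fun c k => by simpa using g3 c k 3
    obtain ⟨c, hc⟩ := (hH _).1 k
    obtain rfl := one (cop_char r) c (n.sim_one hc (by simp [conj_pow', g1]))
    simpa [Multiset.count_replicate] using n.even_count_alt (u := u⁻¹ * g * u) (fun _ => rfl) Φ.symp_self ((mem_isom_symp _).2 (by simpa using hc)) (j.congr u.symm (by simp)) (j := 3) (by decide)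
  have r0 := cast_ne (F := F) p hr.out rp
  have i0 := ord_pos hr.out r0
  have d := (mul_card_dvd h (fun g h => (hH g).2 ⟨1, by simp [h.1]⟩) fun g h => n.symp_det h).trans (Subgroup.card_subgroup_dvd_card _)
  obtain ⟨a, ha⟩ := card_aut' (F := F) (V := V)
  rw [ha, hm, prod_odd_even fun j => Fintype.card F ^ j - 1, card_isom_symp rfl n hm, spOrd, ← mul_assoc, ← mul_assoc, Nat.mul_dvd_mul_iff_right (Finset.prod_pos fun i _ =>
    Nat.sub_pos_of_lt (Nat.one_lt_pow (by omega) Fintype.one_lt_card))] at d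
  rcases hr.out.dvd_mul.1 ((dvd_mul_right ..).trans d) with d | d
  · exact absurd i0 (by simp [(ZMod.natCast_eq_zero_iff _ _).2 (hr.out.dvd_of_dvd_pow d)])
  obtain ⟨j, hj, d⟩ := (Prime.dvd_finsetProd_iff hr.out.prime _).1 d
  rw [dvd_pow_iff Fintype.card_pos] at d
  have := Nat.le_of_dvd (by omega) d
  have o := Odd.of_dvd_nat ⟨j, rfl⟩ d
  rw [Finset.mem_range] at hj
  by_cases i1 : orderOf (Fintype.card F : ZMod r) = 1
  · obtain ⟨ω, hω⟩ := exists_prime_orderOf_dvd_card' (G := Fˣ) r (by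
      rw [Nat.card_units, Nat.card_eq_fintype_card]
      simpa using (dvd_pow_iff (q := Fintype.card F) (r := r) Fintype.card_pos 1).2 (by rw [i1]))
    have ne : ∀ k, ω ^ k = 1 → r ∣ k := fun k e => hω ▸ orderOf_dvd_of_pow_eq_one e
    have n1 : ω ≠ 1 := fun e => hr.out.not_dvd_one (ne 1 (by simpa))
    have n2 : ω * ω ≠ 1 := fun e => by have := Nat.le_of_dvd two_pos (ne 2 (by rwa [sq])); omega
    have n4' : ω * ω * (ω * ω) ≠ 1 := fun e => by
      have := Nat.le_of_dvd two_pos (hr.out.dvd_of_dvd_pow (show r ∣ 2 ^ 2 from ne 4 (by rw [← e]; simp [pow_succ, mul_assoc]))); omega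
    have n3 : (ω * ω)⁻¹ = ω → r = 3 := fun e => (Nat.prime_dvd_prime_iff_eq hr.out Nat.prime_three).1 (ne 3 (by rw [pow_succ, sq, ← eq_inv_iff_mul_eq_one, ← e, inv_inv, e]))
    obtain ⟨g, g1, g2, g3⟩ := exists_ev_diag (V := V) (ω ::ₘ ω ::ₘ (ω * ω)⁻¹ ::ₘ .replicate (finrank F V - 3) 1) (by simp; omega)
    have gr := g3 r (by simp +contextual [Multiset.mem_replicate, mul_pow, show ω ^ r = 1 from hω ▸ pow_orderOf_eq_one ω])
    have inj : Function.Injective fun x : Fˣ => algebraMap F (AlgebraicClosure F) x.1 := (algebraMap F _).injective.comp Units.val_injective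
    obtain ⟨u, -, k⟩ := E g (g2.trans (by simp [← mul_assoc])) ⟨1, by simpa⟩ fun c k => by
      have : ∀ x ∈ (ω ::ₘ ω ::ₘ (ω * ω)⁻¹ ::ₘ .replicate (finrank F V - 3) 1 : Multiset Fˣ), x = c := fun x hx =>
        inj (Multiset.eq_of_mem_replicate (by rw [← ev_scal (V := V), ← k, g1]; exact Multiset.mem_map_of_mem _ hx))
      exact n1 ((this ω (by simp)).trans (this 1 (by simp [Multiset.mem_replicate]; omega)).symm)
    obtain ⟨c, hc⟩ := (hH _).1 k
    have k := n.ev_sim (fun _ => rfl) hc hr.out.ne_zero (by simp [conj_pow', gr])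
    rw [← ev_congr (a := (g : End F V)) u.symm (by simp), g1, Multiset.map_map] at k
    replace k := Multiset.map_injective inj (k.trans (.trans (Multiset.map_congr rfl fun x _ => by simp) (Multiset.map_map _ (fun x : Fˣ => c * x⁻¹) _).symm))
    exact cnt_false n1 n2 n4' (by by_cases k : r = 3; omega; have := mt n3 k; simp only [ne_eq, this, not_false_iff, and_true]; omega) fun x => (congrArg (Multiset.count (c * x⁻¹)) k).trans
      (Multiset.count_map_eq_count' _ _ ((mul_right_injective c).comp inv_injective) x)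
  obtain ⟨g, g1, g2⟩ := exists_mv r0 rfl (V := V) (k := 1) (by omega)
  have cop := cop_of_ord Fintype.card_pos hr.out i1
  obtain ⟨u, -, k⟩ := E g (one cop _ (by rw [← map_pow, g1, map_one])) ⟨1, by simpa⟩ (ne_scal (by omega) (by omega))
  obtain ⟨c, hc⟩ := (hH _).1 k
  have e : (u⁻¹ * g * u) ^ r = 1 := by simp [conj_pow', g1]
  obtain rfl := one cop c (n.sim_one hc e)
  obtain ⟨l, hl, -⟩ := (n.mv_nondeg ((mem_isom_symp _).2 (by simpa using hc)) r0 e).symp_hasTS
  rw [finrank_mv_conj] at hl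
  obtain ⟨_, _⟩ := o
  omega
end H5
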