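import Cfsg.Agent.H5.Cj2
import Cfsg.Agent.H5.As4
/-! Elements of prime order of `PSL` and normalizers of extension fields. -/
set_option autoImplicit false
namespace H5
open Module Pointwise Matrix Form Polynomial

universe u
variable {F : Type u} [Field F] {V : Type u} [AddCommGroup V] [Module F V] [FiniteDimensional F V] {r m k : ℕ} {g s t : V ≃ₗ[F] V} {z b : Fˣ} {W U : Submodule F V}
  {H : Subgroup (V ≃ₗ[F] V)}

/-- `H` is the group of `K`-semilinear maps. -/
def Nrm (K : Type u) [SMul K V] (H : Subgroup (V ≃ₗ[F] V)) : Prop := ∀ g, g ∈ H ↔ ∃ σ : K → K, Function.Surjective σ ∧ ∀ k v, g (k • v) = σ k • g v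

theorem exists_nrm {n : ℕ} [NeZero n] {K : Subalgebra F (Matrix (Fin n) (Fin n) F)} (hK : Cfsg.Geo.IsFieldSubalgebra k K) : ∃ (L : Type u) (_ : Field L) (_ : Algebra F L)
    (_ : Module L (Fin n → F)) (_ : IsScalarTower F L (Fin n → F)), finrank F L = k ∧
      Nrm L ((Cfsg.Geo.subalgebraNormalizer K).comap (glEquiv (ι := Fin n) (F := F)).symm.toMonoidHom) := by
  letI := (As.fld hK).isField.toField
  refine ⟨K, _, inferInstance, inferInstance, inferInstance, hK.3, glEquiv.surjective.forall.2 fun g => ?_⟩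
  rw [Subgroup.mem_comap, MulEquiv.coe_toMonoidHom, MulEquiv.symm_apply_apply]
  refine ⟨fun h => ⟨fun k => ⟨_, (h k).1 k.2⟩, fun k => ⟨⟨(g⁻¹).1 * k * g.1, (h _).2 (by simp [mul_assoc])⟩, Subtype.ext (by simp [mul_assoc])⟩, fun k v => ?_⟩,
    fun ⟨σ, s, h⟩ k => ?_⟩
  · change g.1 *ᵥ k.1 *ᵥ v = (g.1 * k.1 * (g⁻¹).1) *ᵥ g.1 *ᵥ v
    simp [mul_assoc]
  have e : ∀ k : K, g.1 * k * (g⁻¹).1 = σ k := fun k => matrix_ext_mulVec fun v => by
    have : g.1 *ᵥ k.1 *ᵥ (g⁻¹).1 *ᵥ v = (σ k).1 *ᵥ g.1 *ᵥ (g⁻¹).1 *ᵥ v := h k _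
    simpa [mul_assoc] using this
  refine ⟨fun h => e ⟨k, h⟩ ▸ (σ _).2, fun h => ?_⟩
  obtain ⟨l, hl⟩ := s ⟨_, h⟩
  rw [show k = l from (As.ad g).injective ((congrArg Subtype.val hl).symm.trans (e l).symm)]; exact l.2

theorem mv_pos (h : ∀ c, g ≠ scal V c) : 0 < finrank F (mv g) := Submodule.one_le_finrank_iff.2 (mt mv_eq_bot.1 (by simpa using h 1))

theorem cp3 (e : finrank F V = 3) (g3 : g ^ 3 = 1) (d : LinearEquiv.det g = 1) (ns : ∀ c, g ≠ scal V c) : (g : End F V).charpoly = (X ^ 3 - C ((1 : Fˣ) : F)) ^ 1 := by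
  haveI : Nontrivial V := nontrivial_of_finrank_pos (R := F) (by omega)
  have h := (g : End F V).charpoly_monic.as_sum
  have c := (g : End F V).aeval_self_charpoly
  have d0 := (g : End F V).det_eq_sign_charpoly_coeff
  rw [← LinearEquiv.coe_det, d, e] at d0
  rw [LinearMap.charpoly_natDegree, e] at h
  generalize (g : End F V).charpoly.coeff = a at h d0
  have a0 : a 0 = -1 := by push_cast at d0; linear_combination d0
  rw [h] at c ⊢
  have k : ∀ v, a 1 • v + a 2 • g v = 0 := fun v => g.injective (by simpa [Finset.sum_range_succ, coe_pow_end, g3, a0, sq, add_assoc] using LinearMap.congr_fun c v)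
  obtain ⟨v, v0⟩ := exists_ne (0 : V)
  have a2 : a 2 = 0 := by_contra fun h => ns (.mk0 (-((a 2)⁻¹ * a 1)) fun e => by simpa [h, v0, show a 1 = 0 by simpa [h] using e] using k v) (LinearEquiv.ext fun v => by
    simp [mul_smul, eq_neg_of_add_eq_zero_left (k v), h])
  simp [Finset.sum_range_succ, a0, a2, show a 1 = 0 by simpa [a2, v0] using k v, sub_eq_add_neg]

theorem exists_transv [Fintype F] (p : ℕ) [hp : Fact p.Prime] [CharP F p] (n : 2 ≤ finrank F V) : ∃ t : V ≃ₗ[F] V, t ^ p = 1 ∧ LinearEquiv.det t = 1 ∧ (∀ c, t ≠ scal V c) ∧ finrank F (mv t) = 1 := by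
  have := hp.out.two_le
  obtain ⟨g, j, g1, g2, g3⟩ := exists_je_aut (F := F) (V := V) p (μ := 2 ::ₘ .replicate (finrank F V - 2) 1) (by simp [Multiset.mem_replicate]; omega) (by simp; omega)
  exact ⟨g, g1, g2, fun c k => by simpa using g3 c k 2, (j.finrank_range (by simp; omega)).trans (by simp)⟩

theorem cp_full [Fintype F] [hr : Fact r.Prime] (r0 : (r : F) ≠ 0) (r2 : 2 < r) (hi : orderOf (Fintype.card F : ZMod r) = r - 1) (e : finrank F V = r) (gr : g ^ r = 1) (g1 : g ≠ 1) :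
    (g : End F V).charpoly = (X ^ r - C ((1 : Fˣ) : F)) ^ 1 := by
  classical
  have m := monic_X_pow_sub_C (1 : F) hr.out.ne_zero
  have gr' : (g : End F V) ^ r = 1 := by rw [coe_pow_end, gr]; rfl
  rw [pow_one, Units.val_one]
  refine aroots_inj (LinearMap.charpoly_monic _) m (Multiset.eq_of_le_of_card_le ((Multiset.le_iff_subset (nodup_roots (Separable.map (X_pow_sub_one_separable_iff.2 r0)))).2 fun ξ hξ => ?_)
    (by rw [IsAlgClosed.card_aroots_eq_natDegree, IsAlgClosed.card_aroots_eq_natDegree, LinearMap.charpoly_natDegree, e, ← C_1, natDegree_X_pow_sub_C])).symm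
  change ξ ∈ ev _
  by_cases x1 : ξ = 1
  · have := finrank_mv_add g
    obtain ⟨v, hv, v0⟩ := Submodule.exists_mem_ne_zero_of_ne_bot (p := fixSp g) fun h => by
      have d := ord_dvd_mv r0 hi.symm gr
      rw [h, finrank_bot, add_zero, e] at this
      rcases (Nat.dvd_prime hr.out).1 (this ▸ d) with h | h <;> omega
    rw [x1, ← map_one (algebraMap F _), mem_ev]; exact ⟨v, v0, by simpa using mem_fixSp.1 hv⟩
  obtain ⟨ψ, -, h2⟩ := exists_char r0
  obtain ⟨ζ, hζ, z1⟩ : ∃ ζ ∈ ev (g : End F V), ζ ≠ 1 := by_contra fun h => g1 (LinearEquiv.toLinearMap_injective (eq_one_of_ev r0 gr'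
    (Multiset.eq_replicate.2 ⟨card_ev _, by simpa using h⟩)))
  obtain ⟨a, rfl⟩ := h2 ζ (pow_of_mem_ev gr' hζ)
  obtain ⟨b, rfl⟩ := h2 ξ (by simpa [sub_eq_zero] using (mem_aroots.1 hξ).2)
  lift a to (ZMod r)ˣ using Ne.isUnit (by rintro rfl; simp at z1)
  lift b to (ZMod r)ˣ using Ne.isUnit (by rintro rfl; simp at x1)
  obtain ⟨u, hu⟩ := (orderOf_pos_iff.1 (ord_pos hr.out r0)).isUnit
  obtain ⟨j, hj⟩ := mem_powers_iff_mem_zpowers.2 (show b * a⁻¹ ∈ Subgroup.zpowers u by
    rw [Subgroup.eq_top_of_card_eq (Subgroup.zpowers u) (by rw [Nat.card_zpowers, ← orderOf_units, hu, hi, Nat.card_eq_fintype_card, ZMod.card_units])]; trivial)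
  rw [show (b : ZMod r) = (Fintype.card F ^ j) • (a : ZMod r) by rw [nsmul_eq_mul, Nat.cast_pow, ← hu, ← Units.val_pow_eq_pow_val, show u ^ j = _ from hj, ← Units.val_mul, inv_mul_cancel_right],
    AddChar.map_nsmul_eq_pow]
  clear hj
  induction j with
  | zero => simpa
  | succ j ih => rw [← ev_frob, pow_succ, pow_mul]; exact Multiset.mem_map_of_mem _ ih

theorem no_npow [Fintype F] (h : r.Coprime (Fintype.card F - 1)) (z : Fˣ) : ¬ ∀ b : F, b ^ r ≠ z := fun k =>
  let ⟨c, hc⟩ := (powCoprime (G := Fˣ) (n := r) (by rw [Nat.card_units, Nat.card_eq_fintype_card]; exact h.symm)).surjective z; k c (by simp [← hc])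

theorem one_of_cop [Fintype F] (h : r.Coprime (Fintype.card F - 1)) {c : Fˣ} (e : c ^ r = 1) : c = 1 :=
  (powCoprime (n := r) (by rw [Nat.card_units, Nat.card_eq_fintype_card]; exact h.symm)).injective (e.trans (one_pow r).symm)

variable {K : Type u} [Field K] [Algebra F K] [Module K V] [IsScalarTower F K V] (N : Nrm K H)
include N
omit [FiniteDimensional F V] in
theorem Nrm.scal (c : Fˣ) : scal V c ∈ H := (N _).2 ⟨id, Function.surjective_id, fun k v => smul_comm c.1 k v⟩
omit [FiniteDimensional F V] in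
theorem Nrm.res (s : V ≃ₗ[K] V) : resSc F s ∈ H := (N _).2 ⟨id, Function.surjective_id, fun k v => s.map_smul k v⟩

omit N [FiniteDimensional F V] in
theorem finrank_mv_res (s : V ≃ₗ[K] V) : finrank F (mv (resSc F s)) = finrank F K * finrank K (mv s) := (finrank_mul_finrank F K (mv s)).symm

theorem Nrm.small (hg : g ∈ H) (l : 2 * finrank F (mv g) < finrank F V) : finrank F K ∣ finrank F (mv g) := by
  obtain ⟨σ, -, h⟩ := (N g).1 hg
  refine ⟨_, finrank_mv_res (K := K) { g with map_smul' := fun k v => ?_ }⟩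
  by_cases k0 : k = 0
  · simp [k0]
  have := finrank_mv_add g
  have := Submodule.finrank_sup_add_finrank_inf_eq (fixSp g) ((fixSp g).map (resSc F (H5.scal V (Units.mk0 k k0)⁻¹) : V →ₗ[F] V))
  have := Submodule.finrank_le (fixSp g ⊔ (fixSp g).map (resSc F (H5.scal V (Units.mk0 k k0)⁻¹) : V →ₗ[F] V))
  rw [LinearEquiv.finrank_map_eq] at *
  obtain ⟨_, ⟨a, w, b, rfl⟩, v0⟩ := Submodule.exists_mem_ne_zero_of_ne_bot (Submodule.one_le_finrank_iff.1
    (show 1 ≤ finrank F ↥(fixSp g ⊓ (fixSp g).map (resSc F (H5.scal V (Units.mk0 k k0)⁻¹) : V →ₗ[F] V)) by omega))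
  have e := h k (k⁻¹ • w)
  rw [show g (k⁻¹ • w) = k⁻¹ • w by simpa [-map_inv] using mem_fixSp.1 a, smul_inv_smul₀ k0, mem_fixSp.1 b] at e
  refine (h k v).trans (congrArg (· • _) (smul_left_injective K (show k⁻¹ • w ≠ 0 by simpa [-map_inv] using v0) ?_))
  simpa [k0] using e.symm

variable [Fintype F]
theorem Nrm.frob (e : finrank F K = r) (e' : finrank F V = r) (r1 : 1 < r) : ∃ y ∈ H, (y : End F V).charpoly = (X ^ r - C ((1 : Fˣ) : F)) ^ 1 ∧ y ^ r = 1 ∧ ∀ c, y ≠ H5.scal V c := by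
  haveI : FiniteDimensional F K := finite_of_finrank_pos (by omega)
  haveI : Finite K := finite_of_fd (F := F)
  haveI : FiniteDimensional K V := .of_restrictScalars_finite F K V
  haveI : Nontrivial V := nontrivial_of_finrank_pos (R := F) (by omega)
  let φ : K ≃ₗ[K] V := .ofFinrankEq _ _ (Nat.eq_of_mul_eq_mul_left (show 0 < r by omega) (by rw [finrank_self, mul_one, ← e, finrank_mul_finrank, e, e']))
  let τ := FiniteField.frobeniusAlgEquivOfAlgebraic F K
  have h : ∀ (k : K) v, autCongr (φ.restrictScalars F) τ.toLinearEquiv (k • v) = τ k • autCongr (φ.restrictScalars F) τ.toLinearEquiv v := fun k v => by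
    obtain ⟨v, rfl⟩ := φ.surjective v
    simp [autCongr_apply, ← map_smul]
  have c : (autCongr (φ.restrictScalars F) τ.toLinearEquiv : End F V).charpoly = X ^ r - 1 := by
    rw [show (autCongr (φ.restrictScalars F) τ.toLinearEquiv : End F V) = (φ.restrictScalars F).conj (FiniteField.frobeniusAlgHom F K).toLinearMap from rfl,
      LinearEquiv.charpoly_conj, ← e]
    exact eq_of_monic_of_dvd_of_natDegree_le (monic_X_pow_sub_C 1 (by omega)) (LinearMap.charpoly_monic _)
      (FiniteField.minpoly_frobeniusAlgHom F K ▸ LinearMap.minpoly_dvd_charpoly _) (by rw [LinearMap.charpoly_natDegree, ← C_1, natDegree_X_pow_sub_C])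
  generalize autCongr (φ.restrictScalars F) τ.toLinearEquiv = y at h c
  refine ⟨y, (N _).2 ⟨τ, τ.surjective, h⟩, by simp [c], LinearEquiv.toLinearMap_injective ?_, fun a ha => ?_⟩
  · simpa [c, sub_eq_zero, coe_pow_end, End.one_eq_id] using (y : End F V).aeval_self_charpoly
  obtain ⟨v, v0⟩ := exists_ne (0 : V)
  have := FiniteField.orderOf_frobeniusAlgEquivOfAlgebraic F K
  rw [show FiniteField.frobeniusAlgEquivOfAlgebraic F K = 1 from AlgEquiv.ext fun k => smul_left_injective K (y.map_ne_zero_iff.2 v0) ((h k v).symm.trans (by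
    rw [ha]; exact smul_comm a.1 k v)), orderOf_one] at this
  omega

theorem fld_el2 (e : finrank F K = 2) (n2 : 2 ≤ finrank F V) : ElG LinearEquiv.det.ker 2 (SLC H) ↔
    finrank F V = 2 ∨ Odd (Fintype.card F) ∧ padicValNat 2 (Fintype.card F - 1) ≤ padicValNat 2 (finrank F V) := by
  haveI : FiniteDimensional F K := finite_of_finrank_pos (by omega)
  haveI : Finite K := finite_of_fd (F := F)
  haveI := Fintype.ofFinite K
  haveI : FiniteDimensional K V := .of_restrictScalars_finite F K V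
  haveI : Nontrivial V := nontrivial_of_finrank_pos (R := F) (by omega)
  have d := finrank_mul_finrank F K V
  have sm : ∀ s ∈ H, 2 < finrank F V → finrank F (mv s) ≠ 1 := fun s h l k => by simpa [e, k] using N.small h (by omega)
  rw [el2_iff N.scal, and_iff_left fun z np k hk _ => ?_]
  · rcases n2.eq_or_lt with n2 | n2
    · refine iff_of_true (fun t t1 t2 _ => ?_) (.inl n2.symm)
      obtain ⟨y, y1, -, y2, y3⟩ := N.frob e n2.symm one_lt_two
      have : ∀ t : V ≃ₗ[F] V, t ^ 2 = 1 → (∀ c, t ≠ H5.scal V c) → finrank F (mv t) = 1 := fun t t1 t2 => by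
        have := mv_pos t2
        have := finrank_mv_add t
        have := Submodule.one_le_finrank_iff.2 fun h : fixSp t = ⊥ => t2 (-1) (LinearEquiv.ext fun x => by
          simpa [eq_neg_iff_add_eq_zero] using h.le (show t x + x ∈ fixSp t by simp [mem_fixSp, show t (t x) = x from LinearEquiv.congr_fun (sq t ▸ t1) x, add_comm]))
        omega
      exact ⟨y, y1, y2, by rw [this y y2 y3, this t t1 t2]⟩
    by_cases h2 : (2 : F) = 0
    · haveI := CharTwo.of_one_ne_zero_of_two_eq_zero one_ne_zero h2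
      obtain ⟨t, t1, t2, t3, t4⟩ := exists_transv (F := F) (V := V) 2 n2.le
      refine iff_of_false (fun H => ?_) (by have := even_of_two h2; rw [Nat.odd_iff]; omega)
      obtain ⟨s, s1, -, s3⟩ := H t t1 t3 ⟨1, by simp [t2]⟩
      exact sm s s1 n2 (s3.trans t4)
    rw [or_iff_right n2.ne', and_iff_right (Nat.odd_iff.2 (odd_of_two_ne h2))]
    refine el2_odd h2 n2.le (fun a ha => ?_) fun s s1 _ => sm s s1 n2
    obtain ⟨W, -, w⟩ := exists_le_finrank_eq (⊤ : Submodule K V) (l := a) (by rw [e] at d; simp; omega)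
    obtain ⟨W', c⟩ := W.exists_isCompl
    refine ⟨_, N.res (sumAut c (H5.scal _ (-1), 1)), by rw [← map_pow, sumAut_pow c (by rw [← map_pow]; simp) (one_pow _), map_one], ?_⟩
    rw [finrank_mv_res, finrank_mv_compl, mv_one, finrank_bot, add_zero, e, ← w]
    exact congrArg _ (finrank_mv_fpf fun x hx => Subtype.ext ((smul_eq_zero.1 (show (2 : F) • x.1 = 0 by
      rw [two_smul]; simpa [neg_eq_iff_add_eq_zero] using congrArg Subtype.val hx)).resolve_left h2))
  have o := odd_of_two_ne (F := F) (by simpa using ne_of_npow np)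
  have c : Fintype.card K = Fintype.card F ^ 2 := by rw [Module.card_eq_pow_finrank (K := F), e]
  obtain ⟨t, ht⟩ := Nat.odd_iff.2 o
  obtain ⟨b, hb⟩ := (FiniteField.isSquare_iff (F := K) (a := algebraMap F K z) (fun h => by
    have := FiniteField.even_card_iff_char_two.1 h; rw [c, ht] at this; ring_nf at this; omega) (by simp)).2 (by
    rw [c, show Fintype.card F ^ 2 / 2 = (Fintype.card F - 1) * (t + 1) by rw [ht, Nat.add_sub_cancel]; ring_nf; omega, ← map_pow, pow_mul,
      FiniteField.pow_card_sub_one_eq_one _ z.ne_zero]; simp)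
  exact ⟨_, N.res (H5.scal V (.mk0 b (by rintro rfl; simp at hb))), LinearEquiv.ext fun v => by simp [sq, smul_smul, ← hb]⟩

theorem Nrm.slc_full [hr : Fact r.Prime] (r0 : (r : F) ≠ 0) (e : finrank F K = r) (e' : finrank F V = r) (gr : g ^ r = 1) (h : (g : End F V).charpoly = (X ^ r - C ((1 : Fˣ) : F)) ^ 1) :
    SLC H g := by
  haveI : Nontrivial V := nontrivial_of_finrank_pos (R := F) (e' ▸ hr.out.pos)
  obtain ⟨y, y1, y2, y3, -⟩ := N.frob e e' hr.out.one_lt
  exact (cd_ss (z := 1) r0 (by simpa)).slc y1 (cp_intertw (z := 1) r0 (by simpa) (by simpa) (y2.trans h.symm))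

omit [Fintype F] in
theorem Nrm.not_slc (h : SLC H g) (l : 2 * finrank F (mv g) < finrank F V) : finrank F K ∣ finrank F (mv g) :=
  let ⟨u, _, k⟩ := h; finrank_mv_conj u g ▸ N.small k (by rwa [finrank_mv_conj])

theorem singer_iff [hr : Fact r.Prime] (r0 : (r : F) ≠ 0) (r3 : 3 < r) (e : finrank F K = r) (e' : finrank F V = r) :
    ElG LinearEquiv.det.ker r (SLC H) ↔ orderOf (Fintype.card F : ZMod r) = r - 1 := by
  haveI : Nontrivial V := nontrivial_of_finrank_pos (R := F) (e' ▸ hr.out.pos)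
  have i0 := ord_pos hr.out r0
  have r4 : r ≠ 4 := by rintro rfl; exact absurd hr.out (by decide)
  refine ⟨fun E => by_contra fun h => ?_, fun h => (elg_iff (P := SLC H) fun g b h => h.scal (b := b) N.scal).2 ⟨fun g g1 g2 _ =>
    N.slc_full r0 e e' g1 (cp_full r0 (by omega) h e' g1 (by simpa using g2 1)), fun z np => absurd np (no_npow (cop_of_ord Fintype.card_pos hr.out (by omega)) z)⟩⟩
  suffices ∃ g : V ≃ₗ[F] V, g ^ r = 1 ∧ LinearEquiv.det g = 1 ∧ 0 < finrank F (mv g) ∧ 2 * finrank F (mv g) < r by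
    obtain ⟨g, g1, g2, g3, g4⟩ := this
    have := Nat.le_of_dvd g3 (N.not_slc (E g g2 ⟨1, by simpa⟩ (ne_scal g3 (by omega))) (by omega))
    omega
  by_cases i1 : orderOf (Fintype.card F : ZMod r) = 1
  · obtain ⟨ω, hω⟩ := exists_prime_orderOf_dvd_card' (G := Fˣ) r (by
      rw [Nat.card_units, Nat.card_eq_fintype_card]
      simpa using (dvd_pow_iff (q := Fintype.card F) (r := r) Fintype.card_pos 1).2 (by rw [i1]))
    have w1 : ω ≠ 1 := by rintro rfl; simp at hω; omega
    have wr : ω ^ r = 1 := hω ▸ pow_orderOf_eq_one ω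
    obtain ⟨W, -, w⟩ := exists_le_finrank_eq (⊤ : Submodule F V) (l := 1) (by simp; omega)
    obtain ⟨W', c⟩ := W.exists_isCompl
    have := Submodule.finrank_add_eq_of_isCompl c
    haveI : Nontrivial W := nontrivial_of_finrank_pos (R := F) (by omega)
    haveI : Nontrivial W' := nontrivial_of_finrank_pos (R := F) (by omega)
    obtain ⟨a, a1, a2, a3⟩ := exists_refl (V := W) ω w1
    obtain ⟨b, b1, b2, b3⟩ := exists_refl (V := W') ω⁻¹ (by simpa)
    exact ⟨sumAut c (a, b), sumAut_pow c (a3 r wr) (b3 r (by simp [wr])), by simp [det_sumAut, a1, b1], by rw [finrank_mv_compl]; omega⟩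
  obtain ⟨j, hj⟩ := ord_dvd_pred r0
  have : 2 * orderOf (Fintype.card F : ZMod r) ≤ r - 1 := by
    rcases j with _ | _ | j <;> [omega; omega; (rw [hj]; nlinarith)]
  obtain ⟨g, g1, g2⟩ := exists_mv r0 rfl (V := V) (k := 1) (by omega)
  exact ⟨g, g1, one_of_cop (cop_of_ord Fintype.card_pos hr.out i1) (by rw [← map_pow, g1, map_one]), by omega⟩

theorem singer_three (e : finrank F K = 3) (e' : finrank F V = 3) (h : 3 ∣ H.relIndex LinearEquiv.det.ker) :
    ElG LinearEquiv.det.ker 3 (SLC H) ↔ Fintype.card F % 9 = 4 ∨ Fintype.card F % 9 = 7 ∨ Fintype.card F % 9 = 8 := by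
  haveI : Nontrivial V := nontrivial_of_finrank_pos (R := F) (by omega)
  haveI := Fact.mk Nat.prime_three
  have q1 := Fintype.one_lt_card (α := F)
  have ns : ∀ t, SLC H t → finrank F (mv t) ≠ 1 := fun t h k => by simpa [e, k] using N.not_slc h (by omega)
  by_cases h3 : ((3 : ℕ) : F) = 0
  · haveI := (CharP.charP_iff_prime_eq_zero Nat.prime_three).2 h3
    obtain ⟨t, t1, t2, t3, t4⟩ := exists_transv (F := F) (V := V) 3 (by omega)
    obtain ⟨n, -, hn⟩ := FiniteField.card F 3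
    have := hn ▸ dvd_pow_self 3 n.ne_zero
    exact iff_of_false (fun E => ns t (E t t2 ⟨1, by simpa⟩ t3) t4) (by omega)
  have q3 : ¬ 3 ∣ Fintype.card F := fun d => by simpa [(ZMod.natCast_eq_zero_iff _ _).2 d] using ord_pos Nat.prime_three h3
  obtain ⟨y, y1, y2, y3, y4⟩ := N.frob e e' (by omega)
  have d := mul_card_dvd (S := .zpowers y) h (Subgroup.zpowers_le_of_mem y1) (Subgroup.zpowers_le_of_mem (Units.ext (by simpa [pow_succ] using (cp_det three_ne_zero y2).2)))
  obtain ⟨a, ha⟩ := card_aut' (F := F) (V := V)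
  rw [Nat.card_zpowers, orderOf_eq_prime y3 (by simpa using y4 1)] at d
  replace d := (Nat.Coprime.pow_right a (Nat.Coprime.pow_left 2 ((Nat.Prime.coprime_iff_not_dvd Nat.prime_three).2 q3))).dvd_of_dvd_mul_left (ha ▸ d.trans (Subgroup.card_subgroup_dvd_card _))
  have d9 : Fintype.card F % 9 ≠ 2 ∧ Fintype.card F % 9 ≠ 5 := by
    rw [← ZMod.natCast_eq_zero_iff, e'] at d
    simp only [Finset.prod_range_succ, Finset.range_zero, Finset.prod_empty, Nat.cast_mul, Nat.cast_sub (Nat.one_le_pow _ _ q1.le), Nat.cast_pow, ← ZMod.natCast_mod (Fintype.card F) (3 ^ 2)] at d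
    constructor <;> intro h <;> rw [show 3 ^ 2 = 9 from rfl, h] at d <;> exact absurd d (by decide)
  refine (elg_iff (P := SLC H) fun g b h => h.scal (b := b) N.scal).trans ((and_iff_left fun z np g g1 g2 => ?_).trans ⟨fun E => by_contra fun k => ?_, fun E g g1 g2 ⟨b, hb⟩ => ?_⟩)
  · obtain ⟨k, k1, k2⟩ := det_npow np g2
    obtain rfl : k = 1 := by omega
    exact absurd (by simpa [g1, pow_succ] using k2) (np 1)
  · obtain ⟨γ, hγ⟩ := IsCyclic.exists_ofOrder_eq_natCard (α := Fˣ)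
    rw [Nat.card_units, Nat.card_eq_fintype_card] at hγ
    obtain ⟨s, hs⟩ : 9 ∣ Fintype.card F - 1 := by omega
    have w : (γ ^ s) ^ 3 ≠ 1 := by rw [← pow_mul]; exact pow_ne_one_of_lt_orderOf (by omega) (by omega)
    obtain ⟨t, t1, t2, t3⟩ := exists_refl (V := V) ((γ ^ s) ^ 3) w
    refine ns t (E t (t3 3 (by rw [← pow_mul, ← pow_mul, show s * (3 * 3) = orderOf γ by omega, pow_orderOf_eq_one])) (ne_scal (by omega) (by omega)) ⟨(γ ^ s)⁻¹, by simp [t1, e']⟩) t2
  refine N.slc_full h3 e e' g1 (cp3 e' g1 ?_ g2)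
  have b1 : b ^ (Fintype.card F - 1) = 1 := Units.ext (by simpa using FiniteField.pow_card_sub_one_eq_one b.1 b.ne_zero)
  have b9 : b ^ 9 = 1 := by rw [show 9 = 3 * 3 from rfl, pow_mul, ← e', eq_inv_of_mul_eq_one_right hb, e', inv_pow, ← map_pow, g1]; simp
  have : b ^ 3 = 1 := orderOf_dvd_iff_pow_eq_one.1 (by
    have a1 := orderOf_dvd_of_pow_eq_one b1
    obtain ⟨j, hj, k⟩ := (Nat.dvd_prime_pow (m := 2) Nat.prime_three).1 (orderOf_dvd_of_pow_eq_one b9)
    rw [k] at a1 ⊢
    interval_cases j <;> omega)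
  simpa [e', this] using hb
end H5
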