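import Cfsg.Agent.H5.Cj3
/-! Elements of prime order of `PSL` and subfield subgroups. -/
set_option autoImplicit false
namespace H5
open Module Pointwise Matrix Form Polynomial

universe u
variable {F : Type u} [Field F] {V : Type u} [AddCommGroup V] [Module F V] [FiniteDimensional F V] {r m k n : ℕ} {z b : Fˣ}

theorem rank_map_f {K ι : Type*} [Field K] [Fintype ι] [DecidableEq ι] (φ : K →+* F) (A : Matrix ι ι K) : (A.map φ).rank = A.rank := by
  classical
  obtain ⟨L, L', D, rfl⟩ := Pivot.exists_list_transvec_mul_diagonal_mul_list_transvec A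
  have a := TransvectionStruct.det_toMatrix_prod L
  have b := TransvectionStruct.det_toMatrix_prod L'
  generalize (L.map TransvectionStruct.toMatrix).prod = P, (L'.map TransvectionStruct.toMatrix).prod = Q at a b
  have k : ∀ P : Matrix ι ι K, P.det = 1 → IsUnit (P.map φ).det := fun P h => by rw [← RingHom.mapMatrix_apply, ← RingHom.map_det, h]; simp
  rw [Matrix.map_mul, Matrix.map_mul, rank_mul_eq_left_of_isUnit_det _ _ (k Q b), rank_mul_eq_right_of_isUnit_det _ _ (k P a), rank_mul_eq_left_of_isUnit_det _ _ (by simp [b]),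
    rank_mul_eq_right_of_isUnit_det _ _ (by simp [a]), diagonal_map (map_zero φ), rank_diagonal, rank_diagonal]
  simp

theorem mv_rank (x : GL (Fin n) F) : finrank F (mv (glEquiv x)) = (x.1 - 1).rank := by
  rw [Matrix.rank, ← toLin'_apply', map_sub, toLin'_one]; rfl

theorem mv_le_fix (h2 : (2 : F) = 0) {t : V ≃ₗ[F] V} (e : t ^ 2 = 1) : 2 * finrank F (mv t) ≤ finrank F V := by
  have := finrank_mv_add t
  have := Submodule.finrank_mono (show mv t ≤ fixSp t by
    rintro _ ⟨x, rfl⟩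
    simp [mem_fixSp, show t (t x) = x from LinearEquiv.congr_fun (sq t ▸ e) x, sub_eq_sub_iff_add_eq_add, ← two_smul F, h2])
  omega

theorem exists_inv_rank [Fintype F] {a : ℕ} (h : a ≤ finrank F V) (h' : (2 : F) = 0 → 2 * a ≤ finrank F V) : ∃ s : V ≃ₗ[F] V, s ^ 2 = 1 ∧ finrank F (mv s) = a := by
  by_cases h2 : (2 : F) = 0
  · haveI := CharTwo.of_one_ne_zero_of_two_eq_zero one_ne_zero h2
    have := h' h2
    obtain ⟨g, j, g1, -⟩ := exists_je_aut (F := F) (V := V) 2 (μ := .replicate a 2 + .replicate (finrank F V - 2 * a) 1) (by simp +contextual [Multiset.mem_replicate, or_imp]) (by simp; omega)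
    exact ⟨g, g1, (j.finrank_range (by simp; omega)).trans (by simp)⟩
  obtain ⟨W, -, rfl⟩ := exists_le_finrank_eq (⊤ : Submodule F V) (l := a) (by simpa)
  obtain ⟨W', c⟩ := W.exists_isCompl
  refine ⟨sumAut c (scal _ (-1), 1), sumAut_pow c (by rw [← map_pow]; simp) (one_pow _), ?_⟩
  rw [finrank_mv_compl, mv_one, finrank_bot, add_zero]
  exact finrank_mv_fpf fun x hx => (smul_eq_zero.1 (show (2 : F) • x = 0 by rw [two_smul]; simpa [neg_eq_iff_add_eq_zero] using hx)).resolve_left h2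

theorem card_ker_det [Fintype F] [Nontrivial V] : ∃ a, Nat.card (LinearEquiv.det : (V ≃ₗ[F] V) →* Fˣ).ker =
    Fintype.card F ^ a * ∏ i ∈ Finset.range (finrank F V - 1), (Fintype.card F ^ (i + 2) - 1) := by
  obtain ⟨a, ha⟩ := card_aut' (F := F) (V := V)
  obtain ⟨s, hs⟩ := Nat.exists_eq_add_one_of_ne_zero (finrank_pos (R := F) (M := V)).ne'
  refine ⟨a, Nat.eq_of_mul_eq_mul_right (Nat.sub_pos_of_lt (Fintype.one_lt_card (α := F))) ?_⟩
  rw [← (LinearEquiv.det : (V ≃ₗ[F] V) →* Fˣ).ker.card_mul_index, Subgroup.index_ker, MonoidHom.range_eq_top.2 fun c => (cd_ss (g := 1) (r := 1) (z := 1) (by simp) (by simp) c).imp fun _ h => h.2,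
    Subgroup.card_top, Nat.card_units, Nat.card_eq_fintype_card (α := F), hs, Finset.prod_range_succ'] at ha
  simpa [hs, mul_assoc] using ha

theorem det_sq {N c : End F V} (h : LinearMap.ker N = LinearMap.range N) (e : c * N = N * c) : IsSquare (LinearMap.det c) := by
  have e' : ∀ x, c (N x) = N (c x) := LinearMap.congr_fun e
  have i : LinearMap.ker N ≤ (LinearMap.ker N).comap c := fun x hx => by simp [← e', LinearMap.mem_ker.1 hx]
  refine ⟨_, (c.det_eq_det_mul_det _ i).trans (congrArg _ ?_)⟩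
  rw [← LinearMap.det_conj _ (N.quotKerEquivRange.trans (.ofEq _ _ h.symm))]
  congr 1; ext ⟨x, hx⟩
  obtain ⟨x, rfl⟩ := h.le hx
  have : (N.quotKerEquivRange.trans (.ofEq _ _ h.symm)).symm ⟨N x, hx⟩ = Submodule.Quotient.mk x := (LinearEquiv.symm_apply_eq _).2 rfl
  simp only [LinearMap.comp_apply, LinearEquiv.coe_coe, this]
  simp [e']

theorem ev_mul_scal (g : V ≃ₗ[F] V) (c : Fˣ) : ev ((g * scal V c : V ≃ₗ[F] V) : End F V) = (ev (g : End F V)).map (algebraMap F _ c.1 * ·) := by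
  have := ev_aeval (g : End F V) (C c.1 * X)
  simp only [map_mul, aeval_C, aeval_X] at this
  exact .trans (congrArg _ (LinearMap.ext fun x => by simp)) this

variable (F₀ : Subfield F)
/-- Base change of automorphisms. -/
def bc : GL (Fin n) F₀ →* ((Fin n → F) ≃ₗ[F] (Fin n → F)) := glEquiv.toMonoidHom.comp (GeneralLinearGroup.map F₀.subtype)
variable (n) in
/-- The subfield subgroup. -/
abbrev subH : Subgroup ((Fin n → F) ≃ₗ[F] (Fin n → F)) := (Cfsg.Geo.subfieldSubgroup F₀ 1).comap (glEquiv (ι := Fin n) (F := F)).symm.toMonoidHom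

variable {F₀} {g s t : (Fin n → F) ≃ₗ[F] (Fin n → F)} {y : GL (Fin n) F₀} {μ : Multiset ℕ}
theorem mem_subH : g ∈ subH n F₀ ↔ ∃ y c, g = bc F₀ y * scal _ c := by
  obtain ⟨g, rfl⟩ := glEquiv.surjective g
  have : ∀ c, scal (Fin n → F) c = glEquiv (As.sc _ c) := fun c => LinearEquiv.ext fun v => by simp [smul_mulVec]
  simp [Cfsg.Geo.subfieldSubgroup, As.mem_sup_scalars, this, bc, ← map_mul, eq_comm]
theorem bc_mem : bc F₀ y ∈ subH n F₀ := mem_subH.2 ⟨y, 1, by simp⟩
theorem scal_subH (c : Fˣ) : scal _ c ∈ subH n F₀ := mem_subH.2 ⟨1, c, by simp⟩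
theorem bc_inj : Function.Injective (bc F₀ (n := n)) := fun _ _ h => Units.ext (Matrix.map_injective F₀.subtype_injective (congrArg Units.val (glEquiv.injective h)))
theorem det_bc : (LinearEquiv.det (bc F₀ y) : F) = (y.1.det : F) := (congrArg Units.val (det_glEquiv' _)).trans (F₀.subtype.map_det y.1).symm
theorem je_bc : JE (nl (bc F₀ y)) μ ↔ JE (nl (glEquiv y)) μ := by
  refine (jt_gl _).symm.trans (.trans (forall_congr' fun k => ?_) (jt_gl _))
  rw [← rank_map_f F₀.subtype, ← RingHom.mapMatrix_apply, map_pow, map_sub, map_one]; rfl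
theorem mv_bc : finrank F (mv (bc F₀ y)) = finrank F₀ (mv (glEquiv y)) := by
  refine (mv_rank _).trans ?_
  rw [mv_rank, ← rank_map_f F₀.subtype, ← RingHom.mapMatrix_apply, map_sub, map_one]; rfl
theorem bc_scal [NeZero n] (h : bc F₀ y ^ r = scal _ z) : z.1 ∈ F₀ := by
  have := congrFun (LinearEquiv.congr_fun h (Pi.single 0 1)) 0
  rw [← map_pow] at this
  simp only [bc, MulEquiv.toMonoidHom_eq_coe, MonoidHom.coe_comp, MonoidHom.coe_coe, Function.comp, glEquiv_apply, mulVec_single_one, scal_apply, Pi.smul_apply, Pi.single_eq_same,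
    smul_eq_mul, mul_one] at this
  exact this ▸ ((y ^ r).1 0 0).2
theorem cp_bc : (bc F₀ y : End F (Fin n → F)).charpoly = y.1.charpoly.map F₀.subtype := (charpoly_toLin' _).trans (charpoly_map ..)

variable [Fintype F] [NeZero n] {q₀ : ℕ} (h₀ : Nat.card F₀ = q₀)
include h₀
theorem sub_iff (r0 : (r : F) ≠ 0) (e : g ^ r = scal _ z) : SLC (subH n F₀) g ↔ ∃ c : Fˣ, (ev (g * scal (Fin n → F) c).toLinearMap).map (· ^ q₀) = ev (g * scal (Fin n → F) c).toLinearMap := by
  obtain ⟨p, _, _, pp, -⟩ := FiniteField.card' F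
  haveI := Fact.mk pp
  obtain ⟨f, -, hf⟩ := card_subfield_pow p F₀
  have A := aroots_map_pow p f (iterateFrobenius F p f) fun _ => rfl
  rw [← hf, h₀] at A
  have B : ∀ x, iterateFrobenius F p f x = x ↔ x ∈ F₀ := fun x => by rw [mem_subfield_iff, hf]; rfl
  refine ⟨fun ⟨u, _, h⟩ => ?_, fun ⟨c, h⟩ => ?_⟩
  · obtain ⟨y, c, h⟩ := mem_subH.1 h
    refine ⟨c⁻¹, ?_⟩
    rw [ev_congr (b := (bc F₀ y : End F _)) u.symm fun x => by simp [eq_mul_inv_of_mul_eq h.symm, -map_inv, ← map_inv (scal _)], ev, ← A, cp_bc, Polynomial.map_map]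
    congr 2; exact RingHom.ext fun x => (B _).2 x.2
  suffices SLC (subH n F₀) (g * scal _ c) by simpa [mul_assoc, ← map_mul, -map_inv] using this.scal (b := c⁻¹) scal_subH
  replace e : (g * scal _ c) ^ r = scal _ (z * c ^ r) := by rw [Commute.mul_pow (scal_comm _ _), e, ← map_pow, ← map_mul]
  generalize g * scal _ c = g, z * c ^ r = z at e h
  rw [ev, ← A] at h
  replace h := fun i => (B _).1 ((coeff_map _ i).symm.trans (congrArg (coeff · i) (aroots_inj ((LinearMap.charpoly_monic _).map _) (LinearMap.charpoly_monic _) h)))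
  obtain ⟨n, rfl⟩ := Nat.exists_eq_add_one_of_ne_zero (NeZero.ne n)
  obtain ⟨y, y1, y2⟩ := exists_ss p (F := F₀) (fun i : Fin (n + 1) => ⟨_, h i⟩) fun k => (LinearEquiv.det g).ne_zero (by
    rw [LinearEquiv.coe_det, LinearMap.det_eq_sign_charpoly_coeff, show g.toLinearMap.charpoly.coeff 0 = 0 from congrArg Subtype.val k, mul_zero])
  have z1 : z ^ (Fintype.card F - 1) = 1 := Units.ext (by simpa using FiniteField.pow_card_sub_one_eq_one z.1 z.ne_zero)
  refine (cd_ss r0 e).slc (bc_mem (y := y)) (exists_intertw (a := (bc F₀ y).toLinearMap) (b := g.toLinearMap) (n := r * (Fintype.card F - 1) * orderOf y) ?_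
    (by rw [coe_pow_end, ← map_pow, mul_comm, pow_mul, pow_orderOf_eq_one]; simp [End.one_eq_id])
    (by rw [coe_pow_end, pow_mul, pow_mul, e, ← map_pow, z1]; simp [End.one_eq_id]) ?_)
  · simpa [r0, Nat.cast_sub Fintype.card_pos, CharP.cast_eq_zero_iff F p] using pp.coprime_iff_not_dvd.1 y1.symm
  obtain ⟨g, rfl⟩ := glEquiv.surjective g
  rw [ev, ev, cp_bc, glEquiv_coe, charpoly_toLin', ← charpoly_map, charpoly_ext (B := g.1) (funext fun i => ?_)]
  rw [charpoly_map, ← charpoly_toLin' g.1]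
  exact (coeff_map _ _).trans (congrArg Subtype.val (congrFun y2 i))

variable (hq : Fintype.card F = q₀ ^ k)
include hq
theorem sub_index [hr : Fact r.Prime] (r0 : (r : F) ≠ 0) (rk : ¬ r ∣ k) (h : ∀ j, 2 ≤ j → j ≤ n → (q₀ ^ j : ZMod r) ^ k = 1 → (q₀ ^ j : ZMod r) = 1) : ¬ r ∣ (subH n F₀).relIndex LinearEquiv.det.ker := fun d => by
  haveI := Fintype.ofFinite F₀
  have q1 : 1 < q₀ := h₀ ▸ Finite.one_lt_card
  replace d := mul_card_dvd (S := (LinearEquiv.det.ker.comap (glEquiv (ι := Fin n) (F := F₀)).toMonoidHom).map (bc F₀)) d (by rintro _ ⟨y, -, rfl⟩; exact bc_mem) (by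
    rintro _ ⟨y, h, rfl⟩
    exact Units.ext (det_bc.trans (congrArg Subtype.val (congrArg Units.val ((det_glEquiv' y).symm.trans h)))))
  obtain ⟨a, ha⟩ := card_ker_det (F := F) (V := Fin n → F)
  obtain ⟨b, hb⟩ := card_ker_det (F := F₀) (V := Fin n → F₀)
  rw [Subgroup.card_map_of_injective bc_inj, Nat.card_congr (subEquiv glEquiv _ LinearEquiv.det.ker fun _ => Iff.rfl).toEquiv, ha, hb, ← Nat.card_eq_fintype_card (α := F₀), h₀, hq, finrank_fin_fun, finrank_fin_fun,
    Finset.prod_congr rfl fun i _ => (show (q₀ ^ k) ^ (i + 2) - 1 = _ by rw [pow_right_comm, ← geom_sum_mul_of_one_le (Nat.one_le_pow _ _ q1.le)]), Finset.prod_mul_distrib, ← mul_assoc, ← mul_assoc,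
    Nat.mul_dvd_mul_iff_right (Finset.prod_pos fun i _ => Nat.sub_pos_of_lt (Nat.one_lt_pow (by omega) q1))] at d
  rcases hr.out.dvd_mul.1 ((dvd_mul_right ..).trans d) with d | d
  · exact absurd (ord_pos hr.out r0) (by simp [hq, (ZMod.natCast_eq_zero_iff _ _).2 (hr.out.dvd_of_dvd_pow d)])
  obtain ⟨j, hj, d⟩ := (Prime.dvd_finsetProd_iff hr.out.prime _).1 d
  rw [← ZMod.natCast_eq_zero_iff] at d rk
  push_cast at d
  rw [h _ (by omega) (by simp at hj; omega) (by rw [← sub_eq_zero, ← geom_sum_mul, d, zero_mul])] at d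
  exact rk (by simpa using d)

omit [NeZero n] in
theorem sq_of_mem (k2 : k = 2) {x : F} (hx : x ∈ F₀) : IsSquare x := by
  by_cases h2 : ringChar F = 2
  · exact FiniteField.isSquare_of_char_two h2 x
  by_cases x0 : x = 0
  · simp [x0]
  have := mt FiniteField.even_card_iff_char_two.2 h2
  obtain ⟨t, rfl⟩ : Odd q₀ := (Nat.odd_pow_iff (e := k) (by omega)).1 (Nat.odd_iff.2 (by omega))
  rw [mem_subfield_iff, h₀, pow_succ, mul_eq_right₀ x0] at hx
  rw [FiniteField.isSquare_iff h2 x0, hq, k2, show (2 * t + 1) ^ 2 / 2 = 2 * t * (t + 1) by ring_nf; omega, pow_mul, hx, one_pow]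

theorem sub_el2 (hk : k.Prime) (d : 2 ∣ (subH n F₀).relIndex LinearEquiv.det.ker) : ElG LinearEquiv.det.ker 2 (SLC (subH n F₀)) ↔
    (Odd (Fintype.card F) → k = 2 ∧ padicValNat 2 n ≤ padicValNat 2 (Fintype.card F - 1)) := by
  haveI := Fintype.ofFinite F₀
  rw [el2_iff scal_subH, and_iff_right fun t t1 _ _ => ?_]
  · by_cases h2 : (2 : F) = 0
    · exact iff_of_true (fun z np => absurd (by simpa) (ne_of_npow np)) (by have := even_of_two h2; rw [Nat.odd_iff]; omega)
    have o := odd_of_two_ne h2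
    obtain rfl : k = 2 := by_contra fun k2 => sub_index h₀ hq (by simpa) (mt (Nat.prime_dvd_prime_iff_eq Nat.prime_two hk).1 (Ne.symm k2)) (fun j _ _ => by
      generalize (q₀ ^ j : ZMod 2) = x; obtain rfl | rfl : x = 0 ∨ x = 1 := by revert x; decide
      all_goals simp [hk.ne_zero]) d
    obtain ⟨t, rfl⟩ : Odd q₀ := (Nat.odd_pow_iff two_ne_zero).1 (Nat.odd_iff.2 (hq ▸ o))
    have := noz_iff (F := F) (r := 2) (NeZero.ne n) (by omega)
    rw [and_iff_left fun _ _ => by rw [hq]; ring_nf; omega] at this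
    simp only [Nat.odd_iff.2 o, true_and, true_imp_iff, ← this, finrank_fin_fun]
    refine forall₄_congr fun z np k _ => imp_congr_right fun _ => iff_false_intro fun ⟨s, s1, s2⟩ => ?_
    obtain ⟨y, c, rfl⟩ := mem_subH.1 s1
    obtain ⟨x, hx⟩ := sq_of_mem h₀ hq rfl (bc_scal (y := y) (r := 2) (z := z * (c ^ 2)⁻¹) (by rw [map_mul, ← s2, Commute.mul_pow (scal_comm _ _), map_inv, map_pow, mul_inv_cancel_right]))
    exact np (x * c) (by rw [mul_pow, sq x, ← hx]; simp)
  obtain ⟨s, s1, s2⟩ := exists_inv_rank (F := F₀) (V := Fin n → F₀) (a := finrank F (mv t)) (by simpa using (mv t).finrank_le) fun h2 => by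
    simpa using mv_le_fix (congrArg Subtype.val h2) t1
  obtain ⟨y, rfl⟩ := glEquiv.surjective s
  exact ⟨_, bc_mem (y := y), by rw [← map_pow, show y ^ 2 = 1 from glEquiv.injective (by simpa using s1), map_one], mv_bc.trans s2⟩

theorem sub_three [CharP F 3] (hk : k.Prime) : ElG LinearEquiv.det.ker 3 (SLC (subH n F₀)) ↔ Odd n ∨ Even n ∧ 2 < k := by
  haveI := Fintype.ofFinite F₀
  haveI := Fact.mk Nat.prime_three
  have h2 : ringChar F ≠ 2 := by rw [ringChar.eq F 3]; decide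
  have ex : ∀ μ : Multiset ℕ, (∀ a ∈ μ, a ≤ 3) → μ.sum = n → ∃ y : GL (Fin n) F₀, JE (nl (bc F₀ y)) μ := fun μ l s => by
    obtain ⟨g, j, -⟩ := exists_je_aut (F := F₀) (V := Fin n → F₀) 3 l (by simpa)
    obtain ⟨y, rfl⟩ := glEquiv.surjective g
    exact ⟨y, je_bc.2 j⟩
  have cj : ∀ {K : Type u} [Field K] [Finite K] {s t : (Fin n → K) ≃ₗ[K] (Fin n → K)} {μ : Multiset ℕ}, JE (nl s) μ → JE (nl t) μ → μ.sum = n → ∃ e : (Fin n → K) ≃ₗ[K] (Fin n → K), ∀ x, e (s x) = t (e x) :=
    fun a b e => (a.exists_equiv b (by simpa) (by simpa)).imp fun c hc x => by simpa using hc x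
  refine (elg_iff (P := SLC _) fun g b h => h.scal (b := b) scal_subH).trans ((and_iff_left fun z np => absurd (CharP.cast_eq_zero F 3) (ne_of_npow np)).trans ⟨fun E => ?_, fun E g g1 _ _ => ?_⟩)
  · rcases n.even_or_odd' with ⟨m, hm | hm⟩; swap; · exact .inl ⟨m, hm⟩
    refine .inr ⟨⟨m, by omega⟩, hk.two_le.lt_of_ne fun k2 => ?_⟩
    obtain ⟨y, j⟩ := ex (.replicate m 2) (by simp +contextual [Multiset.mem_replicate]) (by simp; omega)
    obtain ⟨d, hd⟩ := FiniteField.exists_nonsquare h2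
    lift d to Fˣ using Ne.isUnit (by rintro rfl; simp at hd)
    obtain ⟨e, -, he⟩ := cd_ss (V := Fin n → F) (g := 1) (r := 1) (z := 1) (by simp) (by simp) d
    have y3 := j.pow_char 3 (by simp; omega) (by simp +contextual [Multiset.mem_replicate])
    have dm : finrank F (mv (bc F₀ y)) = m := (j.finrank_range (by simp; omega)).trans (by simp)
    have := NeZero.ne n
    obtain ⟨u, u1, h⟩ := E (e⁻¹ * bc F₀ y * e) (by simp [conj_pow', y3]) (ne_scal (by rw [finrank_mv_conj]; omega) (by rw [finrank_mv_conj]; simp; omega))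
      ⟨1, by simp [mul_right_comm _ _ (LinearEquiv.det e), one_of_cop (cop_char 3) (show LinearEquiv.det (bc F₀ y) ^ 3 = 1 by rw [← map_pow, y3, map_one])]⟩
    obtain ⟨y', c, h⟩ := mem_subH.1 h
    obtain ⟨c', hc'⟩ := (bijective_frobenius F₀ 3).2 ⟨_, bc_scal (y := y') (r := 3) (z := c⁻¹ ^ 3) (by
      rw [eq_mul_inv_of_mul_eq h.symm, ← map_inv, Commute.mul_pow (scal_comm _ _), conj_pow', conj_pow', y3]; simp)⟩
    have c0 : c.1 ∈ F₀ := by
      rw [← inv_inv c.1, ← frobenius_inj F 3 (show frobenius F 3 c' = frobenius F 3 c.1⁻¹ by simpa [frobenius_def] using congrArg Subtype.val hc')]; exact inv_mem c'.2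
    obtain ⟨y', h⟩ : ∃ y', u⁻¹ * (e⁻¹ * bc F₀ y * e) * u = bc F₀ y' := ⟨y' * As.sc _ (.mk0 ⟨_, c0⟩ (by simp [Subtype.ext_iff])), by
      rw [h, map_mul]; congr 1; exact LinearEquiv.ext fun v => funext fun i => by simp [bc, mulVec, dotProduct, one_apply, apply_ite]⟩
    obtain ⟨f, hf⟩ := cj (je_bc.1 j) (je_bc.1 (j.congr (g := nl (bc F₀ y')) (e * u).symm fun x => by rw [LinearEquiv.symm_apply_eq]; simp [← h, ← LinearEquiv.mul_apply e u])) (by simp; omega)
    obtain ⟨f, rfl⟩ := glEquiv.surjective f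
    replace hf : bc F₀ f * bc F₀ y = bc F₀ y' * bc F₀ f := by rw [← map_mul, ← map_mul, show f * y = y' * f from glEquiv.injective (LinearEquiv.ext (by simpa using hf))]
    have := det_sq (N := nl (bc F₀ y)) (c := (e * u * bc F₀ f :)) (Submodule.eq_of_le_of_finrank_eq (by
      rintro _ ⟨x, rfl⟩; exact LinearMap.congr_fun ((j.pow_eq_zero (k := 2) (by simp; omega)).2 (by simp +contextual [Multiset.mem_replicate])) x) (by
      have := LinearMap.finrank_range_add_finrank_ker (nl (bc F₀ y))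
      change finrank F (LinearMap.range (nl (bc F₀ y))) = m at dm
      simp only [finrank_fin_fun] at this; omega)).symm (LinearMap.ext fun x => by
      have : e * u * bc F₀ f * bc F₀ y = bc F₀ y * (e * u * bc F₀ f) := by rw [mul_assoc, hf, ← h]; group
      simpa using LinearEquiv.congr_fun this x)
    obtain ⟨x, hx⟩ := sq_of_mem h₀ hq k2.symm f.1.det.2
    rw [← LinearEquiv.coe_det, map_mul, map_mul, he, u1, mul_one, Units.val_mul, det_bc, hx] at this
    have x0 : x ≠ 0 := by rintro rfl; exact (LinearEquiv.det (bc F₀ f)).ne_zero (by rw [det_bc, hx, mul_zero])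
    exact hd (by simpa [x0, mul_assoc] using this.mul (IsSquare.mul_self x⁻¹))
  obtain ⟨μ, l, s, j⟩ := exists_je_of_pow 3 g1
  obtain ⟨y, j'⟩ := ex μ (fun a h => (l a h).2) (by simpa using s)
  obtain ⟨e, he⟩ := cj j' j (by simpa using s)
  have sp : ∀ a ∈ μ, ∀ x : Fˣ, ∃ c, c * g = g * c ∧ LinearEquiv.det c = x ^ a := fun a ha x => by
    obtain ⟨U, W, c1, c2, c3, c4⟩ := j.exists_split s (Multiset.singleton_le.2 ha)
    refine ⟨sumAut c1 (scal _ x, 1), LinearEquiv.ext fun v => ?_, by simp [det_sumAut, det_scal, c2]⟩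
    obtain ⟨v, w, rfl⟩ := exists_add_of_isCompl c1 v
    rw [LinearEquiv.mul_apply, LinearEquiv.mul_apply, sumAut_apply, map_add, map_add, sumAut_left c1 _ ⟨_, by simpa using add_mem (c3 _ v.2) v.2⟩,
      sumAut_right c1 _ ⟨_, by simpa using add_mem (c4 _ w.2) w.2⟩]; simp
  by_cases o : ∀ a ∈ μ, a = 2; swap
  · push Not at o
    obtain ⟨a, ha, a2⟩ := o
    refine CD.slc (fun d => ?_) bc_mem ⟨e, he⟩
    obtain rfl | rfl : a = 1 ∨ a = 3 := by have := l a ha; omega
    · simpa using sp 1 ha d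
    · obtain ⟨x, rfl⟩ := (powCoprime (G := Fˣ) (n := 3) (by rw [Nat.card_units, Nat.card_eq_fintype_card]; exact (cop_char 3).symm)).surjective d
      exact sp 3 ha x
  have k2 : 2 < k := (E.resolve_left (by
    rw [← finrank_fin_fun F (n := n), ← s, Multiset.eq_replicate_card.2 o]; simp)).2
  obtain ⟨a, ha⟩ := Multiset.exists_mem_of_ne_zero (s := μ) (by rintro rfl; exact NeZero.ne n (by simpa using s.symm))
  obtain rfl := o a ha
  obtain ⟨d, x, hd⟩ : ∃ (d : F₀ˣ) (x : Fˣ), (LinearEquiv.det e).1 * x ^ 2 * d.1 = 1 := by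
    by_cases sq : IsSquare (LinearEquiv.det e).1
    · obtain ⟨x, hx⟩ := sq
      have : x ≠ 0 := by rintro rfl; exact Units.ne_zero _ (hx.trans (mul_zero _))
      exact ⟨1, (Units.mk0 x this)⁻¹, by rw [hx]; simp; field_simp⟩
    have h2' : ringChar F₀ ≠ 2 := by rw [ringChar.eq F₀ 3]; decide
    obtain ⟨d, hd⟩ := FiniteField.exists_nonsquare h2'
    have d0 : d ≠ 0 := by rintro rfl; simp at hd
    obtain ⟨t, rfl⟩ : Odd q₀ := by rw [← h₀, Nat.card_eq_fintype_card, Nat.odd_iff]; exact FiniteField.odd_card_of_char_ne_two h2'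
    have d1 : d ^ t = -1 := by
      have := (FiniteField.pow_dichotomy h2' d0).resolve_left (mt (FiniteField.isSquare_iff h2' d0).2 hd)
      rwa [← Nat.card_eq_fintype_card, h₀, show (2 * t + 1) / 2 = t by omega] at this
    obtain ⟨x, hx⟩ := (FiniteField.isSquare_iff (a := (LinearEquiv.det e).1 * d.1) h2 (mul_ne_zero (Units.ne_zero _) (by simpa using d0))).2 (by
      obtain ⟨o, ho⟩ : Odd (∑ i ∈ Finset.range k, (2 * t + 1) ^ i) := by
        rw [Finset.odd_sum_iff_odd_card_odd, Finset.filter_true_of_mem fun i _ => (odd_two_mul_add_one t).pow, Finset.card_range]; exact hk.odd_of_ne_two k2.ne'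
      have := geom_sum_mul_of_one_le (show 1 ≤ 2 * t + 1 by omega) k
      rw [mul_pow, (FiniteField.pow_dichotomy h2 (Units.ne_zero _)).resolve_left (mt (FiniteField.isSquare_iff h2 (Units.ne_zero _)).2 sq), hq,
        show (2 * t + 1) ^ k / 2 = t * (2 * o + 1) by
          have h1 := Nat.one_le_pow k (2 * t + 1) (by omega)
          rw [ho, Nat.add_sub_cancel, show (2 * o + 1) * (2 * t) = 2 * (t * (2 * o + 1)) by ring] at this; omega,
        pow_mul, show d.1 ^ t = -1 by simpa using congrArg Subtype.val d1, pow_succ, pow_mul]; simp)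
    have x0 : x ≠ 0 := by rintro rfl; exact mul_ne_zero (Units.ne_zero _) (by simpa using d0) (hx.trans (mul_zero _))
    exact ⟨.mk0 d d0, (Units.mk0 x x0)⁻¹, by rw [mul_right_comm, Units.val_mk0, hx]; simp; field_simp⟩
  obtain ⟨c, c1, c2⟩ := sp 2 ha x
  obtain ⟨f, -, hf⟩ := cd_ss (V := Fin n → F₀) (g := 1) (r := 1) (z := 1) (by simp) (by simp) d
  obtain ⟨f, rfl⟩ := glEquiv.surjective f
  refine ⟨c * e * bc F₀ f, Units.ext (.trans (by rw [map_mul, map_mul, c2, Units.val_mul, det_bc, ← hf, det_glEquiv']; simp [mul_comm]) hd), ?_⟩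
  rw [show (c * e * bc F₀ f)⁻¹ * g * (c * e * bc F₀ f) = (bc F₀ f)⁻¹ * (e⁻¹ * (c⁻¹ * (g * c) * e)) * bc F₀ f by group, ← c1, inv_mul_cancel_left, ← show e * bc F₀ y = g * e from LinearEquiv.ext he,
    inv_mul_cancel_left, ← map_inv, ← map_mul, ← map_mul]
  exact bc_mem
end H5
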