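import Cfsg.Agent.H5.Cj4
/-! Elements of odd prime order of `PSL` whose eigenvalues are symmetric under inversion. -/
set_option autoImplicit false
namespace H5
open Module Pointwise Matrix Form Polynomial

universe u
variable {F : Type u} [Field F] {κ : Kind F} {V : Type u} [AddCommGroup V] [Module F V] [FiniteDimensional F V] {r m k n : ℕ} {z b : Fˣ} {g : V ≃ₗ[F] V} {P : (V ≃ₗ[F] V) → Prop}

theorem prod_ev (f : End F V) : (ev f).prod = algebraMap F _ (LinearMap.det f) := by
  have := (IsAlgClosed.splits (f.charpoly.map (algebraMap F (AlgebraicClosure F)))).coeff_zero_eq_prod_roots_of_monic (f.charpoly_monic.map _)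
  rw [f.charpoly_monic.natDegree_map, f.charpoly_natDegree, coeff_map] at this
  rw [LinearMap.det_eq_sign_charpoly_coeff, map_mul, this, map_pow, map_neg, map_one, ← mul_assoc, ← mul_pow]; simp [ev, aroots]

theorem desc_ev {E : Multiset Fˣ} {x : Fˣ} (hx : x ∈ E) {t : ℤ} {C : AlgebraicClosure F} (h : (E.map fun x => algebraMap F _ x.1).map (C * · ^ t) = E.map fun x => algebraMap F _ x.1) :
    ∃ c : Fˣ, E.map (c * · ^ t) = E := by
  obtain ⟨y, -, hy⟩ := Multiset.mem_map.1 (h ▸ Multiset.mem_map_of_mem _ (Multiset.mem_map_of_mem (fun x : Fˣ => algebraMap F (AlgebraicClosure F) x.1) hx))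
  refine ⟨y / x ^ t, Multiset.map_injective ((algebraMap F (AlgebraicClosure F)).injective.comp Units.val_injective) (.trans ?_ h)⟩
  rw [Multiset.map_map, Multiset.map_map]
  exact Multiset.map_congr rfl fun a _ => by simp [hy, zpow_ne_zero]

theorem sym_comb [Fact r.Prime] (h : r = 3 ∨ r = 5) {E : Multiset (ZMod r)} (c : E.card = r) (s : E.sum = 0) : ∃ t, (E.map (t + ·)).map (-1 * ·) = E.map (t + ·) := by
  obtain ⟨d, rfl⟩ := exists_enum E c
  have k3 : ∀ a b c : ZMod 3, a + (b + c) = 0 → ∃ t : ZMod 3, (((a ::ₘ b ::ₘ {c}) : Multiset _).map (t + ·)).map (-1 * ·) = (a ::ₘ b ::ₘ {c}).map (t + ·) := by decide +kernel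
  have k5 : ∀ b c d e : ZMod 5, ∃ t : ZMod 5, (((-(b + (c + (d + e))) ::ₘ b ::ₘ c ::ₘ d ::ₘ {e}) : Multiset _).map (t + ·)).map (-1 * ·) =
    (-(b + (c + (d + e))) ::ₘ b ::ₘ c ::ₘ d ::ₘ {e}).map (t + ·) := by decide +kernel
  rcases h with rfl | rfl
  · exact k3 (d 0) (d 1) (d 2) (by simpa [Fin.sum_univ_succ] using s)
  · have := k5 (d 1) (d 2) (d 3) (d 4)
    rwa [← show d 0 = -(d 1 + (d 2 + (d 3 + d 4))) from eq_neg_of_add_eq_zero_left (by simpa [Fin.sum_univ_succ] using s)] at this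

variable [Fintype F] [hr : Fact r.Prime]
theorem exists_root_ord (d : r ∣ Fintype.card F - 1) : ∃ ω : Fˣ, orderOf ω = r := exists_prime_orderOf_dvd_card' r (by rwa [Nat.card_units, Nat.card_eq_fintype_card])

variable (hP : ∀ g b, P g → P (g * scal V b))
include hP
theorem diag_nec [Nontrivial V] (e : ElG LinearEquiv.det.ker r P) (E : Multiset Fˣ) (c : E.card = finrank F V) (h : ∀ x ∈ E, x ^ r = 1) (d : ∃ b : Fˣ, E.prod * b ^ finrank F V = 1)
    {x y : Fˣ} (hx : x ∈ E) (hy : y ∈ E) (xy : x ≠ y) : ∃ g : V ≃ₗ[F] V, g ^ r = 1 ∧ P g ∧ ev (g : End F V) = E.map fun x => algebraMap F _ x.1 := by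
  obtain ⟨g, g1, g2, g3⟩ := exists_ev_diag (V := V) E c
  refine ⟨g, g3 r h, ((elg_iff hP).1 e).1 g (g3 r h) (fun c k => xy ?_) (g2 ▸ d), g1⟩
  have : ∀ x ∈ E, x = c := fun x hx => Units.ext ((algebraMap F (AlgebraicClosure F)).injective
    (Multiset.eq_of_mem_replicate (by rw [← ev_scal (V := V), ← k, g1]; exact Multiset.mem_map_of_mem _ hx)))
  rw [this x hx, this y hy]

theorem sym_nec (r2 : r ≠ 2) (d : r ∣ Fintype.card F - 1) (n3 : 3 ≤ finrank F V) (gap : ¬ (finrank F V = 6 ∧ r = 3))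
    (h : ∀ g, g ^ r = 1 → P g → ∃ C, (ev (g : End F V)).map (C * ·⁻¹) = ev (g : End F V)) (e : ElG LinearEquiv.det.ker r P) :
    (r = 3 ∨ r = 5) ∧ finrank F V = r ∧ padicValNat r (Fintype.card F - 1) = 1 := by
  classical
  haveI : Nontrivial V := nontrivial_of_finrank_pos (R := F) (by omega)
  have r3 : 3 ≤ r := by have := hr.out.two_le; omega
  obtain ⟨ω, hω⟩ := exists_root_ord d
  have wr : ω ^ r = 1 := hω ▸ pow_orderOf_eq_one ω
  have ne : ∀ k, ω ^ k = 1 → r ∣ k := fun k e => hω ▸ orderOf_dvd_of_pow_eq_one e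
  have n1 : ω ≠ 1 := fun e => hr.out.not_dvd_one (ne 1 (by simpa))
  have n2 : ω * ω ≠ 1 := fun e => by have := Nat.le_of_dvd two_pos (ne 2 (by rwa [sq])); omega
  have n4 : ω * ω * (ω * ω) ≠ 1 := fun e => by
    have := Nat.le_of_dvd two_pos (hr.out.dvd_of_dvd_pow (show r ∣ 2 ^ 2 from ne 4 (by rw [← e]; simp [pow_succ, mul_assoc]))); omega
  have n3' : (ω * ω)⁻¹ = ω → r = 3 := fun e => (Nat.prime_dvd_prime_iff_eq hr.out Nat.prime_three).1 (ne 3 (by rw [pow_succ, sq, ← eq_inv_iff_mul_eq_one, ← e, inv_inv, e]))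
  have key : ∀ E : Multiset Fˣ, E.card = finrank F V → (∀ x ∈ E, x ^ r = 1) → (∃ b : Fˣ, E.prod * b ^ finrank F V = 1) → ω ∈ E → 1 ∈ E → ∃ c : Fˣ, E.map (c * ·⁻¹) = E := fun E a b c x y => by
    obtain ⟨g, g1, g2, g3⟩ := diag_nec hP e E a b c x y n1
    obtain ⟨C, hC⟩ := h g g1 g2
    simpa using desc_ev (t := -1) (C := C) x (by simpa only [g3, _root_.zpow_neg_one] using hC)
  by_cases n35 : finrank F V = 3 ∨ finrank F V = 5; swap
  · obtain ⟨c, k⟩ := key (ω ::ₘ ω ::ₘ (ω * ω)⁻¹ ::ₘ .replicate (finrank F V - 3) 1) (by simp; omega) (by simp +contextual [Multiset.mem_replicate, mul_pow, wr]) ⟨1, by simp [← mul_assoc]⟩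
      (by simp) (by simp [Multiset.mem_replicate]; omega)
    exact (cnt_false n1 n2 n4 (by by_cases k : r = 3; omega; have := mt n3' k; simp only [ne_eq, this, not_false_iff, and_true]; omega) fun x => (congrArg (Multiset.count (c * x⁻¹)) k.symm).trans
      (Multiset.count_map_eq_count' _ _ ((mul_right_injective c).comp inv_injective) x)).elim
  by_contra H
  obtain ⟨c, k⟩ := key (ω ::ₘ .replicate (finrank F V - 1) 1) (by simp; omega) (by simp +contextual [Multiset.mem_replicate, wr]) (by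
    by_cases rn : finrank F V = r
    · have := mt (npow_iff (G := Fˣ) (r := r) (by rwa [Nat.card_units, Nat.card_eq_fintype_card]) r).1 fun k => H ⟨by omega, rn, by
        rw [Nat.card_units, Nat.card_eq_fintype_card] at k
        have := (Nat.pow_dvd_pow_iff_le_right hr.out.one_lt).1 (k.trans (pow_one r).symm.dvd)
        have := one_le_padicValNat_of_dvd (by have := Fintype.one_lt_card (α := F); omega) d
        omega⟩
      push Not at this
      obtain ⟨b, hb⟩ := not_forall.1 fun k => this ω⁻¹ k (by simp [wr])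
      exact ⟨b, by simp [rn, not_not.1 hb]⟩
    obtain ⟨m, hm⟩ := exists_pow_eq_self_of_coprime (x := ω⁻¹) (n := finrank F V) (by
      rw [orderOf_inv, hω]; exact (Nat.coprime_primes (by rcases n35 with k | k <;> rw [k] <;> decide) hr.out).2 rn)
    exact ⟨ω⁻¹ ^ m, by rw [pow_right_comm, hm]; simp⟩) (by simp) (by simp [Multiset.mem_replicate]; omega)
  obtain rfl : c = 1 := by_contra fun c1 => by
    have := congrArg (Multiset.count c) k
    simp [Multiset.count_cons, Multiset.count_replicate, Ne.symm c1] at this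
    split_ifs at this <;> omega
  exact n2 (by simpa [inv_eq_iff_mul_eq_one] using k)

theorem sym_suf (h35 : r = 3 ∨ r = 5) (e : finrank F V = r) (v : padicValNat r (Fintype.card F - 1) = 1)
    (h : ∀ g : V ≃ₗ[F] V, g ^ r = 1 → (ev (g : End F V)).map (·⁻¹) = ev (g : End F V) → P g) : ElG LinearEquiv.det.ker r P := by
  haveI : Nontrivial V := nontrivial_of_finrank_pos (R := F) (by omega)
  have d : r ∣ Fintype.card F - 1 := dvd_of_one_le_padicValNat v.ge
  refine (elg_iff hP).2 ⟨fun g g1 _ ⟨b, hb⟩ => ?_, fun z np g g1 g2 => ?_⟩; swap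
  · obtain ⟨k, k1, k2⟩ := det_npow np g2
    exact absurd (by simpa [g1] using k2.symm) ((noz_iff hr.out.ne_zero d).2 ⟨by simp [v], by omega⟩ z np k (e ▸ k1))
  have b1 : b ^ (Fintype.card F - 1) = 1 := Units.ext (by simpa using FiniteField.pow_card_sub_one_eq_one b.1 b.ne_zero)
  have b9 : b ^ r ^ 2 = 1 := by rw [sq, pow_mul, ← e, eq_inv_of_mul_eq_one_right hb, e, inv_pow, ← map_pow, g1]; simp
  have : b ^ r = 1 := orderOf_dvd_iff_pow_eq_one.1 (by
    have a1 := orderOf_dvd_of_pow_eq_one b1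
    obtain ⟨j, hj, k⟩ := (Nat.dvd_prime_pow (m := 2) hr.out).1 (orderOf_dvd_of_pow_eq_one b9)
    rw [k] at a1 ⊢
    rw [padicValNat_dvd_iff_le (by have := Fintype.one_lt_card (α := F); omega), v] at a1
    simpa using pow_dvd_pow r a1)
  rw [e, this, mul_one] at hb
  obtain ⟨ω, hω⟩ := exists_root_ord d
  have hζ : IsPrimitiveRoot (algebraMap F (AlgebraicClosure F) ω.1) r := (IsPrimitiveRoot.coe_units_iff.2 (hω ▸ IsPrimitiveRoot.orderOf ω)).map_of_injective (algebraMap F _).injective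
  let ψ := AddChar.zmodChar r hζ.pow_eq_one
  have inj : Function.Injective ψ := fun a b e => ZMod.val_injective r (hζ.pow_inj a.val_lt b.val_lt e)
  have : ∀ x, x ^ r = 1 → ∃ j, ψ j = x := fun x hx => let ⟨i, _, h⟩ := hζ.eq_pow_of_pow_eq_one hx; ⟨i, h ▸ AddChar.zmodChar_apply' _ _⟩
  choose l hl using this
  obtain ⟨E, hE⟩ : ∃ E : Multiset (ZMod r), ev (g : End F V) = E.map ψ :=
    ⟨(ev (g : End F V)).pmap l fun x hx => pow_of_mem_ev (by rw [coe_pow_end, g1]; rfl) hx, by simp [Multiset.map_pmap, hl, Multiset.pmap_eq_map]⟩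
  obtain ⟨t, ht⟩ := sym_comb h35 (E := E) (.trans (by rw [← card_ev (g : End F V), hE, Multiset.card_map]) e) (inj (by
    have := prod_ev (g : End F V)
    rw [hE, ← LinearEquiv.coe_det, hb] at this
    rw [ψ.map_zero_eq_one, ← show (E.map ψ).prod = 1 by simpa using this]
    clear this hE
    induction E using Multiset.induction_on with
    | empty => simp
    | cons a E ih => simp [ψ.map_add_eq_mul, ih]))
  have k : ev ((g * scal V (ω ^ t.val) : V ≃ₗ[F] V) : End F V) = (E.map (t + ·)).map ψ := by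
    rw [ev_mul_scal, hE, Multiset.map_map, Multiset.map_map]
    exact Multiset.map_congr rfl fun x _ => by simp [ψ.map_add_eq_mul, ψ, AddChar.zmodChar_apply]
  simpa [mul_assoc, ← map_mul, -map_inv, -map_pow] using hP _ (ω ^ t.val)⁻¹ (h (g * scal V (ω ^ t.val)) (by
    rw [Commute.mul_pow (scal_comm _ _), g1, ← map_pow, pow_right_comm, show ω ^ r = 1 from hω ▸ pow_orderOf_eq_one ω]; simp) (by
    rw [k]; conv_rhs => rw [← ht]
    rw [Multiset.map_map (·⁻¹), Multiset.map_map ψ (-1 * ·)]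
    exact Multiset.map_congr rfl fun x _ => by simp [ψ.map_neg_eq_inv]))
end H5
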