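import Cfsg.Agent.H5.Cj5
/-! Elements of odd prime order of `PSL` and subfield subgroups. -/
set_option autoImplicit false
namespace H5
open Module Pointwise Matrix Form Polynomial

universe u
variable {F : Type u} [Field F] {r k n : ℕ} {F₀ : Subfield F} [Fintype F] [NeZero n] {q₀ : ℕ} (h₀ : Nat.card F₀ = q₀) [hr : Fact r.Prime] (r0 : (r : F) ≠ 0)
include h₀ r0
theorem sub_nec {g : (Fin n → F) ≃ₗ[F] (Fin n → F)} (e : g ^ r = 1) (h : SLC (subH n F₀) g) : ∃ C, (ev g.toLinearMap).map (C * · ^ q₀) = ev g.toLinearMap := by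
  obtain ⟨c, h⟩ := (sub_iff h₀ r0 (z := 1) (by simpa)).1 h
  rw [ev_mul_scal] at h
  have c0 : algebraMap F (AlgebraicClosure F) c.1 ≠ 0 := by simp
  refine ⟨(algebraMap F _ c.1)⁻¹ * algebraMap F _ c.1 ^ q₀, Multiset.map_injective (mul_right_injective₀ c0) (.trans ?_ h)⟩
  rw [Multiset.map_map, Multiset.map_map]
  exact Multiset.map_congr rfl fun x _ => by simp [mul_pow, mul_assoc]

theorem sub_odd (hq : Fintype.card F = q₀ ^ k) (hk : k.Prime) (r2 : r ≠ 2) (gap : ¬ (n = 6 ∧ r = 3)) (gk : r = k → r ∣ q₀ - 1 → padicValNat r n ≤ padicValNat r (Fintype.card F - 1))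
    (d : r ∣ (subH n F₀).relIndex LinearEquiv.det.ker) : ElG LinearEquiv.det.ker r (SLC (subH n F₀)) ↔ r = k ∨ k = 2 ∧ r = n ∧ (n = 3 ∨ n = 5) ∧ padicValNat r (q₀ + 1) = 1 := by
  classical
  haveI := Fintype.ofFinite F₀
  have q1 : 1 < q₀ := h₀ ▸ Finite.one_lt_card
  have hP : ∀ (g : (Fin n → F) ≃ₗ[F] (Fin n → F)) b, SLC (subH n F₀) g → SLC (subH n F₀) (g * scal _ b) := fun g b h => h.scal (b := b) scal_subH
  have pw : ∀ {g : (Fin n → F) ≃ₗ[F] (Fin n → F)}, g ^ r = 1 → ∀ x ∈ ev g.toLinearMap, x ^ r = 1 := fun h x => pow_of_mem_ev (by rw [coe_pow_end, h]; rfl)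
  have dv : ∀ {a : ℕ}, 1 ≤ a → (r ∣ a - 1 ↔ (a : ZMod r) = 1) := fun h => by rw [← ZMod.natCast_eq_zero_iff, Nat.cast_sub h, sub_eq_zero, Nat.cast_one]
  by_cases rk : r = k
  · subst rk
    refine iff_of_true ((elg_iff hP).2 ⟨fun g g1 _ _ => (sub_iff h₀ r0 (z := 1) (by simpa)).2 ⟨1, ?_⟩, fun z np g g1 g2 => ?_⟩) (.inl rfl)
    · rw [map_one, mul_one]
      refine .trans (Multiset.map_congr rfl fun x hx => pow_eq_pow_of_modEq ?_ (pw g1 x hx)) (ev_frob _)
      rw [← ZMod.natCast_eq_natCast_iff, hq]; simp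
    by_cases d : r ∣ Fintype.card F - 1; swap
    · exact absurd np (no_npow (hr.out.coprime_iff_not_dvd.2 d) z)
    obtain ⟨k, k1, k2⟩ := det_npow np g2
    exact absurd (by simpa [g1] using k2.symm) ((noz_iff (NeZero.ne n) d).2 ⟨gk rfl ((dv q1.le).2 (by simpa [hq] using (dv Fintype.card_pos).1 d)), by omega⟩ z np k (by simpa using k1))
  obtain ⟨j, j2, jn, j3, j4⟩ : ∃ j, 2 ≤ j ∧ j ≤ n ∧ (q₀ ^ j : ZMod r) ^ k = 1 ∧ (q₀ ^ j : ZMod r) ≠ 1 := by
    by_contra! H; exact sub_index h₀ hq r0 (mt (Nat.prime_dvd_prime_iff_eq hr.out hk).1 rk) H d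
  have i0 := ord_pos hr.out r0
  have ij : orderOf (Fintype.card F : ZMod r) ∣ j := orderOf_dvd_of_pow_eq_one (by rw [hq, Nat.cast_pow, pow_right_comm, j3])
  have := Nat.le_of_dvd (by omega) ij
  rw [or_iff_right rk]
  by_cases i1 : orderOf (Fintype.card F : ZMod r) = 1; swap
  · have cop := cop_of_ord Fintype.card_pos hr.out i1
    refine iff_of_false (fun E => ?_) fun ⟨k2, _, _, v⟩ => i1 ?_; swap
    · have := (ZMod.natCast_eq_zero_iff _ _).2 (dvd_of_one_le_padicValNat v.ge)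
      simp [hq, k2, show (q₀ : ZMod r) = -1 from eq_neg_of_add_eq_zero_left (by simpa using this)]
    obtain ⟨g, g1, g2⟩ := exists_mv r0 rfl (V := Fin n → F) (k := 1) (by simp; omega)
    obtain ⟨u, -, h⟩ := E g (one_of_cop cop (by rw [← map_pow, g1, map_one])) ⟨1, by simpa⟩ fun c h => by
      obtain rfl : c = 1 := one_of_cop cop (scal_injective (V := Fin n → F) (by rw [map_pow, ← h, g1, map_one]))
      rw [h, map_one, mv_one, finrank_bot] at g2; omega
    obtain ⟨y, c, h⟩ := mem_subH.1 h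
    have c0 := bc_scal (y := y) (r := r) (z := c⁻¹ ^ r) (by rw [eq_mul_inv_of_mul_eq h.symm, ← map_inv, Commute.mul_pow (scal_comm _ _), conj_pow', g1]; simp)
    replace c0 : c.1 ∈ F₀ := by
      rw [mem_subfield_iff, h₀] at c0 ⊢
      have := one_of_cop cop (c := c ^ q₀ / c) (Units.ext (by simpa [div_pow, div_eq_one_iff_eq, pow_right_comm _ q₀] using c0))
      simpa [div_eq_one_iff_eq] using congrArg Units.val this
    obtain ⟨y', h⟩ : ∃ y', u⁻¹ * g * u = bc F₀ y' := ⟨y * As.sc _ (.mk0 ⟨_, c0⟩ (by simp [Subtype.ext_iff])), by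
      rw [h, map_mul]; congr 1; exact LinearEquiv.ext fun v => funext fun i => by simp [bc, mulVec, dotProduct, one_apply, apply_ite]⟩
    have := ord_dvd_mv (F := F₀) (fun k => r0 (by simpa using congrArg Subtype.val k)) rfl (g := glEquiv y') (by
      rw [← map_pow, show y' ^ r = 1 from bc_inj (by rw [map_pow, ← h, conj_pow', g1]; simp), map_one])
    rw [← mv_bc, ← h, finrank_mv_conj, g2, mul_one, ← Nat.card_eq_fintype_card (α := F₀), h₀] at this
    exact j4 (orderOf_dvd_iff_pow_eq_one.1 (this.trans ij))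
  rw [orderOf_eq_one_iff] at i1
  have d1 := (dv Fintype.card_pos).2 i1
  have u1 : (q₀ : ZMod r) ≠ 1 := fun k => j4 (by simp [k])
  rw [hq, Nat.cast_pow] at i1
  rcases hk.eq_two_or_odd' with rfl | ⟨t, ht⟩
  · replace i1 := (sq_eq_one_iff.1 i1).resolve_left u1
    have iv : ∀ x : AlgebraicClosure F, x ^ r = 1 → x ^ q₀ = x⁻¹ := fun x hx => eq_inv_of_mul_eq_one_left (by
      obtain ⟨a, ha⟩ := (ZMod.natCast_eq_zero_iff (q₀ + 1) r).1 (by simp [i1])
      rw [← pow_succ, ha, pow_mul, hx, one_pow])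
    have v : padicValNat r (Fintype.card F - 1) = padicValNat r (q₀ + 1) := by
      rw [hq, show q₀ ^ 2 - 1 = (q₀ + 1) * (q₀ - 1) from Nat.sq_sub_sq _ 1, padicValNat.mul (by omega) (by omega), padicValNat.eq_zero_of_not_dvd (mt (dv q1.le).1 u1), add_zero]
    have : j ≠ 2 := by rintro rfl; exact j4 (by simp [i1])
    refine ⟨fun E => ?_, fun ⟨_, a, b, c⟩ => sym_suf hP (by omega) (by simp [a]) (v.trans c) fun g g1 g2 => (sub_iff h₀ r0 (z := 1) (by simpa)).2 ⟨1, ?_⟩⟩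
    · have := sym_nec hP r2 d1 (by simp; omega) (by simpa only [finrank_fin_fun]) (fun g g1 g2 => (sub_nec h₀ r0 g1 g2).imp fun C h =>
        .trans (Multiset.map_congr rfl fun x hx => by rw [iv x (pw g1 x hx)]) h) E
      rw [finrank_fin_fun, v] at this; omega
    rw [map_one, mul_one]
    exact .trans (Multiset.map_congr rfl fun x hx => iv x (pw g1 x hx)) g2
  refine iff_of_false (fun E => ?_) (by omega)
  have u2 : (q₀ : ZMod r) ^ 2 ≠ 1 := fun k => u1 (by rwa [ht, pow_succ, pow_mul, k, one_pow, one_mul] at i1)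
  have u0 : (q₀ : ZMod r) ≠ 0 := fun k => by simp [k, ht] at i1
  have r3 : r ≠ 3 := by rintro rfl; exact u2 (ZMod.pow_card_sub_one_eq_one u0)
  obtain ⟨ω, hω⟩ := exists_root_ord d1
  have wr : ω ^ r = 1 := hω ▸ pow_orderOf_eq_one ω
  have ne : ∀ a b : ℕ, ω ^ a = ω ^ b → (a : ZMod r) = b := fun a b e => (ZMod.natCast_eq_natCast_iff _ _ _).2 (hω ▸ pow_eq_pow_iff_modEq.1 e)
  have n2 : ω ≠ ω⁻¹ := fun e => r2 ((Nat.prime_dvd_prime_iff_eq hr.out Nat.prime_two).1 (hω ▸ orderOf_dvd_of_pow_eq_one (by rw [sq, ← eq_inv_iff_mul_eq_one, ← e])))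
  obtain ⟨g, g1, g2, g3⟩ := diag_nec hP E (ω ::ₘ ω⁻¹ ::ₘ .replicate (n - 2) 1) (by simp; omega) (by simp +contextual [Multiset.mem_replicate, wr]) ⟨1, by simp⟩ (by simp) (by simp) n2
  obtain ⟨C, hC⟩ := sub_nec h₀ r0 g1 g2
  obtain ⟨c, hc⟩ := desc_ev (t := q₀) (C := C) (Multiset.mem_cons_self ω _) (by simpa only [g3, zpow_natCast] using hC)
  have m := hc ▸ Multiset.mem_map_of_mem (c * · ^ (q₀ : ℤ)) (Multiset.mem_cons_self ω (ω⁻¹ ::ₘ .replicate (n - 2) 1))
  have cr : c ^ r = 1 := by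
    have : (c * ω ^ q₀) ^ r = 1 := by simp only [Multiset.mem_cons, Multiset.mem_replicate, zpow_natCast] at m; rcases m with m | m | ⟨-, m⟩ <;> simp [m, wr]
    rwa [mul_pow, pow_right_comm, wr, one_pow, mul_one] at this
  obtain rfl : c = 1 := by_contra fun c1 => by
    have a := congrArg (Multiset.count c) hc
    have b := congrArg Multiset.prod hc
    have cn : c ^ n = 1 := by
      rw [← show n - 2 + 1 + 1 = n by omega, pow_succ', pow_succ']; simpa [mul_assoc, mul_left_comm _ c] using b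
    have := Nat.le_of_dvd (n := n) (by omega) (hr.out.coprime_iff_not_dvd.not_left.1 fun k => c1 (by have := pow_gcd_eq_one.2 ⟨cr, cn⟩; rwa [k.gcd_eq_one, pow_one] at this))
    have : r ≠ 4 := by rintro rfl; exact absurd hr.out (by decide)
    have := hr.out.two_le
    simp only [Multiset.map_cons, Multiset.map_replicate, Multiset.count_cons, Multiset.count_replicate, _root_.one_zpow, mul_one, if_true, Ne.symm c1, if_false] at a
    split_ifs at a <;> omega
  simp only [Multiset.mem_cons, Multiset.mem_replicate, zpow_natCast, one_mul] at m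
  rcases m with m | m | ⟨-, m⟩
  · exact u1 (by simpa using ne q₀ 1 (by simpa))
  · exact u2 (by exact_mod_cast ne (q₀ ^ 2) 1 (by simp [sq, pow_mul, m]))
  · exact u0 (by simpa using ne q₀ 0 (by simpa))
end H5
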