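import Cfsg.Agent.H5.Cj5
/-! Elements of prime order of `PSL` and similarity groups of unitary and quadratic forms. -/
set_option autoImplicit false
namespace H5
open Module Pointwise Matrix Form Polynomial

universe u
variable {F : Type u} [Field F] {κ : Kind F} {V : Type u} [AddCommGroup V] [Module F V] [FiniteDimensional F V] {r m k : ℕ} {z b c : Fˣ} {g : V ≃ₗ[F] V} {H : Subgroup (V ≃ₗ[F] V)}

theorem elg_gl {n : ℕ} [NeZero n] {H : Subgroup (GL (Fin n) F)} : (∀ x ∈ Cfsg.Geo.specialLinear (Fin n) F, (∃ z : F, (x ^ r).1 = z • 1) → (∀ z : F, x.1 ≠ z • 1) →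
    ∃ g ∈ Cfsg.Geo.specialLinear (Fin n) F, g⁻¹ * x * g ∈ H) ↔ ElG LinearEquiv.det.ker r (SLC (H.comap (glEquiv (ι := Fin n) (F := F)).symm.toMonoidHom)) := by
  have k : ∀ x : GL (Fin n) F, x ∈ Cfsg.Geo.specialLinear (Fin n) F ↔ LinearEquiv.det (glEquiv x) = 1 := fun x => by rw [det_glEquiv']; rfl
  rw [← elg_mat (.id _) (M := (· ∈ Cfsg.Geo.specialLinear (Fin n) F)) fun g => ⟨fun a => ⟨glEquiv.symm g, (k _).2 (by simpa using a), by simp⟩, fun ⟨x, a, b⟩ => b ▸ (k x).1 a⟩]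
  exact forall₄_congr fun x _ _ _ => ⟨fun ⟨P, a, h⟩ => ⟨glEquiv P, (k P).1 a, by simpa using h⟩, fun ⟨t, a, h⟩ => ⟨glEquiv.symm t, (k _).2 (by simpa using a), by simpa using h⟩⟩

theorem relIndex_gl {n : ℕ} (H : Subgroup (GL (Fin n) F)) : H.relIndex (Cfsg.Geo.specialLinear (Fin n) F) = (H.comap (glEquiv (ι := Fin n) (F := F)).symm.toMonoidHom).relIndex LinearEquiv.det.ker := by
  rw [Subgroup.relIndex_comap]; congr 1; ext g
  refine ⟨fun e => ⟨glEquiv g, (det_glEquiv' _).trans e, by simp⟩, fun ⟨t, a, e⟩ => ?_⟩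
  obtain ⟨t, rfl⟩ := glEquiv.surjective t
  obtain rfl : t = g := by simpa using e
  exact (det_glEquiv' _).symm.trans a

theorem Form.Nondeg.ev_sim' {Φ : Form κ V} (n : Φ.Nondeg) (p k : ℕ) [Fact p.Prime] [CharP F p] (hσ : ∀ a, κ.σ a = a ^ p ^ k) (h : ∀ u v, Φ.B (g u) (g v) = c * Φ.B u v) (d : r ∣ p ^ k - 1)
    (r0 : r ≠ 0) (e : g ^ r = 1) : ∃ C, (ev (g : End F V)).map (C * ·⁻¹) = ev (g : End F V) := by
  obtain ⟨r, rfl⟩ := Nat.exists_eq_add_one_of_ne_zero r0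
  have a := aroots_map_pow p k κ.σ hσ (n.adj (g : End F V)).charpoly
  rw [n.charpoly_adj, n.adj_eq (g := aeval (g : End F V) (C (κ.σ c.1) * X ^ r)) fun x y => by
    have := h x ((g ^ r) y)
    rw [← LinearEquiv.mul_apply, ← pow_succ', e] at this
    simpa [coe_pow_end] using this, ← ev, ← ev, ev_aeval, Multiset.map_map] at a
  refine ⟨algebraMap F _ (κ.σ c.1) ^ p ^ k, .trans (Multiset.map_congr rfl fun x hx => ?_) a.symm⟩
  have := pow_of_mem_ev (r := r + 1) (by rw [coe_pow_end, e]; rfl) hx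
  simp [mul_pow, pow_eq_pow_of_modEq ((Nat.modEq_iff_dvd' (Nat.one_le_pow k p (Fact.out : p.Prime).pos)).2 d).symm this,
    eq_inv_of_mul_eq_one_left ((pow_succ _ r).symm.trans this)]

theorem Form.Nondeg.orth_nd {Φ : Form (.orth F) V} (n : Φ.Nondeg) (h2 : (2 : F) ≠ 0) (h : m ≤ finrank F V) : ∃ W : Submodule F V, finrank F W = m ∧ (Φ.res W).Nondeg := by
  obtain ⟨b, -, hb⟩ := n.exists_orth_basis h2 (ι := Fin m ⊕ Fin (finrank F V - m)) (by simp; omega)
  refine ⟨.span F (Set.range (b ∘ .inl)), by rw [finrank_span_eq_card (b.linearIndependent.comp _ Sum.inl_injective)]; simp, fun y hy => Subtype.ext (n _ fun x => ?_)⟩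
  refine LinearMap.congr_fun (b.ext (f₁ := Φ.B.flip y) (f₂ := 0) ?_) x
  rintro (i | j)
  · exact hy ⟨_, Submodule.subset_span ⟨i, rfl⟩⟩
  · exact Submodule.span_le.2 (show _ ⊆ (LinearMap.ker (Φ.B (b (.inr j))) : Set V) by rintro _ ⟨i, rfl⟩; exact hb _ _ (by simp)) y.2

theorem Form.Nondeg.orth_sqrt [Finite F] {Φ : Form (.orth F) V} (n : Φ.Nondeg) (h2 : (2 : F) ≠ 0) (h : finrank F V = 2 * k) (z : Fˣ) :
    ∃ s : V ≃ₗ[F] V, s ^ 2 = scal V z ∧ ∀ u v, Φ.B (s u) (s v) = z * Φ.B u v := by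
  obtain ⟨b, b0, hb⟩ := n.exists_orth_basis h2 (ι := Fin k ⊕ Fin k) (by simp; omega)
  have : ∀ i, ∃ a t : F, a * a + Φ.Q (b (.inl i)) * Φ.Q (b (.inr i)) * (t * t) = z := fun i => by
    haveI := Fintype.ofFinite F
    have := mul_ne_zero (b0 (.inl i)) (b0 (.inr i))
    obtain ⟨a, t, h⟩ := FiniteField.exists_root_sum_quadratic (R := F) (f := X ^ 2 - C z.1) (g := C (Φ.Q (b (.inl i)) * Φ.Q (b (.inr i))) * X ^ 2) (degree_X_pow_sub_C two_pos _)
      (degree_C_mul_X_pow _ this) (odd_of_two_ne h2)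
    exact ⟨a, t, by simp at h; linear_combination h⟩
  choose a t h using this
  let s := b.constr F (Sum.elim (fun i => a i • b (.inl i) + (Φ.Q (b (.inl i)) * t i) • b (.inr i)) fun i => (Φ.Q (b (.inr i)) * t i) • b (.inl i) - a i • b (.inr i))
  have s2 : ∀ x, s (s x) = z.1 • x := LinearMap.congr_fun (b.ext (f₁ := s ∘ₗ s) (f₂ := z.1 • .id) (by
    rintro (i | i) <;> simp only [s, LinearMap.comp_apply, Basis.constr_basis, Sum.elim_inl, Sum.elim_inr, map_add, map_sub, map_smul, LinearMap.smul_apply, LinearMap.id_apply, ← h i] <;> module))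
  have ad : ∀ x y, Φ.B (s x) y = Φ.B x (s y) := LinearMap.congr_fun₂ (LinearMap.ext_basis b b (B := Φ.B ∘ₗ s) (B' := Φ.B.compl₂ s) (by
    rintro (i | i) (j | j) <;> obtain rfl | k := eq_or_ne i j <;> simp [s, hb, orth_self, *] <;> ring))
  clear_value s
  have su : Function.Surjective s := fun x => ⟨s (z.1⁻¹ • x), by rw [s2]; simp⟩
  exact ⟨.ofBijective s ⟨LinearMap.injective_iff_surjective.2 su, su⟩, LinearEquiv.ext fun x => s2 x, fun u v => (ad u (s v)).trans (by simp [s2])⟩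

variable [Fintype F] [hr : Fact r.Prime] {Φ : Form κ V} (n : Φ.Nondeg)
include n
theorem Blk.slc_sym [Nontrivial V] (B : Blk κ r 2) (le : Φ.isom ≤ H) (iso : ∀ (U : Type u) [AddCommGroup U] [Module F U] [FiniteDimensional F U] (Ψ : Form κ U), Ψ.Nondeg → finrank F U = finrank F V →
    ∃ e : U ≃ₗ[F] V, ∀ x ∈ Ψ.isom, autCongr e x ∈ Φ.isom) (nd : ∀ m ≤ finrank F V, ∃ W : Submodule F V, finrank F W = m ∧ (Φ.res W).Nondeg)
    (e : g ^ r = 1) (h : (ev (g : End F V)).map (·⁻¹) = ev (g : End F V)) : SLC H g := by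
  obtain ⟨w, ok, o, U₀, _, _, _, Ψ₀, n₀, d₀, c₀⟩ := B
  obtain ⟨ψ, hψ⟩ := exists_char ok.ne
  have pw : ∀ {g : V ≃ₗ[F] V}, g ^ r = 1 → (g : End F V) ^ r = 1 := fun h => by rw [coe_pow_end, h]; rfl
  choose l hl using hψ.2
  obtain ⟨E, hE⟩ : ∃ E : Multiset (ZMod r), ev (g : End F V) = E.map ψ :=
    ⟨(ev (g : End F V)).pmap l fun x hx => pow_of_mem_ev (pw e) hx, by simp [Multiset.map_pmap, hl, Multiset.pmap_eq_map]⟩
  obtain ⟨j, N, rfl⟩ := exists_olift w (E := E) (Multiset.map_injective hψ.1 (by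
    rw [← hE, ← h, hE, Multiset.map_map, Multiset.map_map, show w = -1 by simpa using pow_half w (j := 1) o]
    exact Multiset.map_congr rfl fun x _ => by simp [ψ.map_neg_eq_inv]))
  obtain ⟨U, _, _, _, Ψ, s, s1, s2, s3, s4⟩ := exists_blocks ok hψ n₀ (d₀.trans o.symm) c₀ N
  have a := congrArg Multiset.card hE
  have b := congrArg Multiset.card s4
  simp only [card_ev, Multiset.card_map, Multiset.card_add, Multiset.card_replicate] at a b
  obtain ⟨W, w1, w2⟩ := nd j (by omega)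
  obtain ⟨i, hi⟩ := iso _ _ (s1.prod w2) (by rw [finrank_prod]; omega)
  obtain ⟨t, t1, t2, t3⟩ := exists_ext_one _ i hi s2 s3
  exact (cd_ss (z := 1) ok.ne (by simpa)).slc (le t1) (exists_intertw ok.ne (pw t2) (pw e) (by rw [t3, hE, s4, show finrank F V - finrank F U = j by omega]; simp))

variable (hH : ∀ g, g ∈ H ↔ ∃ c : Fˣ, ∀ u v, Φ.B (g u) (g v) = c * Φ.B u v)
include hH
theorem cop_nec (r0 : (r : F) ≠ 0) (i1 : orderOf (Fintype.card F : ZMod r) ≠ 1) (E : ElG LinearEquiv.det.ker r (SLC H)) (k0 : 0 < k) (h : orderOf (Fintype.card F : ZMod r) * k ≤ finrank F V) :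
    ∃ g : V ≃ₗ[F] V, (∀ u v, Φ.B (g u) (g v) = Φ.B u v) ∧ g ^ r = 1 ∧ finrank F (mv g) = orderOf (Fintype.card F : ZMod r) * k := by
  have := Nat.mul_pos (ord_pos hr.out r0) k0
  haveI : Nontrivial V := nontrivial_of_finrank_pos (R := F) (by omega)
  have cop := cop_of_ord Fintype.card_pos hr.out i1
  obtain ⟨g, g1, g2⟩ := exists_mv r0 rfl h
  obtain ⟨u, -, k⟩ := E g (one_of_cop cop (by rw [← map_pow, g1, map_one])) ⟨1, by simpa⟩ fun c h => by
    obtain rfl : c = 1 := one_of_cop cop (scal_injective (V := V) (by rw [map_pow, ← h, g1, map_one]))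
    rw [h, map_one, mv_one, finrank_bot] at g2; omega
  obtain ⟨c, hc⟩ := (hH _).1 k
  have e : (u⁻¹ * g * u) ^ r = 1 := by simp [conj_pow', g1]
  obtain rfl := one_of_cop cop (n.sim_one hc e)
  exact ⟨_, by simpa using hc, e, by rwa [finrank_mv_conj]⟩

theorem sym_of_slc (p k : ℕ) [Fact p.Prime] [CharP F p] (hσ : ∀ a, κ.σ a = a ^ p ^ k) (d : r ∣ p ^ k - 1) (g : V ≃ₗ[F] V) (e : g ^ r = 1) (h : SLC H g) :
    ∃ C, (ev (g : End F V)).map (C * ·⁻¹) = ev (g : End F V) := by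
  obtain ⟨u, -, h⟩ := h
  obtain ⟨c, h⟩ := (hH _).1 h
  have := n.ev_sim' p k hσ h d hr.out.ne_zero (by simp [conj_pow', e])
  rwa [← ev_congr (a := (g : End F V)) u.symm (by simp)] at this
end H5
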