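import Cfsg.Agent.H5.Cj7
/-! Elements of prime order of `PSL` and the subgroups of unitary and orthogonal type. -/
set_option autoImplicit false
namespace H5
open Module Pointwise Matrix Form Polynomial

universe u
variable {F : Type u} [Field F] {V : Type u} [AddCommGroup V] [Module F V] [FiniteDimensional F V] {r m k : ℕ} {z b c : Fˣ} {g : V ≃ₗ[F] V} {H : Subgroup (V ≃ₗ[F] V)}

theorem exists_orthf {n : ℕ} {Q : (Fin n → F) → F} (hQ : Cfsg.Geo.IsNondegenerateQuadraticForm Q) (h2 : (2 : F) ≠ 0) : ∃ Φ : Form (.orth F) (Fin n → F), Φ.Nondeg ∧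
    ∀ g, g ∈ (Cfsg.Geo.quadSimilarityGroup Q).comap (glEquiv (ι := Fin n) (F := F)).symm.toMonoidHom ↔ ∃ c : Fˣ, ∀ u v, Φ.B (g u) (g v) = c * Φ.B u v := by
  let Φ := ofQuadFun Q (LinearMap.mk₂ F _ hQ.2.1 hQ.2.2 hQ.2.3 hQ.2.4) (fun c x => by rw [hQ.smul, sq]) fun x y => by simp [QuadraticMap.polar]
  refine ⟨Φ, fun y hy => by_contra fun h => (hQ.3 y h).1.elim fun x k => k (hy x), fun g => exists_congr fun c => .trans (b := ∀ v, Φ.Q (g v) = c * Φ.Q v)
    (forall_congr' fun v => by rw [← glEquiv_symm_mulVec g]; rfl) ⟨fun h u v => ?_, fun h v => mul_left_cancel₀ h2 (by rw [← orth_self, h, orth_self]; ring)⟩⟩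
  linear_combination h (u + v) - h u - h v - Φ.orth_add (g u) (g v) + c * Φ.orth_add u v - congrArg Φ.Q (map_add g u v)

variable [Fintype F] {q : ℕ}
theorem exists_unitf (hF : Fintype.card F = q ^ 2) {n : ℕ} {f : (Fin n → F) → (Fin n → F) → F} (hf : Cfsg.Geo.IsUnitaryFormPow q f) : ∃ Φ : Form (unitK hF) (Fin n → F), Φ.Nondeg ∧
    ∀ g, g ∈ (Cfsg.Geo.similarityGroup f).comap (glEquiv (ι := Fin n) (F := F)).symm.toMonoidHom ↔ ∃ c : Fˣ, ∀ u v, Φ.B (g u) (g v) = c * Φ.B u v :=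
  ⟨ofHerm (conj_conj hF) (conj_ne_id hF) (LinearMap.mk₂'ₛₗ (.id F) (conj hF) f hf.1 hf.2 (fun v x y => by rw [hf.3, hf.1, hf.3 v, hf.3 v]; exact map_add (conj hF) _ _)
    fun c v x => by rw [hf.3, hf.2, hf.3 v, mul_pow]; rfl) fun x y => hf.3 y x, fun y hy => by_contra fun h => (hf.4 y h).1.elim fun x k => k (hy x), fun g =>
    exists_congr fun c => forall₂_congr fun u v => by rw [← glEquiv_symm_mulVec g, ← glEquiv_symm_mulVec g]; rfl⟩

section unit
variable {hF : Fintype.card F = q ^ 2} {Φ : Form (unitK hF) V} (n : Φ.Nondeg) (hH : ∀ g, g ∈ H ↔ ∃ c : Fˣ, ∀ u v, Φ.B (g u) (g v) = c * Φ.B u v) (n3 : 3 ≤ finrank F V)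
include n hH n3
theorem unit_el2 : ElG LinearEquiv.det.ker 2 (SLC H) ↔ (2 : F) = 0 ∨ padicValNat 2 (finrank F V) ≤ padicValNat 2 (Fintype.card F - 1) := by
  haveI : Nontrivial V := nontrivial_of_finrank_pos (R := F) (by omega)
  have le : Φ.isom ≤ H := fun g h => (hH g).2 ⟨1, by simp [h.1]⟩
  rw [el2_iff fun c => (hH _).2 ⟨c * Units.map (conj hF) c, fun u v => by simp [mul_assoc, mul_left_comm]⟩, and_iff_right fun t t1 _ _ => ?_]
  · by_cases h2 : (2 : F) = 0
    · exact iff_of_true (fun z np => absurd (by simpa) (ne_of_npow np)) (.inl h2)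
    obtain ⟨t, rfl⟩ : Odd q := (Nat.odd_pow_iff two_ne_zero).1 (Nat.odd_iff.2 (hF ▸ odd_of_two_ne h2))
    have := noz_iff (F := F) (r := 2) (n := finrank F V) (by omega) (by have := odd_of_two_ne h2; omega)
    rw [and_iff_left fun _ _ => by rw [hF]; ring_nf; omega] at this
    rw [or_iff_right h2, ← this]
    refine forall₄_congr fun z np k _ => imp_congr_right fun _ => iff_false_intro fun ⟨s, s1, s2⟩ => ?_
    obtain ⟨c, hc⟩ := (hH s).1 s1
    obtain ⟨v, v0⟩ := exists_ne (0 : V)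
    obtain ⟨u, uv⟩ := n.exists_ne v0
    have a := sim_pow hc 2 u v
    have b := Φ.unit_symm (s u) (s v)
    rw [hc, hc, Φ.unit_symm u, map_mul, mul_left_inj' (by simpa), conj_apply, pow_succ, eq_comm, mul_eq_right₀ c.ne_zero] at b
    obtain ⟨x, hx⟩ := (FiniteField.isSquare_iff (fun e => h2 (by simpa [e] using ringChar.Nat.cast_ringChar (R := F))) z.ne_zero).2 (by
      rw [hF, show (2 * t + 1) ^ 2 / 2 = (2 * t + 1 + 1) * t by ring_nf; omega, pow_mul, pow_succ', ← conj_apply hF, show z * conj hF z = c.1 ^ 2 from mul_right_cancel₀ uv (by simpa [s2, mul_assoc, mul_left_comm (conj hF _)] using a),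
        ← pow_mul, b])
    exact np x (by rw [hx, sq])
  by_cases h2 : (2 : F) = 0
  · haveI := CharTwo.of_one_ne_zero_of_two_eq_zero one_ne_zero h2
    have := mv_le_fix h2 t1
    obtain ⟨g, g1, j⟩ := n.exists_je_unit (μ := .replicate (finrank F (mv t)) 2 + .replicate (finrank F V - 2 * finrank F (mv t)) 1) (by simp +contextual [Multiset.mem_replicate, or_imp]) (by simp; omega)
    exact ⟨g, le g1, j.pow_char 2 (by simp; omega) (by simp +contextual [Multiset.mem_replicate, or_imp]), (j.finrank_range (by simp; omega)).trans (by simp)⟩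
  obtain ⟨W, w1, w2⟩ := n.unit_nd (mv t).finrank_le
  obtain ⟨s, s1, s2⟩ := n.exists_neg' h2 w2
  exact ⟨s, le s1, w1 ▸ s2⟩

theorem unit_odd [hr : Fact r.Prime] (r2 : r ≠ 2) (r0 : (r : F) ≠ 0) (gap : ¬ (finrank F V = 6 ∧ r = 3)) (d : r ∣ H.relIndex LinearEquiv.det.ker) :
    ElG LinearEquiv.det.ker r (SLC H) ↔ (r = 3 ∨ r = 5) ∧ finrank F V = r ∧ padicValNat r (q - 1) = 1 := by
  haveI : Nontrivial V := nontrivial_of_finrank_pos (R := F) (by omega)
  have le : Φ.isom ≤ H := fun g h => (hH g).2 ⟨1, by simp [h.1]⟩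
  have hP : ∀ (g : V ≃ₗ[F] V) b, SLC H g → SLC H (g * scal _ b) := fun g b h => h.scal fun c => (hH _).2 ⟨c * Units.map (conj hF) c, fun u v => by simp [mul_assoc, mul_left_comm]⟩
  have q2 := two_le_of_card_sq hF
  obtain ⟨u, hu⟩ := exists_qu (hF := hF) r0
  have m1 : (-1 : ZMod r) ≠ 1 := fun e => r2 ((Nat.prime_dvd_prime_iff_eq hr.out Nat.prime_two).1 ((ZMod.natCast_eq_zero_iff 2 r).1 (by push_cast; linear_combination -e)))
  obtain ⟨j, jn, hj⟩ : ∃ j, j + 2 ≤ finrank F V ∧ (-q : ZMod r) ^ (j + 2) = -1 := by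
    replace d := mul_card_dvd (S := Φ.sisom) d (inf_le_left.trans le) inf_le_right
    obtain ⟨a, ha⟩ := card_ker_det (F := F) (V := V)
    obtain ⟨s, hs⟩ := Nat.exists_eq_add_one_of_ne_zero (finrank_pos (R := F) (M := V)).ne'
    have k := card_sisom_unit n hs (by omega)
    rw [guOrd, Finset.prod_range_succ', show uf q 0 = q + 1 by simp [uf], ← mul_assoc, mul_comm, mul_left_inj' (by omega)] at k
    rw [ha, k, hF, hs, Nat.add_sub_cancel, Finset.prod_congr rfl fun i _ => (show (q ^ 2) ^ (i + 2) - 1 = (if Even (i + 1) then q ^ (i + 2) - 1 else q ^ (i + 2) + 1) * uf q (i + 1) by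
      rw [pow_right_comm, show _ - 1 = _ from Nat.sq_sub_sq _ 1, uf]; split_ifs <;> [exact mul_comm _ _; rfl]), Finset.prod_mul_distrib, ← mul_assoc, ← mul_assoc,
      Nat.mul_dvd_mul_iff_right (Finset.prod_pos fun i _ => by unfold uf; split_ifs; omega; exact Nat.sub_pos_of_lt (Nat.one_lt_pow (by omega) (by omega)))] at d
    rcases hr.out.dvd_mul.1 ((dvd_mul_right ..).trans d) with d | d
    · exact absurd (hu ▸ (ZMod.natCast_eq_zero_iff _ _).2 (hr.out.dvd_of_dvd_pow (hr.out.dvd_of_dvd_pow d))) u.ne_zero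
    obtain ⟨j, hj, d⟩ := (Prime.dvd_finsetProd_iff hr.out.prime _).1 d
    refine ⟨j, by simp at hj; omega, ?_⟩
    rw [← ZMod.natCast_eq_zero_iff] at d
    split_ifs at d with e
    · rw [Nat.cast_sub (Nat.one_le_pow _ _ (by omega))] at d
      rw [(show Odd (j + 2) from e.add_one).neg_pow]; push_cast at d; linear_combination -d
    · rw [(show Even (j + 2) from (Nat.not_even_iff_odd.1 e).add_one).neg_pow]; push_cast at d; linear_combination d
  have i4 : orderOf (q : ZMod r) % 4 ≠ 2 := fun e => by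
    have := congrArg Units.val (pow_half u (j := orderOf (q : ZMod r) / 2) (by rw [← orderOf_units, hu]; omega))
    have o : Odd (orderOf (q : ZMod r) / 2) := Nat.odd_iff.2 (by omega)
    have k := congrArg (· ^ (orderOf (q : ZMod r) / 2)) hj
    simp only [Units.val_pow_eq_pow_val, hu, Units.val_neg, Units.val_one] at this
    simp only [pow_right_comm _ (j + 2), o.neg_pow, this, neg_neg, one_pow] at k
    exact m1 k.symm
  have B := blk_unit (hF := hF) r2 r0 rfl rfl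
  have b := ord_sq (hF := hF) (r := r) rfl rfl
  rw [(tsk_unit (hF := hF) r2 r0 rfl rfl rfl).2, if_neg i4, b] at B
  have dv : ∀ {a : ℕ}, 1 ≤ a → (r ∣ a - 1 ↔ (a : ZMod r) = 1) := fun h => by rw [← ZMod.natCast_eq_zero_iff, Nat.cast_sub h, sub_eq_zero, Nat.cast_one]
  by_cases i1 : orderOf (Fintype.card F : ZMod r) = 1; swap
  · refine iff_of_false (fun E => ?_) fun ⟨_, _, v⟩ => i1 (by simp [hF, (dv (by omega)).1 (dvd_of_one_le_padicValNat v.ge)])
    have := Nat.le_of_dvd (by omega) (orderOf_dvd_of_pow_eq_one (x := (Fintype.card F : ZMod r)) (n := j + 2) (by rw [hF, Nat.cast_pow, ← neg_sq, pow_right_comm, hj]; simp))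
    obtain ⟨g, g1, g2, g3⟩ := cop_nec n hH r0 i1 E one_pos (by omega)
    obtain ⟨k, hk, -⟩ := B.dim n ((mem_isom_unit _).2 g1) g2
    have := finrank_mv_add g
    have := ord_pos hr.out r0
    rcases k with _ | k <;> [omega; nlinarith]
  rw [i1] at B
  rw [orderOf_eq_one_iff] at i1
  have q1 : (q : ZMod r) = 1 := (sq_eq_one_iff.1 (by simpa only [hF, Nat.cast_pow] using i1)).resolve_right fun e => m1 (by simpa [e] using hj.symm)
  have v : padicValNat r (Fintype.card F - 1) = padicValNat r (q - 1) := by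
    rw [hF, show q ^ 2 - 1 = (q + 1) * (q - 1) from Nat.sq_sub_sq _ 1, padicValNat.mul (by omega) (by omega), padicValNat.eq_zero_of_not_dvd fun e => m1 (by
      have := (ZMod.natCast_eq_zero_iff _ _).2 e; push_cast at this; linear_combination q1 - this), zero_add]
  obtain ⟨p, k, pp, _, -, hq⟩ := exists_pow_of_card_sq hF
  haveI := Fact.mk pp
  exact v ▸ ⟨sym_nec hP r2 ((dv Fintype.card_pos).2 i1) n3 gap (sym_of_slc n hH p k (fun a => hq ▸ rfl) (hq ▸ (dv (by omega)).2 q1)), fun ⟨a, b, c⟩ => sym_suf hP a b c fun g =>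
    B.slc_sym n le (fun U _ _ _ Ψ h1 h2 => let ⟨e, he⟩ := unit_iso h1 n h2; ⟨e, fun x => (he.mem_iff x).1⟩) fun m => n.unit_nd⟩
end unit

variable {Φ : Form (.orth F) V} (n : Φ.Nondeg) (h2 : (2 : F) ≠ 0) (hH : ∀ g, g ∈ H ↔ ∃ c : Fˣ, ∀ u v, Φ.B (g u) (g v) = c * Φ.B u v) (n3 : 3 ≤ finrank F V)
include n h2 hH n3
theorem orth_el2 : ElG LinearEquiv.det.ker 2 (SLC H) := by
  haveI : Nontrivial V := nontrivial_of_finrank_pos (R := F) (by omega)
  refine (el2_iff fun c => (hH _).2 ⟨c * c, fun u v => by simp [mul_assoc]⟩).2 ⟨fun t _ _ _ => ?_, fun z _ k hk _ => ?_⟩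
  · obtain ⟨W, w1, w2⟩ := n.orth_nd h2 (mv t).finrank_le
    obtain ⟨s, s1, s2⟩ := n.exists_neg' h2 w2
    exact ⟨s, (hH s).2 ⟨1, by simp [s1.1]⟩, w1 ▸ s2⟩
  obtain ⟨s, s1, s2⟩ := n.orth_sqrt h2 hk z
  exact ⟨s, (hH s).2 ⟨z, s2⟩, s1⟩

theorem orth_odd [hr : Fact r.Prime] (r2 : r ≠ 2) (gap : ¬ (finrank F V = 6 ∧ r = 3)) (d : r ∣ H.relIndex LinearEquiv.det.ker) :
    ElG LinearEquiv.det.ker r (SLC H) ↔ (r = 3 ∨ r = 5) ∧ finrank F V = r ∧ padicValNat r (Fintype.card F - 1) = 1 := by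
  haveI : Nontrivial V := nontrivial_of_finrank_pos (R := F) (by omega)
  have le : Φ.isom ≤ H := fun g h => (hH g).2 ⟨1, by simp [h.1]⟩
  have hP : ∀ (g : V ≃ₗ[F] V) b, SLC H g → SLC H (g * scal _ b) := fun g b h => h.scal fun c => (hH _).2 ⟨c * c, fun u v => by simp [mul_assoc]⟩
  have mem : ∀ {g : V ≃ₗ[F] V}, (∀ u v, Φ.B (g u) (g v) = Φ.B u v) → g ∈ Φ.isom := fun h => (mem_isom_orth _).2 fun v => mul_left_cancel₀ h2 (by rw [← orth_self, h, orth_self])
  obtain ⟨p, _, _, pp, -⟩ := FiniteField.card' F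
  haveI := Fact.mk pp
  by_cases rp : r = p
  · subst rp
    refine iff_of_false (fun E => ?_) fun ⟨_, _, v⟩ => hr.out.coprime_iff_not_dvd.1 (cop_char r) (dvd_of_one_le_padicValNat v.ge)
    obtain ⟨g, j, g1, g2, g3⟩ := exists_je_aut (F := F) (V := V) r (μ := 2 ::ₘ .replicate (finrank F V - 2) 1) (by have := pp.two_le; simp [Multiset.mem_replicate]; omega) (by simp; omega)
    obtain ⟨u, -, k⟩ := E g g2 ⟨1, by simpa⟩ fun c k => by simpa using g3 c k 2
    obtain ⟨c, hc⟩ := (hH _).1 k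
    obtain rfl := one_of_cop (cop_char r) (n.sim_one hc (by simp [conj_pow', g1]))
    simpa [Multiset.count_replicate] using n.even_count_orth (u := u⁻¹ * g * u) h2 (mem (by simpa using hc)) (j.congr u.symm (by simp)) even_two two_pos
  have r0 := cast_ne (F := F) p hr.out rp
  have i0 := ord_pos hr.out r0
  have B := (blk_so (F := F) r2 p rp rfl rfl).2.1
  by_cases i1 : orderOf (Fintype.card F : ZMod r) = 1
  · rw [i1] at B
    refine ⟨sym_nec hP r2 (by simpa using (dvd_pow_iff (q := Fintype.card F) (r := r) Fintype.card_pos 1).2 (by rw [i1])) n3 gap (sym_of_slc n hH p 0 (by simp) (by simp)),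
      fun ⟨a, b, c⟩ => sym_suf hP a b c fun g => B.slc_sym n le (fun U _ _ _ Ψ h1 h3 => ?_) fun m => n.orth_nd h2⟩
    obtain ⟨e, c, -, he⟩ := odd_sim h1 n (m := r / 2) (by omega) (by omega)
    exact ⟨e, fun x hx => (mem_isom_orth _).2 fun y => by rw [autCongr_apply, he, hx.2, ← he, e.apply_symm_apply]⟩
  refine iff_of_false (fun E => ?_) fun ⟨_, _, v⟩ => hr.out.coprime_iff_not_dvd.1 (cop_of_ord Fintype.card_pos hr.out i1) (dvd_of_one_le_padicValNat v.ge)
  have q0 : (Fintype.card F : ZMod r) ≠ 0 := fun e => by simp [e] at i0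
  have od : ∀ j, 2 * j + 1 ≤ finrank F V → ¬ r ∣ Fintype.card F ^ (2 * j + 1) - 1 := fun j l d => by
    rw [dvd_pow_iff Fintype.card_pos] at d
    have := Nat.le_of_dvd (by omega) d
    obtain ⟨g, g1, g2, g3⟩ := cop_nec n hH r0 i1 E one_pos (by omega)
    rw [if_neg (Nat.not_even_iff_odd.2 (Odd.of_dvd_nat ⟨j, rfl⟩ d))] at B
    obtain ⟨k, hk, -⟩ := B.dim n (mem g1) g2
    have := finrank_mv_add g
    rcases k with _ | k <;> [omega; nlinarith]
  have ty : ∀ m, finrank F V = 2 * m → (Fintype.card F : ZMod r) ^ (2 * m) = 1 → (Φ.HasTS m ↔ (Fintype.card F : ZMod r) ^ m = 1) := fun m e d => by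
    obtain ⟨k, hk⟩ := orderOf_dvd_of_pow_eq_one d
    obtain ⟨g, g1, g2, g3⟩ := cop_nec n hH r0 i1 E (k := k) (Nat.pos_of_ne_zero (by rintro rfl; omega)) (by omega)
    have := finrank_mv_add g
    exact type_of_fpf n r2 q0 e (mem g1) g2 fun x hx => (Submodule.finrank_eq_zero.1 (by omega : finrank F (fixSp g) = 0)).le (mem_fixSp.2 hx)
  replace d : r * Nat.card Φ.isom ∣ Nat.card (V ≃ₗ[F] V) := by
    rw [card_mul_index_inf Φ.isom LinearEquiv.det, mul_left_comm, ← (LinearEquiv.det : (V ≃ₗ[F] V) →* Fˣ).ker.card_mul_index, Subgroup.index_ker, mul_comm (Nat.card (MonoidHom.ker _))]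
    exact mul_dvd_mul (Subgroup.card_dvd_of_le (Subgroup.map_le_range ..)) (mul_card_dvd d (inf_le_left.trans le) inf_le_right)
  obtain ⟨a, ha⟩ := card_aut' (F := F) (V := V)
  have q1 := Fintype.one_lt_card (α := F)
  have pos : ∀ m, 0 < ∏ i ∈ Finset.range m, (Fintype.card F ^ (2 * (i + 1)) - 1) := fun m => Finset.prod_pos fun i _ => Nat.sub_pos_of_lt (Nat.one_lt_pow (by omega) q1)
  have key : ∀ m x, 2 * m ≤ finrank F V + 1 → r ∣ Fintype.card F ^ a * (∏ i ∈ Finset.range m, (Fintype.card F ^ (2 * i + 1) - 1)) * x → r ∣ x := fun m x l d => by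
    refine (hr.out.dvd_mul.1 d).resolve_left fun d => (hr.out.dvd_mul.1 d).elim (fun d => q0 ((ZMod.natCast_eq_zero_iff _ _).2 (hr.out.dvd_of_dvd_pow d))) fun d => ?_
    obtain ⟨j, hj, d⟩ := (Prime.dvd_finsetProd_iff hr.out.prime _).1 d
    exact od j (by simp at hj; omega) d
  rcases (finrank F V).even_or_odd' with ⟨m, e | e⟩; swap
  · rw [ha, card_isom_odd rfl n e, spOrd, e, Finset.prod_range_succ, prod_odd_even fun j => Fintype.card F ^ j - 1, mul_right_comm, ← Finset.prod_range_succ fun i => Fintype.card F ^ (2 * i + 1) - 1,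
      ← mul_assoc, ← mul_assoc, ← mul_assoc, Nat.mul_dvd_mul_iff_right (pos m), mul_assoc] at d
    exact hr.out.not_dvd_one (key (m + 1) 1 (by omega) (by simpa using (dvd_mul_right ..).trans d))
  obtain ⟨m, rfl⟩ := Nat.exists_eq_add_one_of_ne_zero (show m ≠ 0 by omega)
  have q2 := Nat.one_lt_pow (n := m + 1) (by omega) q1
  rw [ha, e, prod_odd_even fun j => Fintype.card F ^ j - 1, Finset.prod_range_succ fun i => Fintype.card F ^ (2 * (i + 1)) - 1, mul_comm 2 (m + 1), pow_mul, show _ - 1 = _ from Nat.sq_sub_sq _ 1] at d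
  have m1 : (-1 : ZMod r) ≠ 1 := fun e => r2 ((Nat.prime_dvd_prime_iff_eq hr.out Nat.prime_two).1 ((ZMod.natCast_eq_zero_iff 2 r).1 (by push_cast; linear_combination -e)))
  by_cases t : Φ.HasTS (m + 1)
  · rw [card_isom_plus rfl n e t, mul_comm (∏ i ∈ .range m, _)] at d
    simp only [← mul_assoc, Nat.mul_dvd_mul_iff_right (pos m), Nat.mul_dvd_mul_iff_right (Nat.sub_pos_of_lt q2)] at d
    have := (ZMod.natCast_eq_zero_iff _ _).2 (key _ _ (by omega) (((dvd_mul_right ..).mul_right _).trans d))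
    push_cast at this
    replace this := eq_neg_of_add_eq_zero_left this
    exact m1 (this ▸ (ty _ e (by rw [mul_comm, pow_mul, this]; simp)).1 t)
  rw [card_isom_minus rfl n e t, mul_comm (∏ i ∈ .range m, _), mul_comm (Fintype.card F ^ (m + 1) + 1)] at d
  simp only [← mul_assoc, Nat.mul_dvd_mul_iff_right (pos m), Nat.mul_dvd_mul_iff_right (Nat.add_one_pos _)] at d
  have := orderOf_dvd_iff_pow_eq_one.1 ((dvd_pow_iff Fintype.card_pos _).1 (key _ _ (by omega) (((dvd_mul_right ..).mul_right _).trans d)))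
  exact t ((ty _ e (by rw [mul_comm, pow_mul, this, one_pow])).2 this)
end H5
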