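import Cfsg.Agent.H5.Cj7
/-! Elements of prime order of `PSL` and stabilizers of tensor decompositions. -/
set_option autoImplicit false
namespace H5
open Module Pointwise Matrix Form Polynomial TensorProduct

universe u
variable {F : Type u} [Field F] {V U W : Type u} [AddCommGroup V] [Module F V] [FiniteDimensional F V] [AddCommGroup U] [Module F U] [FiniteDimensional F U]
  [AddCommGroup W] [Module F W] [FiniteDimensional F W] {r m k : ℕ} {z b c : Fˣ} {g : V ≃ₗ[F] V} {H : Subgroup (V ≃ₗ[F] V)} {A : U ≃ₗ[F] U} {B : W ≃ₗ[F] W}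

section
omit [FiniteDimensional F V] [FiniteDimensional F U] [FiniteDimensional F W]
theorem mv_autCongr (e : U ≃ₗ[F] V) (A : U ≃ₗ[F] U) : finrank F (mv (autCongr e A)) = finrank F (mv A) := by
  refine .trans (congrArg (fun W : Submodule F V => finrank F W) (le_antisymm ?_ ?_)) (e.finrank_map_eq _)
  · rintro _ ⟨x, rfl⟩; exact ⟨_, ⟨e.symm x, rfl⟩, by simp⟩
  · rintro _ ⟨_, ⟨x, rfl⟩, rfl⟩; exact ⟨e x, by simp⟩

variable (T : (U ⊗[F] W) ≃ₗ[F] V)
/-- Tensor product of automorphisms. -/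
noncomputable def tc (A : U ≃ₗ[F] U) (B : W ≃ₗ[F] W) : V ≃ₗ[F] V := autCongr T (congr A B)
@[simp] theorem tc_apply (u : U) (w : W) : tc T A B (T (u ⊗ₜ w)) = T (A u ⊗ₜ B w) := by simp [tc]
theorem tc_ext {f g : V ≃ₗ[F] V} (h : ∀ u w, f (T (u ⊗ₜ w)) = g (T (u ⊗ₜ w))) : f = g :=
  LinearEquiv.ext (T.surjective.forall.2 (LinearMap.congr_fun (TensorProduct.ext' (g := f.toLinearMap ∘ₗ T.toLinearMap) (h := g.toLinearMap ∘ₗ T.toLinearMap) h)))
theorem tc_pow (k : ℕ) : tc T A B ^ k = tc T (A ^ k) (B ^ k) := by rw [tc, ← map_pow, congr_pow]; rfl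
theorem tc_scal (c d : Fˣ) : tc T (scal U c) B * scal V d = tc T 1 (B * scal W (c * d)) := tc_ext T fun u w => by simp [← smul_tmul', smul_smul, mul_comm]
theorem tc_left (c : Fˣ) : tc T (scal U c) 1 = scal V c := tc_ext T fun u w => by simp [← smul_tmul']
end

variable {T : (U ⊗[F] W) ≃ₗ[F] V}
theorem tens_le (h : ∀ c, A ≠ scal U c) : finrank F W ≤ finrank F (mv (tc T A B)) := by
  rw [tc, mv_autCongr]
  obtain ⟨v, hv⟩ : ∃ v, LinearIndependent F ![v, A v] := by_contra fun k => by
    obtain ⟨a, ha⟩ := (A : End F U).exists_eq_smul_id_of_forall_notLinearIndependent (not_exists.1 k)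
    rcases subsingleton_or_nontrivial U with _ | _
    · exact h 1 (Subsingleton.elim _ _)
    obtain ⟨v, v0⟩ := exists_ne (0 : U)
    exact h (.mk0 a (by rintro rfl; exact v0 (by simpa using LinearMap.congr_fun ha v))) (LinearEquiv.ext (by simpa using LinearMap.congr_fun ha))
  obtain ⟨φ, h1, h2⟩ := Submodule.exists_le_ker_of_notMem (p := F ∙ A v) (v := v) fun k => by
    obtain ⟨a, ha⟩ := Submodule.mem_span_singleton.1 k
    simpa using (LinearIndependent.pair_iff.1 hv (-1) a (by simp [ha])).1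
  refine (LinearMap.finrank_range_of_inj (f := nl (congr A B) ∘ₗ TensorProduct.mk F U W v) ((injective_iff_map_eq_zero _).2 fun w hw => ?_)).ge.trans (Submodule.finrank_mono (LinearMap.range_comp_le_range ..))
  simpa [h1, show φ (A v) = 0 from h2 (Submodule.mem_span_singleton_self _)] using congrArg (TensorProduct.lid F W ∘ φ.rTensor W) hw

theorem tens_one : finrank F (mv (tc T 1 B)) = finrank F U * finrank F (mv B) := by
  rw [tc, mv_autCongr, mv, show (congr (1 : U ≃ₗ[F] U) B : End F _) - .id = (nl B).lTensor U from TensorProduct.ext' (by simp [tmul_sub]), LinearMap.lTensor_range,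
    LinearMap.finrank_range_of_inj (Flat.lTensor_preserves_injective_linearMap _ (Submodule.injective_subtype _)), finrank_tensorProduct]; rfl

theorem exists_tens {n a b : ℕ} (e : Fin n ≃ Fin a × Fin b) (P : GL (Fin n) F) : ∃ T : ((Fin a → F) ⊗[F] (Fin b → F)) ≃ₗ[F] (Fin n → F),
    ∀ g, g ∈ (Cfsg.Geo.tensorProductSubgroup a b e P).comap (glEquiv (ι := Fin n) (F := F)).symm.toMonoidHom ↔ ∃ A B, g = tc T A B := by
  refine ⟨((Pi.basisFun F _).tensorProduct (Pi.basisFun F _)).equivFun.trans (As.cov e P), fun g => As.mem_tensor.trans (glEquiv.exists_congr fun A => glEquiv.exists_congr fun B => ?_)⟩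
  rw [MulEquiv.toMonoidHom_eq_coe, MonoidHom.coe_coe, MulEquiv.symm_apply_eq]
  refine iff_of_eq (congrArg _ ((MulEquiv.symm_apply_eq _).1 (LinearEquiv.toLinearMap_injective (TensorProduct.ext' fun v w => ?_))))
  simp only [LinearEquiv.coe_coe, autCongr_symm_apply, LinearEquiv.symm_apply_eq, LinearEquiv.trans_apply, glEquiv_apply, As.cog_coe, As.co_mulVec]
  congr 1; ext ⟨i, j⟩
  simp [mulVec, dotProduct, Fintype.sum_prod_type, Finset.sum_mul_sum, mul_comm, mul_left_comm, mul_assoc]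

variable (hH : ∀ g, g ∈ H ↔ ∃ A B, g = tc T A B)
include hH
theorem tens_small (h : SLC H g) (l : finrank F (mv g) < finrank F W) (c : Fˣ) : finrank F U ∣ finrank F (mv (g * scal V c)) := by
  obtain ⟨u, -, h⟩ := h
  obtain ⟨A, B, h⟩ := (hH _).1 h
  obtain ⟨a, rfl⟩ : ∃ a, A = scal U a := by_contra fun k => by have := tens_le (T := T) (B := B) (not_exists.1 k); rw [← h, finrank_mv_conj] at this; omega
  rw [← finrank_mv_conj u, mul_assoc, mul_assoc, ← scal_comm, ← mul_assoc, ← mul_assoc, h, tc_scal, tens_one]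
  exact dvd_mul_right ..

variable [Fintype F] (a2 : 2 ≤ finrank F U) (ab : finrank F U < finrank F W)
include a2 ab
theorem tens_iff [hr : Fact r.Prime] (d : r ∣ H.relIndex LinearEquiv.det.ker) : ElG LinearEquiv.det.ker r (SLC H) ↔
    r = 2 ∧ finrank F U = 2 ∧ Odd (Fintype.card F) ∧ padicValNat 2 (Fintype.card F - 1) ≤ padicValNat 2 (finrank F V) := by
  have n : finrank F V = finrank F U * finrank F W := by rw [← T.finrank_eq, finrank_tensorProduct]
  have n6 : 2 * finrank F W ≤ finrank F V := n ▸ Nat.mul_le_mul_right _ a2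
  haveI : Nontrivial V := nontrivial_of_finrank_pos (R := F) (by omega)
  obtain ⟨p, _, _, pp, -⟩ := FiniteField.card' F
  haveI := Fact.mk pp
  have sm : ∀ g : V ≃ₗ[F] V, SLC H g → finrank F (mv g) < finrank F W → finrank F U ∣ finrank F (mv g) := fun g h l => by have := tens_small hH h l 1; rwa [map_one, mul_one] at this
  by_cases rp : r = p
  · subst rp
    obtain ⟨t, t1, t2, t3, t4⟩ := exists_transv (F := F) (V := V) r (by omega)
    refine iff_of_false (fun E => ?_) fun ⟨e, _, o, _⟩ => two_ne_zero_of_odd o ((two_iff r).2 e)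
    have := Nat.dvd_one.1 (t4 ▸ sm t (E t t2 ⟨1, by simpa⟩ t3) (by omega)); omega
  have r0 := cast_ne (F := F) p hr.out rp
  by_cases r2 : r = 2
  · subst r2
    have h2 : (2 : F) ≠ 0 := by simpa using r0
    by_cases a : finrank F U = 2; swap
    · obtain ⟨t, t1, t2⟩ := exists_inv_rank (F := F) (V := V) (a := 2) (by omega) (absurd · h2)
      refine iff_of_false (fun E => ?_) fun h => a h.2.1
      have := Nat.le_of_dvd two_pos (t2 ▸ sm t (E t ((det_invol h2 t1).trans (by simp [t2])) ⟨1, by simpa⟩ (ne_scal (by omega) (by omega))) (by omega)); omega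
    rw [el2_iff fun c => (hH _).2 ⟨_, 1, (tc_left T c).symm⟩,
      and_iff_left fun z _ k hk _ => ?_, el2_odd h2 (by omega) (fun k hk => ?_) fun s s1 s2 s3 => ?_]
    · simp [a, odd_of_two_ne_zero h2]
    · obtain ⟨B, b1, b2⟩ := exists_inv_rank (F := F) (V := W) (a := k) (by rw [n, a] at hk; omega) (absurd · h2)
      exact ⟨_, (hH _).2 ⟨1, B, rfl⟩, by rw [tc_pow, b1, one_pow]; exact tc_ext T (by simp), by rw [tens_one, a, b2]⟩
    · have := Nat.dvd_one.1 (s3 ▸ sm s ⟨1, map_one _, by simpa⟩ (by omega)); omega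
    obtain ⟨A, hA⟩ := exists_npow (V := U) (r := 2) z (k := 1) a
    exact ⟨_, (hH _).2 ⟨A, 1, rfl⟩, by rw [tc_pow, hA, one_pow, tc_left]⟩
  refine iff_of_false (fun E => ?_) fun h => r2 h.1
  have i0 := ord_pos hr.out r0
  by_cases i1 : orderOf (Fintype.card F : ZMod r) = 1
  · obtain ⟨ω, hω⟩ := exists_root_ord (F := F) (r := r) (by simpa using (dvd_pow_iff (q := Fintype.card F) (r := r) Fintype.card_pos 1).2 (by rw [i1]))
    have wr : ω ^ r = 1 := hω ▸ pow_orderOf_eq_one ω
    have n2 : ω * ω ≠ 1 := fun e => r2 ((Nat.prime_dvd_prime_iff_eq hr.out Nat.prime_two).1 (hω ▸ orderOf_dvd_of_pow_eq_one (by rwa [sq])))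
    have n1 : ω ≠ 1 := fun e => n2 (by simp [e])
    have ms : ∀ (X : Type u) [AddCommGroup X] [Module F X] [FiniteDimensional F X] (c : Fˣ), c ≠ 1 → finrank F (mv (scal X c)) = finrank F X := fun X _ _ _ c c1 =>
      finrank_mv_fpf fun x hx => by_contra fun x0 => c1 (Units.ext (smul_left_injective F x0 (by simpa using hx)))
    have ss : ∀ {X : Type u} [AddCommGroup X] [Module F X] {Y Z : Submodule F X} (h : IsCompl Y Z) a b c, sumAut h (a, b) * scal X c = sumAut h (a * scal Y c, b * scal Z c) := fun h a b c =>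
      LinearEquiv.ext fun x => by obtain ⟨y, z, rfl⟩ := exists_add_of_isCompl h x; simp
    obtain ⟨X, -, x1⟩ := exists_le_finrank_eq (⊤ : Submodule F V) (l := 1) (by simp; omega)
    obtain ⟨X', c⟩ := X.exists_isCompl
    have := Submodule.finrank_add_eq_of_isCompl c
    obtain ⟨Y, -, y1⟩ := exists_le_finrank_eq (⊤ : Submodule F X') (l := 1) (by rw [finrank_top]; omega)
    obtain ⟨Y', c'⟩ := Y.exists_isCompl
    have := Submodule.finrank_add_eq_of_isCompl c'
    have k : finrank F (mv (sumAut c (scal _ ω⁻¹, sumAut c' (scal _ ω, 1)))) = 2 := by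
      rw [finrank_mv_compl, finrank_mv_compl, ms _ _ n1, ms _ _ (inv_ne_one.2 n1), mv_one, x1, y1, finrank_bot]
    have k' := tens_small hH (E (sumAut c (scal _ ω⁻¹, sumAut c' (scal _ ω, 1))) (by simp [det_sumAut, det_scal, x1, y1, -map_inv]) ⟨1, (sumAut_pow c (by rw [← map_pow, inv_pow, wr]; simp) (sumAut_pow c' (by rw [← map_pow, wr, map_one]) (one_pow _))).trans
      (map_one _).symm⟩ (ne_scal (by omega) (by omega))) (by omega) ω
    rw [ss, ss, finrank_mv_compl, finrank_mv_compl, one_mul, ← map_mul, ← map_mul, inv_mul_cancel, map_one, mv_one, ms _ _ n1, ms _ _ n2, finrank_bot] at k'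
    have := Nat.le_of_dvd one_pos ((Nat.dvd_add_right k').1 (show _ ∣ _ + 1 from ⟨finrank F W, by omega⟩))
    omega
  have cop := cop_of_ord Fintype.card_pos hr.out i1
  replace d := d.trans ((Subgroup.relIndex_dvd_card ..).trans (Subgroup.card_subgroup_dvd_card _))
  obtain ⟨a, ha⟩ := card_aut' (F := F) (V := V)
  rcases hr.out.dvd_mul.1 (ha ▸ d) with d | d
  · exact absurd i0 (by simp [(ZMod.natCast_eq_zero_iff _ _).2 (hr.out.dvd_of_dvd_pow d)])
  obtain ⟨j, hj, d⟩ := (Prime.dvd_finsetProd_iff hr.out.prime _).1 d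
  have := Nat.le_of_dvd (by omega) ((dvd_pow_iff Fintype.card_pos _).1 d)
  obtain ⟨g, g1, g2⟩ := exists_mv r0 rfl (V := V) (k := 1) (by simp at hj; omega)
  obtain ⟨u, -, h⟩ := E g (one_of_cop cop (by rw [← map_pow, g1, map_one])) ⟨1, by simpa⟩ fun c h => by
    obtain rfl : c = 1 := one_of_cop cop (scal_injective (V := V) (by rw [map_pow, ← h, g1, map_one]))
    rw [h, map_one, mv_one, finrank_bot] at g2; omega
  obtain ⟨A, B, h⟩ := (hH _).1 h
  rw [← finrank_mv_conj u, h] at g2
  replace g1 : finrank F (mv (tc T A B ^ r)) = 0 := by rw [← h, conj_pow', g1, mul_one, inv_mul_cancel, mv_one, finrank_bot]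
  obtain ⟨c, rfl⟩ : ∃ c, A = scal U c := by_contra fun k => by
    have := tens_le (T := T) (B := B) (not_exists.1 k)
    obtain ⟨z, hz⟩ : ∃ z, A ^ r = scal U z := by_contra fun k => by have := tens_le (T := T) (B := B ^ r) (not_exists.1 k); rw [← tc_pow] at this; omega
    obtain ⟨c, rfl⟩ := (powCoprime (G := Fˣ) (n := r) (by rw [Nat.card_units, Nat.card_eq_fintype_card]; exact cop.symm)).surjective z
    have := Nat.eq_zero_of_dvd_of_lt (ord_dvd_mv r0 rfl (g := A * scal U c⁻¹) (by rw [Commute.mul_pow (scal_comm _ _), hz, ← map_pow, ← map_mul]; simp)) ((Submodule.finrank_le _).trans_lt (by omega))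
    exact k ⟨c, by simpa [mul_inv_eq_one] using mv_eq_bot.1 (Submodule.finrank_eq_zero.1 this)⟩
  rw [← mul_one (tc T _ B), ← map_one (scal V), tc_scal] at g1 g2
  rw [tc_pow, one_pow, tens_one, Nat.mul_eq_zero, or_iff_right (by omega)] at g1
  obtain ⟨k, hk⟩ := ord_dvd_mv r0 rfl (mv_eq_bot.1 (Submodule.finrank_eq_zero.1 g1))
  rw [tens_one, hk] at g2
  rcases k with _ | k <;> [omega; nlinarith]
end H5
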