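import Cfsg.Agent.H5.Iso1
import Cfsg.Agent.S0264

/-!
The actions of `SL₂ × SL₂` on `2 × 2` matrices with the determinant form (`detF`, `act2`) and of `SL₄` on alternating `4 × 4`
matrices with the Pfaffian (`L6`, `act6`).
-/

set_option autoImplicit false

namespace H5

open Module Matrix Form

variable {K : Type*} [Field K] {G : Type*} [Group G]

/-- Coordinates in which the determinant is the standard hyperbolic form. -/
def m2 : Matrix (Fin 2) (Fin 2) K ≃ₗ[K] (Fin 2 ⊕ Fin 2 → K) where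
  toFun X := Sum.elim ![X 0 0, X 0 1] ![X 1 1, -X 1 0]
  invFun v := !![v (.inl 0), v (.inl 1); -v (.inr 1), v (.inr 0)]
  map_add' X Y := by ext (i | i) <;> fin_cases i <;> simp [add_comm]
  map_smul' c X := by ext (i | i) <;> fin_cases i <;> simp
  left_inv X := by ext i j; fin_cases i <;> fin_cases j <;> simp
  right_inv v := by ext (i | i) <;> fin_cases i <;> simp

variable (K) in
/-- The determinant as a quadratic form. -/
def detF : Form (Kind.orth K) (Matrix (Fin 2) (Fin 2) K) := (plusF K 2).comap m2.toLinearMap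

theorem detF_Q (X : Matrix (Fin 2) (Fin 2) K) : (detF K).Q X = X.det := by
  simp [detF, m2, Cfsg.quadFormPlus, det_fin_two, sub_eq_add_neg]

theorem detF_iso : (detF K).IsIso (plusF K 2) m2 := ⟨fun _ _ => rfl, fun _ => rfl⟩
theorem detF_nondeg : (detF K).Nondeg := detF_iso.symm.nondeg (plusF_nondeg 2)

/-- `(g, h)` acts by `X ↦ g X hᵀ`. -/
def sw2 {n : Type*} [Fintype n] [DecidableEq n] : Matrix n n K × Matrix n n K →* Module.End K (Matrix n n K) where
  toFun p := LinearMap.mulLeft K p.1 * LinearMap.mulRight K p.2ᵀ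
  map_one' := by ext1; simp
  map_mul' a b := by ext1; simp [mul_assoc]

/-- The isometric action of pairs of matrices with inverse determinants. -/
def act2 (α β : G →* Matrix (Fin 2) (Fin 2) K) (h : ∀ g, (α g).det * (β g).det = 1) : G →* (detF K).isom :=
  (detF K).toIsom (sw2.comp (α.prod β)) fun g X => by simp [detF_Q, sw2]; linear_combination X.det * h g

theorem act2_apply (α β : G →* Matrix (Fin 2) (Fin 2) K) (h) (g : G) (X) : (act2 α β h g).1 X = α g * (X * (β g)ᵀ) := rfl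

theorem ker2 {g h : Matrix (Fin 2) (Fin 2) K} (hg : g.det = 1) (H : ∀ X, g * (X * hᵀ) = X) : g = 1 ∧ h = 1 ∨ g = -1 ∧ h = -1 := by
  have h1 : g * hᵀ = 1 := by simpa using H 1
  obtain ⟨c, rfl⟩ : g ∈ Set.range (scalar (Fin 2)) := mem_range_scalar_iff_commute_single'.2 fun i j => by
    have := congrArg (· * g) (H (single i j 1))
    simp only [mul_assoc, mul_eq_one_comm.1 h1, mul_one] at this; exact this.symm
  replace h1 := congrArg transpose h1
  rw [transpose_mul, transpose_transpose, transpose_one] at h1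
  rcases mul_self_eq_one_iff.1 (show c * c = 1 by simpa [sq] using hg) with rfl | rfl
  · exact Or.inl ⟨map_one _, by simpa using h1⟩
  · rw [map_neg, map_one] at h1 ⊢; exact Or.inr ⟨rfl, by simpa [neg_eq_iff_eq_neg] using h1⟩

theorem act2_mem_commutator (hK : ∃ a : K, a ≠ 0 ∧ a ≠ 1) {H : Type*} [Group H] (ψ : GL2 K →* H) (g : SL2 K) : ψ (toG g) ∈ commutator H := by
  have : toG g ∈ commutator (GL2 K) := by rw [Cfsg.Agent.S0264.result 2 fun _ => hK, ← range_toGL]; exact ⟨g, rfl⟩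
  have := Subgroup.mem_map_of_mem ψ this
  rw [commutator_def, Subgroup.map_commutator] at this
  exact Subgroup.commutator_mono le_top le_top this

/-- `g ↦ diag((det g)⁻¹, 1)`. -/
noncomputable def dgInv : GL2 K →* Matrix (Fin 2) (Fin 2) K where
  toFun g := diagonal ![g.1.det⁻¹, 1]
  map_one' := by ext i j; fin_cases i <;> fin_cases j <;> simp
  map_mul' a b := by ext i j; fin_cases i <;> fin_cases j <;> simp [mul_comm]

theorem dgInv_det (g : GL2 K) : g.1.det * (dgInv g).det = 1 := by simp [dgInv, g.det_ne_zero]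
theorem dgInv_toG (g : SL2 K) : dgInv (toG g) = 1 := by ext i j; fin_cases i <;> fin_cases j <;> simp [dgInv]

/-- Alternating `4 × 4` matrices. -/
def A6 : (Fin 3 ⊕ Fin 3 → K) →ₗ[K] Matrix (Fin 4) (Fin 4) K where
  toFun v := !![0, v (.inl 0), -v (.inl 1), v (.inl 2); -v (.inl 0), 0, v (.inr 2), v (.inr 1);
    v (.inl 1), -v (.inr 2), 0, v (.inr 0); -v (.inl 2), -v (.inr 1), -v (.inr 0), 0]
  map_add' X Y := by ext i j; fin_cases i <;> fin_cases j <;> simp [add_comm]
  map_smul' c X := by ext i j; fin_cases i <;> fin_cases j <;> simp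

/-- Coordinates of an alternating matrix. -/
def c6 : Matrix (Fin 4) (Fin 4) K →ₗ[K] (Fin 3 ⊕ Fin 3 → K) where
  toFun X := Sum.elim ![X 0 1, -X 0 2, X 0 3] ![X 2 3, X 1 3, X 1 2]
  map_add' X Y := by ext (i | i) <;> fin_cases i <;> simp [add_comm]
  map_smul' c X := by ext (i | i) <;> fin_cases i <;> simp

theorem c6_A6 (v : Fin 3 ⊕ Fin 3 → K) : c6 (A6 v) = v := by ext (i | i) <;> fin_cases i <;> simp [c6, A6]

theorem A6_apply (g : Matrix (Fin 4) (Fin 4) K) (v : Fin 3 ⊕ Fin 3 → K) (i j : Fin 4) : (g * (A6 v * gᵀ)) i j =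
    v (.inl 0) * (g i 0 * g j 1 - g i 1 * g j 0) - v (.inl 1) * (g i 0 * g j 2 - g i 2 * g j 0) + v (.inl 2) * (g i 0 * g j 3 - g i 3 * g j 0) +
      v (.inr 2) * (g i 1 * g j 2 - g i 2 * g j 1) + v (.inr 1) * (g i 1 * g j 3 - g i 3 * g j 1) + v (.inr 0) * (g i 2 * g j 3 - g i 3 * g j 2) := by
  simp [A6, mul_apply, Fin.sum_univ_four, vecMul, dotProduct]; ring

theorem A6_c6 (g : Matrix (Fin 4) (Fin 4) K) (v : Fin 3 ⊕ Fin 3 → K) : A6 (c6 (g * (A6 v * gᵀ))) = g * (A6 v * gᵀ) := by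
  have := A6_apply g v
  generalize g * (A6 v * gᵀ) = X at this
  ext i j; fin_cases i <;> fin_cases j <;> simp [c6, A6, this] <;> ring

/-- The exterior square. -/
def L6 : Matrix (Fin 4) (Fin 4) K →* Module.End K (Fin 3 ⊕ Fin 3 → K) where
  toFun g := c6 ∘ₗ sw2 (g, g) ∘ₗ A6
  map_one' := LinearMap.ext fun v => by simp [sw2, c6_A6]
  map_mul' a b := LinearMap.ext fun v => by simp [sw2, A6_c6, mul_assoc]

theorem L6_apply (g : Matrix (Fin 4) (Fin 4) K) (v) : L6 g v = c6 (g * (A6 v * gᵀ)) := rfl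

theorem L6_Q (g : Matrix (Fin 4) (Fin 4) K) (v) : (plusF K 3).Q (L6 g v) = g.det * (plusF K 3).Q v := by
  simp [L6_apply, Cfsg.quadFormPlus, c6, A6_apply, Fin.sum_univ_succ, det_succ_row_zero, Fin.succAbove]; ring

theorem L6_dot (g : Matrix (Fin 4) (Fin 4) K) (u v) : L6 g u ⬝ᵥ v = u ⬝ᵥ L6 gᵀ v := by
  simp [L6_apply, dotProduct, c6, A6_apply, Fin.sum_univ_three, -transpose_transpose]; ring

theorem L6_map (σ : K →+* K) (g : Matrix (Fin 4) (Fin 4) K) (v) : σ ∘ L6 g v = L6 (g.map σ) (σ ∘ v) := by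
  ext (i | i) <;> fin_cases i <;> simp [L6_apply, c6, A6_apply]

/-- The isometric action of matrices of determinant one. -/
def act6 (α : G →* Matrix (Fin 4) (Fin 4) K) (h : ∀ g, (α g).det = 1) : G →* (plusF K 3).isom :=
  (plusF K 3).toIsom (L6.comp α) fun g v => by rw [MonoidHom.comp_apply, L6_Q, h, one_mul]

theorem ker6 {g : Matrix (Fin 4) (Fin 4) K} (hg : g.det = 1) (H : ∀ v, L6 g v = v) : g = 1 ∨ g = -1 := by
  obtain ⟨h, e⟩ : ∃ h, gᵀ * h = 1 := ⟨_, mul_nonsing_inv _ (by simp [hg])⟩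
  have k : ∀ v, g * A6 v = A6 v * h := fun v => by
    conv_rhs => rw [← H v, L6_apply, A6_c6, mul_assoc, mul_assoc, e, mul_one]
  have k1 := fun i j => congrFun₂ (k (Pi.single (.inl 0) 1)) i j
  have k2 := fun i j => congrFun₂ (k (Pi.single (.inr 0) 1)) i j
  have k3 := fun i j => congrFun₂ (k (Pi.single (.inl 1) 1)) i j
  have k4 := fun i j => congrFun₂ (k (Pi.single (.inr 1) 1)) i j
  have k5 := fun i j => congrFun₂ (k (Pi.single (.inl 2) 1)) i j
  have k6 := fun i j => congrFun₂ (k (Pi.single (.inr 2) 1)) i j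
  simp [A6, mul_apply, Fin.sum_univ_four, Fin.forall_fin_succ] at k1 k2 k3 k4 k5 k6
  obtain ⟨c, e1, e2⟩ : ∃ c, g = scalar _ c ∧ h = scalar _ c :=
    ⟨g 0 0, by ext i j; fin_cases i <;> fin_cases j <;> simp <;> grind, by ext i j; fin_cases i <;> fin_cases j <;> simp <;> grind⟩
  subst e1 e2
  rcases mul_self_eq_one_iff.1 (show c * c = 1 by simpa using congrFun₂ e 0 0) with rfl | rfl
  exacts [Or.inl (map_one _), Or.inr (by rw [map_neg, map_one])]

end H5
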