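import Cfsg.Agent.H5.Mx5

/-!
Non-maximal geometric subgroups: `As.NM Ω H` (there is a subgroup strictly between `H ⊓ Ω` and `Ω`), criteria through
stabilisers of subspaces, of sets of vectors and of frames, and the small orthogonal decompositions.
-/

set_option autoImplicit false

namespace H5.As

open Matrix Module Cfsg Cfsg.Geo
open scoped Pointwise Kronecker

variable {ι : Type} [Fintype ι] [DecidableEq ι] {F : Type*} [Field F] [Fintype F]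
variable {k : Kind F} {Φ : Form k (ι → F)} {Ω H : Subgroup (GL ι F)} {d B : ℕ} {W : Submodule F (ι → F)}
variable {G H' M : Subgroup ((ι → F) ≃ₗ[F] (ι → F))} {g : (ι → F) ≃ₗ[F] (ι → F)} {t m : ℕ} {D : Fin t → Submodule F (ι → F)}

/-- `H ⊓ Ω` is not maximal in `Ω`. -/
def NM (Ω H : Subgroup (GL ι F)) : Prop := ∃ K, H ⊓ Ω < K ∧ K < Ω

omit [Fintype F] in
theorem nm_of (hΩ : ∀ g, g ∈ Ω ↔ glEquiv g ∈ G) (hH : ∀ g, g ∈ H ↔ glEquiv g ∈ H') (h1 : H' ⊓ G ≤ M) (hg : g ∈ G)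
    (h2 : g ∈ M) (h3 : g ∉ H') (h4 : ¬ ∀ g ∈ Ω, glEquiv g ∈ M) : NM Ω H :=
  not_max_of (M := M.comap glEquiv.toMonoidHom) (fun x hx => h1 ⟨(hH x).1 hx.1, (hΩ x).1 hx.2⟩)
    (fun e => h3 (by simpa using (hH _).1 (e (x := glEquiv.symm g) ⟨by simpa, (hΩ _).2 (by simpa)⟩))) h4

theorem nm_sub (hΩ : ∀ g, g ∈ Ω ↔ glEquiv g ∈ G) (b : Big Ω B) (hH : ∀ g, g ∈ H ↔ glEquiv g ∈ H') (h0 : W ≠ ⊥) (h0' : W ≠ ⊤)
    (h1 : ∀ g ∈ H', g ∈ G → ∀ x ∈ W, g x ∈ W) (hg : g ∈ G) (h2 : ∀ x ∈ W, g x ∈ W) (h3 : g ∉ H') : NM Ω H :=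
  nm_of hΩ hH (M := stabSub W) (fun g e => mem_stabSub'.2 (h1 g e.1 e.2)) hg (mem_stabSub'.2 h2) h3
    fun e => b.stab h0 h0' fun g hg => (mem_stab_up W g).2 (e g hg)

theorem nm_set (hΩ : ∀ g, g ∈ Ω ↔ glEquiv g ∈ G) (b : Big Ω B) (hH : ∀ g, g ∈ H ↔ glEquiv g ∈ H') {S : Set (ι → F)} {v}
    (hv : v ∈ S) (v0 : v ≠ 0) (hS : S.ncard < B) (h1 : ∀ g ∈ H', g ∈ G → ∀ x ∈ S, g x ∈ S) (hg : g ∈ G)
    (h2 : ∀ x ∈ S, g x ∈ S) (h3 : g ∉ H') : NM Ω H :=
  have m := fun g : (ι → F) ≃ₗ[F] (ι → F) => MulAction.mem_stabilizer_set' (a := g) S.toFinite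
  nm_of hΩ hH (M := MulAction.stabilizer _ S) (fun g e => (m g).2 (h1 g e.1 e.2)) hg ((m g).2 h2) h3
    fun e => hS.not_ge (b.le_card v0 fun g hg => (m _).1 (e g hg) hv)

theorem ncard_dec (hD : IsMDecomposition m D) (h5 : 5 ≤ Fintype.card ι) {S : Set (ι → F)} (h : ∀ x ∈ S, x ≠ 0 ∧ ∃ i, x ∈ D i) :
    S.ncard < Fintype.card F ^ (Fintype.card ι - 2) := by
  have h1 := (Set.ncard_le_ncard (show S ⊆ ⋃ j, (D j : Set (ι → F)) \ {0} from fun x hx =>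
    let ⟨a, i, b⟩ := h x hx; Set.mem_iUnion.2 ⟨i, b, a⟩)).trans (Set.ncard_iUnion_le_of_fintype _)
  have h2 : ∀ j, ((D j : Set (ι → F)) \ {0}).ncard = Fintype.card F ^ m - 1 := fun j => by
    rw [Set.ncard_sdiff_singleton_of_mem (D j).zero_mem, ← Nat.card_coe_set_eq, ← hD.finrank_eq j, ← Nat.card_eq_fintype_card]
    exact congrArg (· - 1) (Module.natCard_eq_pow_finrank (K := F) (V := D j))
  simp only [h2, Finset.sum_const, Finset.card_univ, Fintype.card_fin, smul_eq_mul, Nat.mul_sub_one] at h1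
  have := Nat.le_mul_of_pos_right t (pow_pos (Fintype.card_pos (α := F)) m)
  rw [← decomp_card hD] at h5 ⊢
  have := ineq_decomp (Fintype.one_lt_card (α := F)) hD.two_le h5
  omega

omit [Fintype F] [DecidableEq ι] in
theorem dec_eq (hD : IsMDecomposition m D) {i j} {v} (h0 : v ≠ 0) (h1 : v ∈ D i) (h2 : v ∈ D j) : i = j :=
  by_contra fun e => h0 (Submodule.disjoint_def.1 (hD.indep.pairwiseDisjoint e) v h1 h2)

omit [Fintype F] [DecidableEq ι] in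
theorem not_mem_dec (hD : IsMDecomposition m D) {i} {v w} (h0 : v ≠ 0) (h1 : v ∈ D i) (h2 : g v ∈ D i) (h3 : w ∈ D i)
    (h4 : g w ∉ D i) : g ∉ stabDec D := fun ⟨π, h⟩ => by
  have := dec_eq hD (by simpa) h2 (h i ▸ map_mem_map g h1)
  exact h4 (by have e := map_mem_map g h3; rwa [h, ← this] at e)

omit [Fintype F] [DecidableEq ι] [Fintype ι] in
theorem dec_mem (hg : g ∈ stabDec D) {i x} (h : x ∈ D i) : ∃ j, g x ∈ D j := let ⟨π, e⟩ := hg; ⟨π i, e i ▸ map_mem_map g h⟩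

theorem exists_four (ht : 4 ≤ t) : ∃ a b c d : Fin t, a ≠ b ∧ a ≠ c ∧ a ≠ d ∧ b ≠ c ∧ b ≠ d ∧ c ≠ d :=
  ⟨⟨0, by omega⟩, ⟨1, by omega⟩, ⟨2, by omega⟩, ⟨3, by omega⟩, by simp⟩

theorem _root_.H5.Form.ex_eich {F : Type*} [Field F] {k : Kind F} {V : Type*} [AddCommGroup V] [Module F V] {Φ : Form k V} {u v : V}
    {a : F} (hu : Φ.Q u = 0) (hv : Φ.B v u = 0) (ha : k.π a = Φ.Q v) :
    ∃ g ∈ Φ.EG, ∀ x, g x = x + Φ.B x u • v - (k.ε * (Φ.B x v + a * Φ.B x u)) • u :=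
  ⟨_, Form.eich_mem_EG hu hv ha, Φ.eich_apply hu hv ha⟩

namespace CG
variable (h : CG Φ Ω d)
include h

theorem nm_blocks (hD : IsMDecomposition m D) {γ : F} {i v} (hv : v ∈ D i) (v0 : v ≠ 0) (qv : Φ.Q v = γ) (hg : g ∈ Φ.EG)
    (h2 : ∀ i, ∀ x ∈ D i, Φ.Q x = γ → ∃ j, g x ∈ D j) (h3 : g ∉ stabDec D) : NM Ω (decompositionStabilizer D) :=
  nm_set h.mem h.big (mem_dec_up D) (S := {x | x ≠ 0 ∧ Φ.Q x = γ ∧ ∃ i, x ∈ D i}) ⟨v0, qv, i, hv⟩ v0
    (ncard_dec hD h.five fun _ hx => ⟨hx.1, hx.2.2⟩)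
    (fun g a b x ⟨c, e, i, f⟩ => ⟨by simpa, ((Form.EG_le_isom b).2 x).trans e, dec_mem a f⟩) hg
    (fun x ⟨c, e, i, f⟩ => ⟨by simpa, ((Form.EG_le_isom hg).2 x).trans e, h2 i x f e⟩) h3

theorem nm_frame (hD : IsNondegenerateMDecomposition (fun u v => Φ.B u v) m D) (ht : 3 ≤ t) (hm : 2 ≤ m) {γ : F}
    (b : ∀ i, Fin m → D i) (h1 : ∀ i a, Φ.Q (b i a) = γ) (h2 : ∀ i a, Φ.B (b i a) (b i a) ≠ 0)
    (h3 : ∀ i a a', a ≠ a' → Φ.B (b i a) (b i a') = 0) (h4 : ∀ i, ∀ x ∈ D i, Φ.Q x = γ → ∃ (a : Fin m) (c : F), x = c • (b i a).1) :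
    NM Ω (decompositionStabilizer D) := by
  obtain ⟨m, rfl⟩ : ∃ s, m = s + 2 := ⟨m - 2, by omega⟩
  obtain ⟨i0, i1, i2, n01, n02, n12⟩ : ∃ a b c : Fin t, a ≠ b ∧ a ≠ c ∧ b ≠ c :=
    ⟨⟨0, by omega⟩, ⟨1, by omega⟩, ⟨2, by omega⟩, by simp⟩
  have o : ∀ i j a a', (i, a) ≠ (j, a') → Φ.B (b i a) (b j a') = 0 := fun i j a a' e => by
    by_cases e' : i = j
    · subst e'; exact h3 i a a' (by simpa using e)
    · exact hD.3 i j e' _ (b i a).2 _ (b j a').2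
  obtain ⟨β, s⟩ : ∃ β, ∀ i a, Φ.B (b i a) (b i a) = β := ⟨_, fun i a => Φ.B_self_congr Φ ((h1 _ _).trans (h1 i0 0).symm)⟩
  have β0 : β ≠ 0 := s i0 0 ▸ h2 i0 0
  have p : ∀ i j : Fin t, i ≠ j → k.π β = Φ.Q ((b i 0).1 - b j 0) := fun i j e => by
    obtain ⟨a, ha⟩ := Φ.Q_range (b i0 0)
    rw [Φ.Q_sub, o i j 0 0 (by simpa), ← s i0 0, Φ.B_self _ _ ha, map_add, k.π_conj, ha]; simp [h1]
  have n : ∀ i j : Fin t, i ≠ j → (b i 0).1 - b j 0 ≠ 0 := fun i j e z => h2 i 0 (by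
    simpa [o i j 0 0 (by simpa)] using congrArg (Φ.B (b i 0)) z)
  have r : ∀ i j (e : i ≠ j) l a, ∃ l', Φ.refl _ _ (p i j e) (b l a) = b l' a ∧ ((l, a) = (i, 0) → l' = j) ∧
      ((l, a) ≠ (i, 0) → (l, a) ≠ (j, 0) → l' = l) := fun i j e l a => by
    by_cases a1 : (l, a) = (i, 0)
    · cases a1; exact ⟨j, by simp [Form.refl_apply, s, o i j 0 0 (by simpa), β0], by simp⟩
    by_cases a2 : (l, a) = (j, 0)
    · cases a2; exact ⟨i, by simp [Form.refl_apply, s, o j i 0 0 a1, β0], by simp [a1]⟩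
    exact ⟨l, Form.refl_fix (by simp [o _ _ _ _ a1, o _ _ _ _ a2]), by simp [a1]⟩
  have i : ∀ l a, (Φ.refl _ _ (p i1 i2 n12))⁻¹ (b l a) = Φ.refl _ _ (p i1 i2 n12) (b l a) := fun l a => by
    have hs : k.ε * k.σ β = β := s i0 0 ▸ (Φ.B_symm _ _).symm
    rw [inv_eq_of_mul_eq_one_right (b := Φ.refl _ _ (p i1 i2 n12)) (LinearEquiv.ext fun z =>
      by have := Φ.reflLin_reflLin (p i1 i2 n12) z; rw [hs] at this; exact this)]
  refine h.nm_blocks hD.1 (b i0 1).2 (fun z => h2 i0 1 (by simp [z])) (h1 i0 1)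
    (h.std.rr_mem (p i0 i1 n01) (p i1 i2 n12) (n _ _ n01) (n _ _ n12)) (fun l x hx q => ?_)
    (not_mem_dec hD.1 (fun z => h2 i0 1 (by simp [z])) (b i0 1).2 ?_ (b i0 0).2 fun z => ?_)
  · obtain ⟨a, c, rfl⟩ := h4 l x hx q
    obtain ⟨l', e, -⟩ := r i1 i2 n12 l a
    obtain ⟨l'', e', -⟩ := r i0 i1 n01 l' a
    exact ⟨l'', by rw [map_smul, LinearEquiv.mul_apply, i, e, e']; exact (D l'').smul_mem _ (b _ _).2⟩
  · obtain ⟨l', e, -, a⟩ := r i1 i2 n12 i0 1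
    rw [a (by simp) (by simp)] at e
    obtain ⟨l'', e', -, a⟩ := r i0 i1 n01 i0 1
    rw [a (by simp) (by simp)] at e'
    rw [LinearEquiv.mul_apply, i, e, e']; exact (b _ _).2
  · obtain ⟨l', e, -, a⟩ := r i1 i2 n12 i0 0
    rw [a (by simpa) (by simpa)] at e
    obtain ⟨l'', e', a, -⟩ := r i0 i1 n01 i0 0
    rw [a rfl] at e'
    rw [LinearEquiv.mul_apply, i, e, e'] at z
    exact h2 i1 0 (hD.3 i0 i1 n01 _ z _ (b i1 0).2)

end CG

section orth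
variable {Φ : Form (Kind.orth F) (ι → F)}

theorem CG.nm_diag (h : CG Φ Ω d) (hD : IsOrthogonalMDecomposition Φ.Q m D) (ht : 3 ≤ t) (hm : 2 ≤ m) (h2 : (2 : F) ≠ 0)
    (T : ∀ i, (Fin m → F) ≃ₗ[F] D i) {a : F} (ha : a ≠ 0) (hT : ∀ i x, Φ.Q (T i x) = a * (fA 1).Q x)
    (hP : ∀ x : Fin m → F, ∑ j, x j * x j = 1 → ∃ j, ∀ l ≠ j, x l = 0) : NM Ω (decompositionStabilizer D) := by
  have hB := fun i => B_model (hT i)
  refine h.nm_frame (polar_eq (Φ := Φ) ▸ hD.1) ht hm (γ := a) (fun i j => T i (Pi.single j 1))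
    (fun i j => by simp [hT, fA_Q, one_apply, Pi.single_apply]) (fun i j => by simp [hB, fA_B, one_apply, Pi.single_apply, ha, one_add_one_eq_two, h2])
    (fun i j l e => by simp [hB, fA_B, one_apply, Pi.single_apply, e, e.symm]) fun i x hx q => ?_
  obtain ⟨y, hy⟩ := (T i).surjective ⟨x, hx⟩
  obtain rfl : (T i y).1 = x := congrArg Subtype.val hy
  obtain ⟨j, hj⟩ := hP y (by simpa [hT, ha, fA_Q, one_apply] using q)
  refine ⟨j, y j, ?_⟩
  rw [← Submodule.coe_smul, ← map_smul]; congr 2; ext l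
  by_cases e : l = j
  · simp [e]
  · simp [e, hj l e]

theorem CG.nm_three (h : CG Φ Ω d) (hq : Fintype.card F = 3) (hD : IsOrthogonalMDecomposition Φ.Q 3 D) (ht : 3 ≤ t) :
    NM Ω (decompositionStabilizer D) := by
  have h2 : (2 : F) ≠ 0 := two_ne_zero_of_odd (by rw [hq]; decide)
  have h3 : (1 : F) + 1 + 1 = 0 := by
    simpa [hq, ← two_add_one_eq_three, ← one_add_one_eq_two] using FiniteField.cast_card_eq_zero F
  obtain ⟨T, c, hc, hT⟩ := Form.odd_sim (nd_sumsq (κ := Fin 3) h2) (ndOn.1 (hD.1.2 ⟨0, by omega⟩)) (m := 1) (by simp) (hD.1.1.3 _)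
  obtain ⟨T, hT⟩ := models hD T hT
  refine h.nm_diag hD ht (by omega) h2 T hc hT fun x hx => ?_
  rcases sq_three hq (x 0) with e0 | e0 <;> rcases sq_three hq (x 1) with e1 | e1 <;> rcases sq_three hq (x 2) with e2 | e2 <;>
    simp_all [Fin.sum_univ_three, Fin.exists_fin_succ, Fin.forall_fin_succ]

theorem sq_small (hq : Fintype.card F ≤ 3) {c : F} (h : c ≠ 0) : c * c = 1 := by
  have := Fintype.one_lt_card (α := F)
  obtain e | e : Fintype.card F < 3 ∨ Fintype.card F = 3 := by omega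
  exacts [by rw [eq_one_of_card e h, one_mul], (sq_three e _).resolve_left h]

theorem CG.nm_planes (h : CG Φ Ω d) (hD : IsOrthogonalMDecomposition Φ.Q 2 D) (ht : 4 ≤ t)
    (hq : Fintype.card F = 3 ∨ (∀ i, Φ.PlusOn (D i)) ∧ Fintype.card F ≤ 5) : NM Ω (decompositionStabilizer D) := by
  obtain ⟨i0, i1, i2, i3, n01, n02, n03, n12, n13, n23⟩ := exists_four ht
  have o : ∀ {i j}, i ≠ j → ∀ (x : D i) (y : D j), Φ.B x y = 0 := fun e x y => Φ.orth_polar _ _ ▸ hD.1.3 _ _ e _ x.2 _ y.2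
  by_cases h5 : Φ.PlusOn (D i0); swap
  · have h6 := hq.resolve_right fun k => h5 (k.1 i0)
    have h2 : (2 : F) ≠ 0 := two_ne_zero_of_odd (by rw [h6]; decide)
    obtain ⟨T, hT⟩ := models_even hD (nd_sumsq (κ := Fin 2) h2) (m := 1) rfl (by simp) (i := i0)
      (iff_of_false (by rw [plus_sumsq h2, h6]; decide) h5)
    refine h.nm_diag hD (by omega) le_rfl h2 T one_ne_zero (by simpa using hT) fun x hx => ?_
    have h3 : (1 : F) + 1 ≠ 1 := by simp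
    rcases sq_three h6 (x 0) with e0 | e0 <;> rcases sq_three h6 (x 1) with e1 | e1 <;> simp_all
  by_cases h8 : Fintype.card F = 5
  · have c2 : (2 : F) ≠ 0 := two_ne_zero_of_odd (by rw [h8]; decide)
    obtain ⟨T, hT⟩ := models_even hD (nd_sumsq (κ := Fin 2) c2) (m := 1) rfl (by simp) (i := i0) (iff_of_true (by rw [plus_sumsq c2, h8]) h5)
    refine h.nm_diag hD (by omega) le_rfl c2 T one_ne_zero (by simpa using hT) fun x hx => ?_
    have c5 : (5 : F) = 0 := by simpa [h8] using FiniteField.cast_card_eq_zero F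
    have p0 := FiniteField.pow_card (x 0); have p1 := FiniteField.pow_card (x 1)
    rw [h8] at p0 p1
    simp only [Fin.sum_univ_two, Fin.exists_fin_two, Fin.forall_fin_two] at hx ⊢
    grind
  obtain ⟨T, hT⟩ := models_even hD (Ψ := fA !![0, 1; 0, 0]) (fA_nd (by simp [det_fin_two])) (m := 1) rfl (by simp) (i := i0)
    (iff_of_true (Form.hasTS_one_iff.2 fun k => by simpa using congrFun (k ![1, 0] (by simp [fA_Q])) 0) h5)
  have hB : ∀ i x y, Φ.B (T i x) (T i y) = x 0 * y 1 + x 1 * y 0 := fun i x y =>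
    (B_model (c := 1) (by simpa using hT i) x y).trans (by simp [fA_B])
  replace hT : ∀ i x, Φ.Q (T i x) = x 0 * x 1 := fun i x => (hT i x).trans (by simp [fA_Q])
  have sj : ∀ i, ∀ x ∈ D i, ∃ y, (T i y).1 = x := fun i x hx => let ⟨y, hy⟩ := (T i).surjective ⟨x, hx⟩; ⟨y, congrArg Subtype.val hy⟩
  obtain ⟨c, hc⟩ : ∃ c : F, 2 + c * c = 0 := by
    by_cases h3 : Fintype.card F = 3
    · exact ⟨1, by simpa [h3, two_add_one_eq_three] using FiniteField.cast_card_eq_zero F⟩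
    · have := Fintype.one_lt_card (α := F)
      exact ⟨0, by simpa using by_contra fun e : ¬ (2 : F) = 0 => by have := Nat.odd_iff.1 (odd_of_two_ne_zero e); omega⟩
  obtain ⟨u, hu⟩ : ∃ u : ι → F, u = T i1 ![1, -1] + T i2 ![1, -1] + c • (T i3 ![1, -1]).1 := ⟨_, rfl⟩
  have qu : Φ.Q u = 0 := by simp [hu, Φ.orth_add, Φ.Q_smul, hT, o n12, o n13, o n23]; linear_combination -hc
  have b0 : ∀ x : D i0, Φ.B x u = 0 := fun x => by simp [hu, o n01, o n02, o n03]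
  have b1 : ∀ y, Φ.B u (T i1 y) = y 1 - y 0 := fun y => by simp [hu, o n12.symm, o n13.symm, hB]; ring
  have v0 : (T i0 ![1, 1]).1 ≠ 0 := fun e => by simpa [e] using (hT i0 ![1, 1]).symm
  choose E hE E' using fun a : F => Form.ex_eich (Φ := Φ) (v := a • (T i0 ![1, -1]).1) (a := -(a * a)) qu (by simp [b0])
    (by simp [Φ.Q_smul, hT])
  have n : E 1 ∉ stabDec D := not_mem_dec hD.1.1 v0 (T i0 _).2 (w := T i0 ![1, 0]) (by simp [E', b0, hB]) (T i0 _).2 fun e => by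
    simpa [E', b0, hB, b1, o n01] using o n01 ⟨_, e⟩ (T i1 ![0, 1])
  by_cases h3 : Fintype.card F ≤ 3
  · refine h.nm_blocks hD.1.1 (T i0 _).2 v0 (hT _ _) (hE 1) (fun i x hx q => ⟨i, ?_⟩) n
    obtain ⟨y, rfl⟩ := sj i x hx
    have q : y 0 * y 1 = 1 := by simpa [hT] using q
    have : ∀ j, Φ.B (T i y) (T j ![1, -1]) = 0 := fun j => by
      by_cases e : i = j
      · subst e; simp [hB]; linear_combination (-y 1) * q + y 0 * sq_small h3 (right_ne_zero_of_mul_eq_one q)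
      · exact o e _ _
    simp [E', hu, this]
  have h4 : Fintype.card F = 4 := by omega
  have c2 : (2 : F) = 0 := by_contra fun k => absurd (odd_of_two_ne_zero k) (by rw [h4]; decide)
  obtain rfl : c = 0 := by simpa [c2] using hc
  have : CharP F 2 := CharTwo.of_one_ne_zero_of_two_eq_zero one_ne_zero c2
  let S : Set (ι → F) := {x | Φ.Q x = 1 ∧ ∃ i, x ∈ D i}
  let A : Set (ι → F) := {x | ∀ s ∈ S, Φ.B x s ∈ (⊥ : Subfield F)}
  have m := fun g : (ι → F) ≃ₗ[F] (ι → F) => MulAction.mem_stabilizer_set' (a := g) A.toFinite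
  have SS : ∀ i y, y 0 * y 1 = 1 → (T i y).1 ∈ A := fun i y q s ⟨q', j, hs⟩ => by
    obtain ⟨z, rfl⟩ := sj j s hs
    by_cases e : i = j; swap
    · simp [o e]
    subst e
    have p := FiniteField.pow_card (y 0 * z 1)
    rw [hT] at q'; rw [h4] at p
    have : (y 0 * z 1 + y 1 * z 0) * (y 0 * z 1 + y 1 * z 0) = y 0 * z 1 + y 1 * z 0 := by grind
    rcases IsIdempotentElem.iff_eq_zero_or_one.1 this with e | e <;> simp [hB, e]
  have A1 : ∀ i, (T i ![1, -1]).1 ∈ A := fun i => SS i _ (by simp [CharTwo.neg_eq])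
  have S1 : ∀ i, (T i ![1, -1]).1 ∈ S := fun i => ⟨by simp [hT, CharTwo.neg_eq], i, (T i _).2⟩
  obtain ⟨w, hw⟩ : ∃ w : F, w ∉ (⊥ : Subfield F) := by
    by_contra! k; exact bot_ne_top' (F := F) (by rw [h4]; decide) (eq_top_iff.2 fun x _ => k x)
  have w1 : w * (w + 1) = 1 := by
    have p := FiniteField.pow_card w
    have : w ≠ 0 := by rintro rfl; simp at hw
    have : w ≠ 1 := by rintro rfl; simp at hw
    rw [h4] at p; grind
  refine nm_of h.mem (mem_dec_up D) (M := MulAction.stabilizer _ A) (fun g ⟨a, b⟩ => (m g).2 fun x hx s ⟨q, i, hs⟩ => ?_) (hE 1)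
    ((m _).2 fun x hx s hs => ?_) n fun e => hw ?_
  · have j := Form.EG_le_isom b
    exact (Form.isom_B_symm j x s).symm ▸ hx _ ⟨((inv_mem j).2 s).trans q, dec_mem (inv_mem a) hs⟩
  · have xu : Φ.B x u ∈ (⊥ : Subfield F) := by simpa [hu] using add_mem (hx _ (S1 i1)) (hx _ (S1 i2))
    have us : Φ.B u s ∈ (⊥ : Subfield F) := by simpa [hu] using add_mem (A1 i1 s hs) (A1 i2 s hs)
    simpa [E'] using sub_mem (add_mem (hx s hs) (mul_mem xu (A1 i0 s hs))) (mul_mem (add_mem (hx _ (S1 i0)) (neg_mem xu)) us)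
  · obtain ⟨g, hg⟩ := glEquiv.surjective (E w)
    have := (m _).1 (e g ((h.mem g).2 (hg ▸ hE w))) (SS i0 ![w, w + 1] (by simpa)) (T i1 ![w, w + 1]) ⟨by simpa [hT], i1, (T i1 _).2⟩
    simpa [hg, E', b0, b1, o n01, hB] using this

theorem CG.nm_four (h : CG Φ Ω d) (hD : IsOrthogonalMDecomposition Φ.Q 4 D) (hq : Fintype.card F = 2) (hp : ∀ i, Φ.PlusOn (D i)) :
    NM Ω (decompositionStabilizer D) := by
  obtain ⟨i0, i1, n⟩ := Fintype.exists_pair_of_one_lt_card (α := Fin t) (by simpa using Nat.lt_of_succ_le hD.1.1.two_le)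
  have o : ∀ {i j}, i ≠ j → ∀ (x : D i) (y : D j), Φ.B x y = 0 := fun e x y => Φ.orth_polar _ _ ▸ hD.1.3 _ _ e _ x.2 _ y.2
  have h01 : ∀ c : F, c = 0 ∨ c = 1 := fun c => (em _).imp_right (eq_one_of_card (by omega))
  have h2 : (1 : F) + 1 = 0 := (h01 _).resolve_right (by simp)
  have : CharP F 2 := CharTwo.of_one_ne_zero_of_two_eq_zero one_ne_zero (one_add_one_eq_two.symm.trans h2)
  obtain ⟨T, hT⟩ := models_even hD (Ψ := fA !![1, 1, 0, 0; 0, 1, 0, 0; 0, 0, 1, 1; 0, 0, 0, 1]) (fun y hy => by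
      have k := fun i => hy (Pi.single i 1)
      have := k 0; have := k 1; have := k 2; have := k 3
      ext j; fin_cases j <;> simp_all [fA_B, Fin.sum_univ_four]) (m := 2) rfl (by simp) (i := i0)
    (iff_of_true ⟨Submodule.span F (Set.range ![![1, 0, 1, 0], ![0, 1, 0, 1]]), by
      rw [finrank_span_eq_card (LinearIndependent.pair_iff.2 fun s t e => ⟨by simpa using congrFun e 0, by simpa using congrFun e 1⟩)]; simp,
      ts_span (by simp [fA_Q, Fin.sum_univ_four, h2]) (by simp [fA_B, Fin.sum_univ_four, h2])⟩ (hp i0))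
  have hB : ∀ i x y, Φ.B (T i x) (T i y) = x 0 * y 1 + x 1 * y 0 + x 2 * y 3 + x 3 * y 2 := fun i x y =>
    (B_model (c := 1) (by simpa using hT i) x y).trans (by simp [fA_B, Fin.sum_univ_four, h2])
  replace hT : ∀ i x, Φ.Q (T i x) = x 0 * x 0 + x 0 * x 1 + x 1 * x 1 + (x 2 * x 2 + x 2 * x 3 + x 3 * x 3) := fun i x =>
    (hT i x).trans (by simp [fA_Q, Fin.sum_univ_four]; ring)
  obtain ⟨g, hg, E⟩ := Form.ex_eich (Φ := Φ) (u := (T i0 ![1, 0, 0, 0]).1 + T i1 ![1, 0, 0, 0])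
    (v := (T i0 ![0, 1, 0, 0]).1 + T i1 ![0, 1, 0, 0]) (a := 0) (by simp [Φ.orth_add, hT, o n, h2])
    (by simp [hB, o n, o n.symm, h2]) (by simp [Φ.orth_add, hT, o n, h2])
  have v0 : (T i0 ![0, 0, 1, 0]).1 ≠ 0 := fun e => by simpa [e] using (hT i0 ![0, 0, 1, 0]).symm
  have sw : ∀ i j, i ≠ j → ∀ y : Fin 4 → F, y 2 = 0 → y 3 = 0 → (T i y).1 + y 1 • ((T i ![0, 1, 0, 0]).1 + T j ![0, 1, 0, 0]) -
      y 0 • ((T i ![1, 0, 0, 0]).1 + T j ![1, 0, 0, 0]) ∈ D j := fun i j e y a b => by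
    have : y = y 0 • ![1, 0, 0, 0] + y 1 • ![0, 1, 0, 0] := by ext l; fin_cases l <;> simp [a, b]
    have z : ∀ x : ι → F, x + x = 0 := fun x => by rw [← two_smul F, CharTwo.two_eq_zero, zero_smul]
    nth_rw 1 [this]
    convert add_mem ((D j).smul_mem (y 0) (T j ![1, 0, 0, 0]).2) ((D j).smul_mem (y 1) (T j ![0, 1, 0, 0]).2) using 1
    simp only [map_add, map_smul, Submodule.coe_add, Submodule.coe_smul]
    linear_combination (norm := module) z (y 1 • T i ![0, 1, 0, 0]) - z (y 0 • T j ![1, 0, 0, 0])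
  refine h.nm_blocks hD.1.1 (T i0 _).2 v0 (hT _ _) hg (fun i x hx q => ?_) (not_mem_dec hD.1.1 v0 (T i0 _).2
    (w := T i0 ![1, 0, 0, 0]) (by simp [E, hB, o n]) (T i0 _).2 fun e => by
      simpa [E, hB, o n] using o n ⟨_, e⟩ (T i1 ![0, 1, 0, 0]))
  obtain ⟨y, hy⟩ := (T i).surjective ⟨x, hx⟩
  obtain rfl : (T i y).1 = x := congrArg Subtype.val hy
  have : (y 0 = 0 ∧ y 1 = 0) ∨ y 2 = 0 ∧ y 3 = 0 := by
    rw [hT] at q; simp at q
    rcases h01 (y 0) with a | a <;> rcases h01 (y 1) with b | b <;> rcases h01 (y 2) with c | c <;> rcases h01 (y 3) with e | e <;>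
      simp_all
  by_cases e0 : i = i0
  · subst e0
    rcases this with a | a
    · exact ⟨i, by simp [E, hB, o n, a]⟩
    · exact ⟨i1, by simpa [E, hB, o n, a] using sw i i1 n y a.1 a.2⟩
  by_cases e1 : i = i1
  · subst e1
    rcases this with a | a
    · exact ⟨i, by simp [E, hB, o n.symm, a]⟩
    · exact ⟨i0, by simpa [E, hB, o n.symm, a, add_comm] using sw i i0 n.symm y a.1 a.2⟩
  exact ⟨i, by simp [E, o e0, o e1]⟩

end orth

end H5.As
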