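import Cfsg.Agent.H5.Mx6

/-!
More non-maximal geometric subgroups: unitary planes over `F₄`, plus planes over `F₂`, `F₃`, totally singular subspaces
of codimension one in a maximal one, pairs of odd dimension, symplectic planes over `F₂`, small linear decompositions.
-/

set_option autoImplicit false

namespace H5.As

open Matrix Module Cfsg Cfsg.Geo
open scoped Pointwise Kronecker

variable {ι : Type} [Fintype ι] [DecidableEq ι] {F : Type*} [Field F] [Fintype F]
variable {Ω H : Subgroup (GL ι F)} {d B : ℕ} {W : Submodule F (ι → F)} {t m : ℕ} {D : Fin t → Submodule F (ι → F)}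

theorem CG.nm_U2 {hF : Fintype.card F = 2 ^ 2} {Φ : Form (unitK hF) (ι → F)} (h : CG Φ Ω d)
    (hD : IsNondegenerateMDecomposition (fun u v => Φ.B u v) 2 D) (ht : 3 ≤ t) : NM Ω (decompositionStabilizer D) := by
  have h1 : ∀ a : F, a ≠ 0 → a * conj hF a = 1 := fun a ha => by
    rw [norm_eq_pow, ← FiniteField.pow_card_sub_one_eq_one a ha, hF]; rfl
  choose T hT using fun i => Form.unit_iso (hermF_nondeg 2 hF) (nondegOn.1 (hD.nondegenerate i)) (by simp [hD.1.finrank_eq])
  replace hT : ∀ i u v, Φ.B (T i u) (T i v) = ∑ a, u a * conj hF (v a) := fun i => (hT i).1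
  refine h.nm_frame hD ht le_rfl (γ := 1) (fun i j => T i (Pi.single j 1)) (fun i j => by simp [Φ.unit_Q, hT, Pi.single_apply])
    (fun i j => by simp [hT, Pi.single_apply]) (fun i j l e => by simp [hT, Pi.single_apply, e, e.symm]) fun i x hx q => ?_
  obtain ⟨y, hy⟩ := (T i).surjective ⟨x, hx⟩
  obtain rfl : (T i y).1 = x := congrArg Subtype.val hy
  rw [Φ.unit_Q, hT, Fin.sum_univ_two] at q
  by_cases h0 : y 0 = 0
  · exact ⟨1, y 1, by rw [← Submodule.coe_smul, ← map_smul]; congr 2; ext i; fin_cases i <;> simp [h0]⟩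
  · have : y 1 = 0 := by_contra fun h4 => by simp [h1 _ h0, h1 _ h4] at q
    exact ⟨0, y 0, by rw [← Submodule.coe_smul, ← map_smul]; congr 2; ext i; fin_cases i <;> simp [this]⟩

section orth
variable {Φ : Form (Kind.orth F) (ι → F)}

theorem CG.nm_plane (h : CG Φ Ω 3) (hq : Fintype.card F ≤ 3) (hd : finrank F W = 2) (hW : (Φ.res W).Nondeg) (hp : Φ.PlusOn W) :
    NM Ω (subspaceStabilizer W) := by
  obtain ⟨T, hT⟩ := Form.sim_of_type (Φ := fA !![0, 1; 0, 0]) (fA_nd (by simp [det_fin_two])) hW (m := 1) (by simp) hd (iff_of_true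
    (Form.hasTS_one_iff.2 fun k => by simpa using congrFun (k ![1, 0] (by simp [fA_Q])) 0) ((Form.plusOn_iff hd).1 hp)) one_ne_zero
  have hB : ∀ x y, Φ.B (T x) (T y) = x 0 * y 1 + x 1 * y 0 := fun x y => (B_model (c := 1) hT x y).trans (by simp [fA_B])
  replace hT : ∀ x, Φ.Q (T x) = x 0 * x 1 := fun x => (hT x).trans (by simp [fA_Q])
  have r := h.rk W
  have := h.five
  obtain ⟨u, hu, u0, qu⟩ := h.iso (Φ.perp W) (by omega)
  have o : ∀ x : W, Φ.B x u = 0 := fun x => Φ.B_eq_zero_comm.1 (Φ.mem_perp.1 hu x x.2)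
  obtain ⟨g, hg, E⟩ := Form.ex_eich (v := (T ![1, -1]).1) (a := -1) qu (o _) (by simp [hT])
  have v0 : (T ![1, 1]).1 ≠ 0 := fun e => by simpa [e] using (hT ![1, 1]).symm
  refine nm_sub h.mem h.big (mem_stab_up W) (W := F ∙ (T ![1, 1]).1) (by simpa)
    (ne_top_of_lt (by simpa) (by rw [finrank_span_singleton v0]; omega)) (fun g a b => ?_) hg ?_ fun e => u0 ?_
  · simp only [Submodule.mem_span_singleton]
    rintro _ ⟨c, rfl⟩
    obtain ⟨x, hx⟩ := T.surjective ⟨_, mem_stabSub'.1 a _ (T ![1, 1]).2⟩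
    have e : (T x).1 = g (T ![1, 1]) := congrArg Subtype.val hx
    have q : x 0 * x 1 = 1 := by rw [← hT, e, (Form.EG_le_isom b).2, hT]; simp
    refine ⟨c * x 1, ?_⟩
    rw [map_smul, ← e, mul_smul, ← Submodule.coe_smul _ (T _), ← map_smul]; congr 3
    ext i; fin_cases i <;> simp
    linear_combination (-x 1) * q + x 0 * sq_small hq (right_ne_zero_of_mul_eq_one q)
  · simp only [Submodule.mem_span_singleton]
    rintro _ ⟨c, rfl⟩
    exact ⟨c, by simp [E, o, hB]⟩
  · exact ((Φ.res_nondeg_iff W).1 hW).le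
      ⟨by simpa [E, o, hB, W.add_mem_iff_right] using mem_stabSub'.1 e _ (T ![1, 0]).2, hu⟩

theorem CG.parity (h : CG Φ Ω d) (hU : Φ.TS W) (e : 2 * finrank F W = Fintype.card ι) {g} (hg : g ∈ Φ.EG) :
    finrank F ↥(W ⊓ W.map (g : (ι → F) →ₗ[F] (ι → F))) % 2 = finrank F W % 2 :=
  have := h.five
  h.nd.parity_Om (by simpa) hU (by simpa) (h.nd.Om_eq_EG (by simp; omega) (.inr (by simp; omega)) ▸ hg)

theorem CG.nm_ts (h : CG Φ Ω 3) (h7 : 7 ≤ Fintype.card ι) (hp : Φ.PlusOn ⊤) (hW : Φ.TS W)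
    (e : 2 * (finrank F W + 1) = Fintype.card ι) : NM Ω (subspaceStabilizer W) := by
  obtain ⟨U, h3, h4, h6⟩ := h.nd.ts_extend hW ((Form.plusOn_top (by simpa using e.symm)).1 hp) (by omega)
  obtain ⟨u, hu, u0⟩ := SetLike.exists_of_lt (lt_of_le_of_ne h3 (by rintro rfl; omega))
  obtain ⟨w, hw, w0⟩ := (Submodule.ne_bot_iff W).1 (Submodule.one_le_finrank_iff.1 (by omega))
  obtain ⟨v, q, a, b⟩ := h.iso.exists_ne h.nd [u] (by simp; omega) (y := w) (by
    simp only [List.mem_singleton, Set.ofPred_eq_eq_singleton, Submodule.mem_span_singleton]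
    rintro ⟨c, rfl⟩
    exact u0 ((W.smul_mem_iff (by rintro rfl; simp at w0)).1 hw))
  obtain ⟨g, hg, E⟩ := Form.ex_eich (a := 0) (h6.1 u hu) (a u (by simp)) (by simp [q])
  have U0 := ne_bot_of_le_ne_bot (Submodule.one_le_finrank_iff.1 (by omega)) h3
  refine nm_sub h.mem h.big (mem_stab_up W) U0 (ne_top_of_lt U0 (by omega)) (fun g a b x hx => ?_) hg
    (fun x hx => by simpa [E, h6.2 x hx u hu] using sub_mem hx (U.smul_mem _ hu)) fun k => u0 ?_
  · have p := h.parity h6 (by omega) b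
    have := Submodule.finrank_mono (le_inf h3 ((mem_stabSub_iff_map.1 a).ge.trans (Submodule.map_mono h3)))
    have := Submodule.finrank_mono (inf_le_left : U ⊓ U.map (g : (ι → F) →ₗ[F] (ι → F)) ≤ U)
    exact (Submodule.eq_of_le_of_finrank_eq (inf_eq_left.1 (Submodule.eq_of_le_of_finrank_eq inf_le_left (by omega)))
      (finrank_map_equiv U g).symm).ge (map_mem_map g hx)
  · have := sub_mem hw (mem_stabSub'.1 k w hw)
    simpa [E, h6.2 w (h3 hw) u hu, W.smul_mem_iff (mt Φ.B_eq_zero_comm.1 b)] using this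

theorem CG.nm_pair (h : CG Φ Ω d) {D : Fin 2 → Submodule F (ι → F)} (hD : IsMDecomposition m D) (ho : Odd m)
    (h0 : ∀ i, Φ.TS (D i)) : NM Ω (decompositionStabilizer D) := by
  have c := decomp_card hD
  have r := hD.finrank_eq
  have := h.five
  have i := isCompl_of_dec hD
  obtain ⟨u, hu, u0⟩ := (Submodule.ne_bot_iff (D 0)).1 (Submodule.one_le_finrank_iff.1 (by rw [r]; omega))
  obtain ⟨v, hv, v0⟩ := SetLike.exists_of_lt (show F ∙ u < D 0 from lt_of_le_of_ne (by simpa) fun e => by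
    have := r 0; rw [← e, finrank_span_singleton u0] at this; omega)
  obtain ⟨g, hg, E⟩ := Form.ex_eich (a := 0) ((h0 0).1 u hu) ((h0 0).2 v hv u hu) (by simp [(h0 0).1 v hv])
  have fx : ∀ x ∈ D 0, g x = x := fun x hx => by simp [E, (h0 0).2 x hx u hu, (h0 0).2 x hx v hv]
  have D0 : D 0 ≠ ⊥ := fun e => u0 (by simpa [e] using hu)
  refine nm_sub h.mem h.big (mem_dec_up D) D0 (ne_top_of_lt D0 (by rw [r]; omega)) (fun g ⟨π, a⟩ b x hx => ?_) hg
    (fun x hx => by rwa [fx x hx]) fun ⟨π, a⟩ => u0 (h.nd u fun y => ?_)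
  · have p := h.parity (h0 0) (by rw [r]; omega) b
    rw [a] at p
    by_cases e : π 0 = 0
    · exact e ▸ a 0 ▸ map_mem_map g hx
    rw [show π 0 = 1 by omega, i.inf_eq_bot, finrank_bot, r, Nat.odd_iff.1 ho] at p; omega
  · obtain ⟨x, hx, z, hz, rfl⟩ := Submodule.mem_sup.1 (i.sup_eq_top.ge (Submodule.mem_top (x := y)))
    have e : π 0 = 0 := dec_eq hD u0 (by have := map_mem_map g hu; rwa [a, fx u hu] at this) hu
    have e' : π 1 = 1 := by have := π.injective.ne (show (1 : Fin 2) ≠ 0 by decide); omega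
    have k := sub_mem (e' ▸ a 1 ▸ map_mem_map g hz) hz
    have k' : Φ.B z u • v - Φ.B z v • u = 0 := i.inf_eq_bot.le
      ⟨sub_mem ((D 0).smul_mem _ hv) ((D 0).smul_mem _ hu), by simpa [E, add_sub_assoc] using k⟩
    rw [map_add, LinearMap.add_apply, (h0 0).2 x hx u hu, zero_add]
    by_contra n
    exact v0 (((F ∙ u).smul_mem_iff n).1 (sub_eq_zero.1 k' ▸ Submodule.smul_mem _ _ (Submodule.mem_span_singleton_self u)))

end orth

theorem CG.not_le_dec {k : Kind F} {Φ : Form k (ι → F)} (h : CG Φ Ω d) (hD : IsMDecomposition m D) :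
    ¬ Ω ≤ decompositionStabilizer D :=
  h.big.decomp hD (by have := h.five; rw [← decomp_card hD] at *; exact ineq_decomp Fintype.one_lt_card hD.two_le this)

theorem CG.nm_sp2 {Ψ : Form (Kind.symp F) (ι → F)} (h : CG Ψ Ω 1) (hq : Fintype.card F = 2)
    (hD : IsNondegenerateMDecomposition (fun u v => Ψ.B u v) 2 D) : NM Ω (decompositionStabilizer D) := by
  have h01 : ∀ c : F, c = 0 ∨ c = 1 := fun c => (em _).imp_right (eq_one_of_card (by omega))
  have h2 : (1 : F) + 1 = 0 := (h01 _).resolve_right (by simp)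
  have : CharP F 2 := CharTwo.of_one_ne_zero_of_two_eq_zero one_ne_zero (one_add_one_eq_two.symm.trans h2)
  have sy : ∀ x y, Ψ.B x y = Ψ.B y x := fun x y => by simpa [CharTwo.neg_eq] using Ψ.B_symm y x
  choose e he f hf _ _ ef using fun i => h.hyp (nondegOn.1 (hD.2 i)) (by rw [hD.1.finrank_eq]; omega)
  replace ef := fun i => (h01 _).resolve_left (ef i)
  have sp : ∀ i, ∀ x ∈ D i, ∃ a b : F, a • e i + b • f i = x := fun i x hx => Submodule.mem_span_pair.1 (by
    have := finrank_span_eq_card (LinearIndependent.pair_iff.2 fun s t z => ⟨by simpa [ef, Ψ.symp_self] using congrArg (Ψ.B · (f i)) z,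
      by simpa [ef, Ψ.symp_self] using congrArg (Ψ.B (e i)) z⟩ : LinearIndependent F ![e i, f i])
    rw [range_cons, range_cons, range_empty, Set.union_empty, Fintype.card_fin] at this
    exact (Submodule.eq_of_le_of_finrank_eq (by simp [Submodule.span_le, Set.insert_subset_iff, he, hf])
      (this.trans (hD.1.finrank_eq i).symm)).ge hx)
  have ind : ∀ P : (ι → F) → Prop, (∀ i (a b : F), P (a • e i + b • f i)) → P 0 → (∀ x y, P x → P y → P (x + y)) → ∀ x, P x :=
    fun P a b c x => Submodule.iSup_induction D (motive := P) (hD.1.iSup_eq_top.ge Submodule.mem_top)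
      (fun i x hx => by obtain ⟨s, t, rfl⟩ := sp i x hx; exact a ..) b c
  have o : ∀ i j, j ≠ i → ∀ a b : F, Ψ.B (a • e i + b • f i) (e j) = 0 ∧ Ψ.B (a • e i + b • f i) (f j) = 0 := fun i j n a b =>
    have m := add_mem ((D i).smul_mem a (he i)) ((D i).smul_mem b (hf i))
    ⟨hD.3 i j n.symm _ m _ (he j), hD.3 i j n.symm _ m _ (hf j)⟩
  let Φ : Form (Kind.orth F) (ι → F) := Form.ofQuadFun
    (fun v => ∑ i, (Ψ.B v (e i) * Ψ.B v (e i) + Ψ.B v (e i) * Ψ.B v (f i) + Ψ.B v (f i) * Ψ.B v (f i))) Ψ.B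
    (fun c x => by simp only [map_smul, LinearMap.smul_apply, smul_eq_mul, Finset.mul_sum]; exact Finset.sum_congr rfl fun _ _ => by ring)
    fun x y => by
      have : Ψ.B x y = ∑ i, (Ψ.B x (e i) * Ψ.B y (f i) + Ψ.B y (e i) * Ψ.B x (f i)) := by
        revert x
        refine ind _ (fun i a b => ?_) (by simp) fun x z a b => ?_
        · rw [Finset.sum_eq_single i (fun j _ n => by rw [(o i j n a b).1, (o i j n a b).2]; simp) (by simp)]
          simp [ef, sy (f i) (e i), sy y, Ψ.symp_self]; ring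
        · simp only [map_add, LinearMap.add_apply, a, b, ← Finset.sum_add_distrib]; exact Finset.sum_congr rfl fun _ _ => by ring
      refine Eq.trans ?_ (congrArg _ this.symm)
      simp only [map_add, LinearMap.add_apply, ← Finset.sum_add_distrib]
      exact Finset.sum_congr rfl fun i _ => by
        linear_combination (Ψ.B x (e i) * Ψ.B y (e i) + Ψ.B x (f i) * Ψ.B y (f i)) * h2
  have q : ∀ i, ∀ x ∈ D i, x ≠ 0 → Φ.Q x = 1 := fun i x hx x0 => by
    obtain ⟨a, b, rfl⟩ := sp i x hx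
    show ∑ _ : Fin t, _ = (1 : F)
    rw [Finset.sum_eq_single i (fun j _ n => by rw [(o i j n a b).1, (o i j n a b).2]; simp) (by simp)]
    rcases h01 a with rfl | rfl <;> rcases h01 b with rfl | rfl <;> simp_all [sy (f i) (e i), Ψ.symp_self]
  have nd : Φ.Nondeg := h.nd
  have five := h.five
  refine not_max_of (M := isometryGroup F Φ.Q) (fun g ⟨a, b⟩ => mem_IQ'.2 (Φ.mem_isom_orth.2 fun x => ?_))
    (fun k => (cgO nd five).not_le_dec hD.1 fun g hg => k ⟨omega_le hg, (h.mem g).2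
      (h.nd.symp_EG.ge (Ψ.mem_isom_symp.2 (mem_IQ'.1 (omega_le hg)).1))⟩) fun k => ?_
  · refine Submodule.iSup_induction D (motive := fun x => Φ.Q (glEquiv g x) = Φ.Q x) (hD.1.iSup_eq_top.ge Submodule.mem_top)
      (fun i x hx => ?_) (by simp) fun x y a c => ?_
    · by_cases x0 : x = 0; · simp [x0]
      obtain ⟨j, hj⟩ := dec_mem ((mem_dec_up D g).1 a) hx
      rw [q i x hx x0, q j _ hj ((glEquiv g).map_ne_zero_iff.2 x0)]
    · rw [map_add, Φ.orth_add, Φ.orth_add, a, c]; exact congrArg _ ((Form.EG_le_isom ((h.mem g).1 b)).1 x y)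
  · obtain ⟨u, v, huv⟩ := nd.orth_hyp (by simp; omega)
    obtain ⟨g, hg, E⟩ := Form.ex_eich (Φ := Ψ) (u := u) (v := 0) (a := 1) (Ψ.symp_Q _) (by simp) (by simp [Ψ.symp_Q])
    have := (mem_IQ'.1 (k (x := glEquiv.symm g) ((h.mem _).2 (by simpa)))).2 v
    have b : Ψ.B v u = 1 := huv.Bfe
    simp [E, b, huv.Bfe, Φ.orth_add, huv.Qe, huv.Qf] at this

theorem stab_not_le_dec (h5 : 5 ≤ Fintype.card ι) (hD : IsMDecomposition m D) (h1 : W ≠ ⊤) :
    ¬ subspaceStabilizer W ⊓ specialLinear ι F ≤ decompositionStabilizer D := fun h => by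
  obtain ⟨i, hi⟩ : ∃ i, ¬ D i ≤ W := by_contra fun k => h1 (eq_top_iff.2 (hD.iSup_eq_top.ge.trans (iSup_le (by simpa using k))))
  obtain ⟨v, hv, n⟩ := SetLike.not_le_iff_exists.1 hi
  obtain ⟨φ, a, b⟩ := exists_dual n
  have := ncard_dec hD h5 (S := (v + ·) '' LinearMap.ker φ) (by
    rintro _ ⟨u, hu : φ u = 0, rfl⟩
    refine ⟨fun e => by simpa [a, hu] using congrArg φ e, ?_⟩
    simpa [LinearMap.transvection.apply, a] using dec_mem ((mem_dec_up _ _).1 (h (x := glEquiv.symm (LinearEquiv.transvection hu))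
      ⟨(mem_stab_up _ _).2 (mem_stabSub'.2 fun x hx => by
        rw [MulEquiv.apply_symm_apply, LinearEquiv.transvection.apply, b x hx]; simpa),
        (mem_SL_up _).2 (by simpa using tv_mem_SLG hu)⟩)) hv)
  rw [Set.ncard_image_of_injective _ (add_right_injective v), ← Nat.card_coe_set_eq,
    show Nat.card (LinearMap.ker φ : Set (ι → F)) = _ from Module.natCard_eq_pow_finrank (K := F) (V := LinearMap.ker φ),
    Nat.card_eq_fintype_card, Nat.pow_lt_pow_iff_right Fintype.one_lt_card] at this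
  have e := Module.Dual.finrank_ker_add_one_of_ne_zero (f := φ) (by rintro rfl; simp at a)
  simp at e; omega

theorem nm_SL_dec (h5 : 5 ≤ Fintype.card ι) (hD : IsMDecomposition m D) {σ δ G} (hG : Gr σ δ G)
    (hS : decompositionStabilizer D ≤ Sim σ G) : NM (specialLinear ι F) (decompositionStabilizer D) := by
  haveI : Nontrivial ι := Fintype.one_lt_card_iff_nontrivial.1 (by omega)
  by_cases hH : Irr (decompositionStabilizer D ⊓ specialLinear ι F); swap
  · simp only [Irr, not_forall, not_or] at hH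
    obtain ⟨W, a, b, c⟩ := hH
    exact not_max_of (inv_iff.1 a) (stab_not_le_dec h5 hD c) ((big_SL (by omega)).stab b c)
  rcases c8L hH hG (inf_le_left.trans hS) with ⟨-, Q, hQ, e⟩ | ⟨-, f, hf, e⟩ | ⟨τ, f, hf, e⟩
  · obtain ⟨Φ, G, rfl, h⟩ := exists_OF hQ
    exact not_max_of e (fun k => (cgO h.nd h5).not_le_dec hD fun g hg => k ⟨⟨1, by simpa using mem_IQ.1 (omega_le hg)⟩, mem_SL.2 (omega_det hg)⟩)
      fun k => not_SL_le (by omega) (fun _ => rfl) (k.trans (quadSim_le h.polar))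
  · obtain ⟨G, rfl⟩ := bil_gram hf.1 hf.4
    refine not_max_of e (fun k => (cgS (fS_nd hf.alternating) h5).not_le_dec hD fun g hg => k ⟨iso_le_sim G (fS_EGL hf.alternating ▸ hg), ?_⟩)
      (not_SL_le (by omega) fun _ => rfl)
    exact (mem_SL_up g).2 (Form.EG_le_sisom hg).2
  · obtain ⟨G, rfl⟩ := unit_gram hf
    obtain ⟨q, hF, e'⟩ := exists_conj_eq (σ := (τ : F →+* F)) hf.involutive fun e => hf.ne_refl (RingEquiv.ext (RingHom.congr_fun e))
    have hG : Gr (τ : F →+* F) 1 G := gr_of_bf hf.involutive fun u v => by rw [one_mul]; exact hf.herm v u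
    rw [e'] at hG e
    exact not_max_of e (fun k => (cgU (fU_nd hG) h5).not_le_dec hD (fU_EGL hG ▸ (inf_le_inf_right _ (iso_le_sim G)).trans k))
      (not_SL_le (by omega) hG.inv)

end H5.As
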