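import Cfsg.Agent.H5.OmIndex

/-!
Sizes of conjugacy classes of involutions in `PSp` (lower bound) and of `-r_v` in odd-dimensional `Ω` (upper bound).
-/

set_option autoImplicit false

namespace H5

open Module

/-- The size of the conjugacy class. -/
noncomputable def cl {G : Type*} [Group G] (x : G) : ℕ := Nat.card {y // IsConj x y}

theorem cl_congr {G H : Type*} [Group G] [Group H] (e : G ≃* H) (x : G) : cl (e x) = cl x :=
  Nat.card_congr (e.toEquiv.subtypeEquiv fun y => ⟨e.toMonoidHom.map_isConj, fun h => by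
    simpa using e.symm.toMonoidHom.map_isConj h⟩).symm

theorem cl_le_mul {G : Type*} [Group G] [Finite G] (N : Subgroup G) [N.Normal] (x : G) : cl x ≤ Nat.card N * cl (x : G ⧸ N) :=
  (Nat.card_mono (s := {y | IsConj x y}) (Set.toFinite (QuotientGroup.mk ⁻¹' {y | IsConj (x : G ⧸ N) y}))
    fun _ h => (QuotientGroup.mk' N).map_isConj h).trans (QuotientGroup.card_preimage_mk _ _).le

theorem cl_quot_le {G : Type*} [Group G] [Finite G] (N : Subgroup G) [N.Normal] (x : G) : cl (x : G ⧸ N) ≤ cl x :=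
  Nat.card_le_card_of_surjective (fun y => ⟨y.1, (QuotientGroup.mk' N).map_isConj y.2⟩) fun ⟨y, h⟩ => by
    obtain ⟨c, rfl⟩ := isConj_iff.1 h
    obtain ⟨c, rfl⟩ := QuotientGroup.mk_surjective c
    exact ⟨⟨_, isConj_iff.2 ⟨c, rfl⟩⟩, rfl⟩

namespace Form

universe u
variable {F : Type*} [Field F] [Fintype F] {q : ℕ} {V : Type u} [AddCommGroup V] [Module F V] [FiniteDimensional F V]

omit [Fintype F] [FiniteDimensional F V] in
theorem finrank_span_pair_le (a b : V) : finrank F (Submodule.span F {a, b}) ≤ 2 := by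
  classical exact (finrank_span_le_card _).trans (by simpa using Finset.card_le_two)

omit [Fintype F] [FiniteDimensional F V] in
theorem finrank_span_triple_le (a b c : V) : finrank F (Submodule.span F {a, b, c}) ≤ 3 := by
  classical exact (finrank_span_le_card _).trans (by simpa using Finset.card_le_three)

theorem card_affine_out (hF : Fintype.card F = q) (K W : Submodule F V) {x : V} (hx : x ∉ W) :
    (q - 1) * q ^ finrank F K ≤ q * Nat.card {y : K // x + y ∉ W} := by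
  haveI : Finite V := Module.finite_of_finite F
  have h1 : q * Nat.card {y : K // x + y ∈ W} ≤ Nat.card K := by
    rcases isEmpty_or_nonempty {y : K // x + y ∈ W} with h | ⟨⟨z, hz⟩⟩
    · simp
    rw [← hF, ← Nat.card_eq_fintype_card, ← Nat.card_prod]
    refine Nat.card_le_card_of_injective (fun p => p.2.1 + p.1 • z) fun ⟨c, y, hy⟩ ⟨c', y', hy'⟩ e => ?_
    obtain rfl : c = c' := by
      by_contra h
      refine hx ((add_mem_cancel_right ((W.smul_mem_iff (sub_ne_zero.2 h)).1 ?_)).1 hz)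
      have e : (y : V) + c • (z : V) = y' + c' • (z : V) := congrArg Subtype.val e
      convert sub_mem hy' hy using 1
      linear_combination (norm := module) e
    simpa using e
  have h2 : Nat.card {y : K // x + y ∈ W} + Nat.card {y : K // x + y ∉ W} = Nat.card K := by
    classical rw [← Nat.card_sum]; exact Nat.card_congr (Equiv.sumCompl _)
  rw [Module.natCard_eq_pow_finrank (K := F) (V := K), Nat.card_eq_fintype_card (α := F), hF] at h1 h2
  rw [Nat.sub_one_mul, tsub_le_iff_right]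
  nlinarith

theorem card_orbit_symp (hF : Fintype.card F = q) {Φ : Form (Kind.symp F) V} (hΦ : Φ.Nondeg) (W : Submodule F V) {x : V} (hx : x ∉ W)
    {d : ℕ} (hd : d + finrank F W ≤ finrank F V) :
    (q - 1) * q ^ d ≤ q * Nat.card {y // ∃ g ∈ Φ.isom, g x = y ∧ ∀ z ∈ W, g z = z} := by
  haveI : Finite V := Module.finite_of_finite F
  have := hΦ.finrank_perp W
  refine (Nat.mul_le_mul_left _ (Nat.pow_le_pow_right (hF ▸ Fintype.card_pos) (by omega))).trans
    ((card_affine_out hF (Φ.perp W) W hx).trans (Nat.mul_le_mul_left _ (Nat.card_le_card_of_injective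
      (fun y => ⟨x + y.1, hΦ.witt_step hx y.2 ((symp_Q _ _).trans (symp_Q _ _).symm) fun z hz => by rw [map_add, Φ.mem_perp'.1 y.1.2 z hz, add_zero]⟩)
      fun y y' e => Subtype.ext (Subtype.ext (add_left_cancel (congrArg Subtype.val e))))))

omit [Fintype F] in
theorem exists_pair_symp {Φ : Form (Kind.symp F) V} (hΦ : Φ.Nondeg) (h2 : (2 : F) ≠ 0) (h5 : 5 ≤ finrank F V) {t : V ≃ₗ[F] V}
    (ht : t ∈ Φ.isom) {ε : F} (hε : ∀ x, t (t x) = ε • x) {a : V} (ha : t a ∉ F ∙ a) :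
    ∃ b, t a ∉ Submodule.span F {a, b} ∧ t b ∉ Submodule.span F {a, b, t a} := by
  have d : finrank F (Submodule.span F {a, t a}) ≤ 2 := finrank_span_pair_le _ _
  obtain ⟨y, hy, h⟩ : ∃ y ∈ Φ.perp (Submodule.span F {a, t a}), t y ∉ F ∙ y := by
    by_contra! h
    obtain ⟨x, hx, y, hy, e⟩ := hΦ.exists_B_ne_of_lt (T := Submodule.span F {a, t a}) (by omega) 1
    obtain ⟨c1, e1⟩ := Submodule.mem_span_singleton.1 (h x hx)
    obtain ⟨c2, e2⟩ := Submodule.mem_span_singleton.1 (h y hy)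
    obtain ⟨c3, e3⟩ := Submodule.mem_span_singleton.1 (h _ (add_mem hx hy))
    have k1 := congrArg (Φ.B · y) e3
    have k2 := congrArg (Φ.B x) e3
    have k3 := isom_B ht x y
    have k4 := congrArg (Φ.B · y) (hε x)
    simp [← e1, ← e2, e, symp_self, B_smul_right] at k1 k2 k3 k4
    have k5 := isom_B ht a (t a)
    rw [hε, B_smul_right, symp_symm] at k5
    refine ha (h a (Φ.mem_perp_pair.2 ⟨symp_self _ _, mul_left_cancel₀ h2 ?_⟩))
    subst k1 k2
    simp only [Kind.symp_σ] at k5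
    linear_combination -k5 + Φ.B a (t a) * (k4 - k3)
  obtain ⟨b, h1, h3⟩ := hΦ.exists_sep h 1
  have h4 := Φ.mem_perp_pair.1 hy
  have h5 : t b ∉ Submodule.span F {a, b, t a} := fun e => by
    have k := (Φ.mem_perp.1 (Φ.mem_perp_span.2 (show ∀ w ∈ ({a, b, t a} : Set V), Φ.B y w = 0 by
      simp [h4, h3 y (Submodule.mem_span_singleton_self y)]))) _ e
    rw [← isom_B ht, hε, B_smul_right, h1] at k
    have := hε y
    simp only [Kind.symp_σ, mul_one] at k
    simp [k] at this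
    simp [this] at h
  refine ⟨b, fun e => h5 ?_, h5⟩
  obtain ⟨α, β, e⟩ := Submodule.mem_span_pair.1 e
  have β0 : β ≠ 0 := by rintro rfl; exact ha (Submodule.mem_span_singleton.2 ⟨α, by simpa using e⟩)
  rw [← Submodule.smul_mem_iff _ β0, show β • t b = ε • a - α • t a by rw [← hε]; nth_rw 1 [← e]; simp]
  exact sub_mem (Submodule.smul_mem _ _ (Submodule.subset_span (by simp))) (Submodule.smul_mem _ _ (Submodule.subset_span (by simp)))

theorem cl_symp (hF : Fintype.card F = q) {Φ : Form (Kind.symp F) V} (hΦ : Φ.Nondeg) (h2 : (2 : F) ≠ 0) {n : ℕ} (hn : finrank F V = n + 5)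
    (t : Φ.isom) {ε : F} (hε : ∀ x, t.1 (t.1 x) = ε • x) {a : V} (ha : t.1 a ∉ F ∙ a) : (q - 1) ^ 2 * q ^ (2 * n + 3) ≤ cl t := by
  classical
  haveI := finite_aut (F := F) (V := V)
  obtain ⟨b, h1, h3⟩ := exists_pair_symp hΦ h2 (by omega) t.2 hε ha
  have d2 : finrank F (Submodule.span F {a, b}) ≤ 2 := finrank_span_pair_le _ _
  have d3 : finrank F (Submodule.span F {a, b, t.1 a}) ≤ 3 := finrank_span_triple_le _ _ _
  have k1 := card_orbit_symp hF hΦ _ h1 (d := n + 3) (by omega)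
  have k2 := card_orbit_symp hF hΦ _ h3 (d := n + 2) (by omega)
  have q0 : 0 < q := hF ▸ Fintype.card_pos
  refine Nat.le_of_mul_le_mul_left (le_trans (le_of_eq (by ring)) ((Nat.mul_le_mul k1 k2).trans ?_)) (mul_pos q0 q0)
  rw [mul_mul_mul_comm, ← Nat.card_prod]
  refine Nat.mul_le_mul_left _ (Nat.card_le_card_of_injective (fun p => ⟨_, isConj_iff.2
    ⟨⟨p.1.2.choose * p.2.2.choose, mul_mem p.1.2.choose_spec.1 p.2.2.choose_spec.1⟩, rfl⟩⟩) fun ⟨x, y⟩ ⟨x', y'⟩ e => ?_)
  have k : ∀ (x : {y // ∃ g ∈ Φ.isom, g (t.1 a) = y ∧ ∀ z ∈ Submodule.span F {a, b}, g z = z})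
      (y : {y // ∃ g ∈ Φ.isom, g (t.1 b) = y ∧ ∀ z ∈ Submodule.span F {a, b, t.1 a}, g z = z}) z, z = a ∨ z = b →
      (x.2.choose * y.2.choose)⁻¹ z = z := fun x y z hz => by
    refine (LinearEquiv.symm_apply_eq _).2 ?_
    rw [LinearEquiv.mul_apply, y.2.choose_spec.2.2 z (Submodule.subset_span (by rcases hz with h | h <;> simp [h])),
      x.2.choose_spec.2.2 z (Submodule.subset_span (by rcases hz with h | h <;> simp [h]))]
  have e1 := congrArg (fun g => g.1.1 a) e
  have e2 := congrArg (fun g => g.1.1 b) e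
  simp only [Subgroup.coe_mul, Subgroup.coe_inv, LinearEquiv.mul_apply, k _ _ a (.inl rfl), k _ _ b (.inr rfl)] at e1 e2
  rw [y.2.choose_spec.2.2 _ (Submodule.subset_span (by simp)), y'.2.choose_spec.2.2 _ (Submodule.subset_span (by simp)),
    x.2.choose_spec.2.1, x'.2.choose_spec.2.1] at e1
  obtain rfl := Subtype.ext e1
  rw [y.2.choose_spec.2.1, y'.2.choose_spec.2.1, EmbeddingLike.apply_eq_iff_eq] at e2
  rw [Subtype.ext e2]

theorem numQ_odd_le (hF : Fintype.card F = q) {Φ : Form (Kind.orth F) V} (hΦ : Φ.Nondeg) {m : ℕ} (h : finrank F V = 2 * m + 1) (c : F) :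
    Φ.numQ c ≤ q ^ (2 * m) + q ^ m := by
  induction m generalizing V with
  | zero =>
    classical
    obtain ⟨v, hv⟩ := exists_ne_zero_of_pos (F := F) (V := V) (by omega)
    rw [numQ_line h hv]
    rcases isEmpty_or_nonempty {a : F // a * (Kind.orth F).σ a * Φ.Q v = c} with h | ⟨⟨a, ha⟩⟩
    · rw [Nat.card_of_isEmpty]; simp
    refine (Nat.card_mono (s := {a | _}) (Set.toFinite {a, -a}) fun b hb => mul_self_eq_mul_self_iff.1
      (mul_right_cancel₀ (hΦ.line_Q_ne h hv) (hb.trans ha.symm))).trans ((Set.ncard_insert_le _ _).trans (by simp))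
  | succ m ih =>
    obtain ⟨e, f, hef⟩ := hΦ.orth_hyp (by omega)
    have h3 := hef.finrank_perp hΦ
    have := ih (hef.perp_nondeg hΦ) (by omega)
    rw [hef.numQ_eq (c := c) ⟨c, rfl⟩, card_ker_orth, Nat.card_eq_fintype_card, hF, show finrank F _ = 2 * m + 1 by omega]
    obtain ⟨r, rfl⟩ : ∃ r, q = r + 1 := ⟨q - 1, by have : 0 < q := hF ▸ Fintype.card_pos; omega⟩
    refine (Nat.add_le_add_right (Nat.mul_le_mul_left _ this) _).trans (le_of_eq ?_)
    simp only [Nat.add_sub_cancel]; ring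

theorem exists_neg_r_mem {Φ : Form (Kind.orth F) V} (hΦ : Φ.Nondeg) (h : Odd (finrank F V)) (h3 : 2 ≤ finrank F V) :
    ∃ v, Φ.Q v ≠ 0 ∧ scal V (-1 : Fˣ) * Φ.r v ∈ Φ.Om := by
  classical
  have h2 := hΦ.orth_two_ne h
  obtain ⟨φ, -, hk, h1, h4⟩ := hΦ.exists_abel_odd h2 h3
  obtain ⟨c, c0, hc⟩ : ∃ c : F, c ≠ 0 ∧ quadraticChar F c = (φ ⟨_, neg_mem_isom⟩).2 := by
    rcases Int.units_eq_one_or (φ ⟨_, neg_mem_isom⟩).2 with e | e
    · exact ⟨1, one_ne_zero, by simp [e]⟩
    obtain ⟨c, hc⟩ := quadraticChar_exists_neg_one (F := F) (fun e => h2 (by simpa [e] using ringChar.Nat.cast_ringChar (R := F)))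
    exact ⟨c, by rintro rfl; simp at hc, by simp [e, hc]⟩
  obtain ⟨v, rfl⟩ := hΦ.orth_universal h3 c
  refine ⟨v, c0, (mem_commutator_iff (⟨_, neg_mem_isom⟩ * ⟨_, Φ.r_mem v⟩)).1 (hk ▸ ?_)⟩
  rw [MonoidHom.mem_ker, map_mul]
  refine Prod.ext ?_ ?_
  · rw [Prod.fst_mul, h1, h1, dick_neg h2, hΦ.dick_r c0, h.neg_one_pow]; simp
  · rw [Prod.snd_mul, show (φ ⟨_, Φ.r_mem v⟩).2 = _ from Units.ext ((h4 v c0).trans hc), Int.units_mul_self]; rfl

theorem cl_neg_r {Φ : Form (Kind.orth F) V} (h2 : (2 : F) ≠ 0) {v : V} (hv : Φ.Q v ≠ 0) (z : Φ.Om) (hz : z.1 = scal V (-1 : Fˣ) * Φ.r v) :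
    2 * cl z ≤ Φ.numQ (Φ.Q v) := by
  haveI : Finite V := Module.finite_of_finite F
  have k : ∀ y : {y // IsConj z y}, ∃ w, Φ.Q w = Φ.Q v ∧ y.1.1 = scal V (-1 : Fˣ) * Φ.r w := fun ⟨y, h⟩ => by
    obtain ⟨g, rfl⟩ := isConj_iff.1 h
    refine ⟨g.1 v, isom_Q (Om_le_isom g.2) v, ?_⟩
    rw [← conj_r (Om_le_isom g.2)]; ext x; simp [hz]
  choose w h1 h3 using k
  rw [cl, ← Nat.card_eq_fintype_card.trans Fintype.card_bool, ← Nat.card_prod]
  refine Nat.card_le_card_of_injective (fun p => ⟨if p.1 then w p.2 else -w p.2, by split_ifs <;> simp [h1]⟩) fun ⟨s, y⟩ ⟨s', y'⟩ e => ?_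
  replace e := congrArg Subtype.val e
  obtain rfl : y = y' := Subtype.ext (Subtype.ext (by
    have := congrArg Φ.r e
    rw [h3, h3]; congr 1; cases s <;> cases s' <;> simpa [r_neg] using this))
  have : -w y ≠ w y := fun e => hv (by
    rw [← h1 y, (smul_eq_zero.1 (show (2 : F) • w y = 0 by linear_combination (norm := module) -e)).resolve_left h2, Q_zero])
  cases s <;> cases s' <;> simp_all [eq_comm]

end Form
end H5
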