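import Cfsg.Agent.H5.Iso2
import Cfsg.Agent.H5.AsO1

/-!
The action on `u^⊥/u` (`Hyp.quotHom`) and the deleted permutation module in characteristic two (`exists_perm_hom`).
-/

set_option autoImplicit false

namespace H5
namespace Form

open Module

variable {F : Type*} [Field F] {κ : Kind F} {V : Type*} [AddCommGroup V] [Module F V] {Φ : Form κ V} {G : Type*} [Group G]

/-- The action on `u^⊥/⟨u⟩`, realised on the complement of a hyperbolic plane. -/
def Hyp.quotHom {u f : V} (h : Φ.Hyp u f) (φ : G →* Φ.isom) (hu : ∀ g, (φ g).1 u = u) :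
    G →* (Φ.res (Φ.perp (Submodule.span F {u, f}))).isom :=
  have b : ∀ g (x : Φ.perp (Submodule.span F {u, f})), Φ.B ((φ g).1 x) u = 0 := fun g x =>
    ((congrArg _ (hu g).symm).trans (isom_B (φ g).2 _ _)).trans (Φ.mem_perp_pair.1 x.2).1
  let L (g : G) : Module.End F (Φ.perp (Submodule.span F {u, f})) := LinearMap.codRestrict _
    ((LinearMap.id - (Φ.B.flip f).smulRight u) ∘ₗ (φ g).1.toLinearMap ∘ₗ Submodule.subtype _) fun x =>
      Φ.mem_perp_pair.2 ⟨by simp [b, h.Bee], by simp [h.3]⟩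
  have m : ∀ g g' x, L g (L g' x) = L (g * g') x := fun g g' x => Subtype.ext (by simp [L, hu, h.3, sub_smul])
  have o : ∀ x, L 1 x = x := fun x => Subtype.ext (by simp [L, (Φ.mem_perp_pair.1 x.2).2])
  { toFun g := ⟨LinearEquiv.ofLinearMap (L g) (L g⁻¹) (LinearMap.ext fun x => by simp [m, o]) (LinearMap.ext fun x => by simp [m, o]),
      fun x y => by simp [L, b, h.Bee, B_smul_right, Φ.B_zero_symm (b g y), isom_B (φ g).2],
      fun x => by simp [L, Q_sub, B_smul_right, b, Φ.Q_smul_zero h.1, isom_Q (φ g).2]⟩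
    map_one' := Subtype.ext (LinearEquiv.ext o)
    map_mul' a b := Subtype.ext (LinearEquiv.ext fun x => (m a b x).symm) }

theorem Hyp.quotHom_ker {u f : V} (h : Φ.Hyp u f) {φ : G →* Φ.isom} (hu : ∀ g, (φ g).1 u = u) {g : G} (e : h.quotHom φ hu g = 1)
    {y : V} (hy : Φ.B y u = 0) : ∃ c : F, (φ g).1 y = y + c • u := by
  have : (φ g).1 (y - Φ.B y f • u) - Φ.B ((φ g).1 (y - Φ.B y f • u)) f • u = y - Φ.B y f • u :=
    congrArg (fun t => (t.1 ⟨y - Φ.B y f • u, Φ.mem_perp_pair.2 ⟨by simp [hy, h.Bee], by simp [h.3]⟩⟩).1) e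
  generalize Φ.B ((φ g).1 _) f = c at this
  rw [map_sub, map_smul, hu] at this
  exact ⟨c, by linear_combination (norm := module) this⟩

theorem exists_perm_hom {N : ℕ} (hN : 5 ≤ N) (he : Even N) (h2 : (2 : F) = 0) (hσ : ∀ a, κ.σ a = a) {Φ : Form κ (Fin N → F)}
    (hB : ∀ i j, Φ.B (Pi.single i 1) (Pi.single j 1) = if i = j then 0 else 1) (hQ : ∀ i, Φ.Q (Pi.single i 1) = 0) (h1 : Φ.Q 1 = 0) :
    ∃ H : Submodule F (Fin N → F), (Φ.res H).Nondeg ∧ finrank F H + 2 = N ∧
      ∃ ρ : Equiv.Perm (Fin N) →* (Φ.res H).isom, Function.Injective ρ := by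
  have k : ∀ i y, Φ.B (Pi.single i 1) y = ∑ j, y j - y i := fun i y => by
    conv_lhs => rw [pi_eq_sum_univ' y, map_sum]
    simp only [B_smul_right, hB, hσ, mul_ite, mul_zero, mul_one]
    rw [eq_sub_iff_add_eq, ← Finset.add_sum_erase _ _ (Finset.mem_univ i), ← Finset.add_sum_erase _ y (Finset.mem_univ i),
      Finset.sum_congr rfl fun j hj => if_neg (Finset.ne_of_mem_erase hj).symm]; simp [add_comm]
  have N0 : (N : F) = 0 := by obtain ⟨m, rfl⟩ := he; rw [← two_mul, Nat.cast_mul, Nat.cast_two, h2, zero_mul]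
  have n : Φ.Nondeg := fun y hy => by
    have : ∀ i, y i = ∑ j, y j := fun i => (sub_eq_zero.1 ((k i y).symm.trans (hy _))).symm
    ext i; rw [this, Finset.sum_congr rfl fun j _ => this j]; simp [N0]
  have s : ∀ (σ : Equiv.Perm (Fin N)) i, LinearEquiv.funCongrLeft F F σ⁻¹ (Pi.single i 1) = Pi.single (σ i) 1 := fun σ i => by
    ext j; simp [Pi.single_apply, Equiv.symm_apply_eq]
  let φ : Equiv.Perm (Fin N) →* Φ.isom := ⟨⟨fun σ => ⟨LinearEquiv.funCongrLeft F F σ⁻¹, mem_isom_of_span (Pi.basisFun F _).span_eq _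
    (by rintro _ ⟨i, rfl⟩ _ ⟨j, rfl⟩; simp only [Pi.basisFun_apply, s, hB, σ.apply_eq_iff_eq])
    (by rintro _ ⟨i, rfl⟩; simp only [Pi.basisFun_apply, s, hQ])⟩, rfl⟩, fun _ _ => rfl⟩
  obtain ⟨f, hf⟩ := n.exists_hyp h1 fun e => by simpa using congrFun e ⟨0, by omega⟩
  refine ⟨_, hf.perp_nondeg n, by simpa using hf.finrank_perp n, hf.quotHom φ fun _ => rfl,
    (injective_iff_map_eq_one _).2 fun σ e => Equiv.ext fun i => ?_⟩
  have ex : ∀ l : List (Fin N), l.length < 5 → ∃ j, j ∉ l := fun l hl => by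
    by_contra! h
    have := (Finset.card_le_card fun j _ => List.mem_toFinset.2 (h j) : Finset.univ.card ≤ _).trans l.toFinset_card_le
    simp at this; omega
  obtain ⟨j, hj⟩ := ex [i, σ i] (by simp)
  obtain ⟨l, hl⟩ := ex [i, σ i, j, σ j] (by simp)
  obtain ⟨c, e⟩ := hf.quotHom_ker _ e (y := Pi.single i 1 + Pi.single j 1) (by simp [k, N0]; linear_combination -h2)
  replace e : (Pi.single (σ i) 1 + Pi.single (σ j) 1 : Fin N → F) = Pi.single i 1 + Pi.single j 1 + c • 1 := by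
    rw [← s, ← s, ← map_add]; exact e
  have e1 := congrFun e l
  have e2 := congrFun e (σ i)
  simp only [List.mem_cons, List.not_mem_nil, or_false, not_or] at hj hl
  simp [hl] at e1
  by_contra h
  simp [← e1, Ne.symm hj.1, Ne.symm hj.2, show σ i ≠ i from h] at e2

/-- The quadratic form `∑_{i<j} xᵢ xⱼ`. -/
def e2F (F : Type*) [Field F] (N : ℕ) : Form (Kind.orth F) (Fin N → F) := As.fA (Matrix.of fun i j => if i < j then 1 else 0)

theorem e2F_B {N : ℕ} (i j : Fin N) : (e2F F N).B (Pi.single i 1) (Pi.single j 1) = if i = j then 0 else 1 := by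
  rcases lt_trichotomy i j with h | rfl | h <;> simp [e2F, As.fA_B, Pi.single_apply, *, ne_of_lt, ne_of_gt, not_lt_of_gt]

theorem e2F_Q {N : ℕ} (i : Fin N) : (e2F F N).Q (Pi.single i 1) = 0 := by
  simp only [e2F, As.fA_Q, Pi.single_apply, ite_mul, mul_ite]; simp

theorem exists_perm_sp {m : ℕ} (hm : 2 ≤ m) (h2 : (2 : F) = 0) :
    ∃ ρ : Equiv.Perm (Fin (2 * (m + 1))) →* Matrix.symplecticGroup (Fin m) F, Function.Injective ρ := by
  obtain ⟨H, n, d, ρ, h⟩ := exists_perm_hom (N := 2 * (m + 1)) (by omega) (by simp) h2 (fun _ => rfl)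
    (Φ := ofAlt (e2F F _).B fun x => (orth_self _ x).trans (by rw [h2, zero_mul])) e2F_B (fun _ => rfl) rfl
  obtain ⟨e, he⟩ := symp_iso n (sympF_nondeg m) (by simp; omega)
  exact ⟨(he.isomCongr.trans (spEquiv m).symm).toMonoidHom.comp ρ, (he.isomCongr.trans (spEquiv m).symm).injective.comp h⟩

theorem plus_six_two [Fintype F] (hF : Fintype.card F = 2) : Nonempty ((plusF F 3).isom ≃* Equiv.Perm (Fin 8)) := by
  have h2 : (2 : F) = 0 := by simpa [hF] using FiniteField.cast_card_eq_zero F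
  obtain ⟨H, n, d, ρ, h⟩ := exists_perm_hom (N := 8) (by omega) (by decide) h2 (fun _ => rfl) e2F_B e2F_Q (by
    simp only [e2F, As.fA_Q, Fin.sum_univ_eight, Matrix.of_apply]; simp; linear_combination 14 * h2)
  have t : ((e2F F 8).res H).HasTS 3 := by
    by_contra t
    have := Subgroup.card_dvd_of_injective ρ h
    rw [card_isom_minus hF n (m := 2) (by omega) t, Nat.card_perm] at this
    simp [Nat.factorial, Finset.prod_range_succ] at this
  obtain ⟨e, he⟩ := split_iso n (plusF_nondeg 3) (by omega) (by simp) t (plusF_hasTS 3)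
  haveI := finite_aut (F := F) (V := H)
  refine ⟨he.isomCongr.symm.trans (MulEquiv.ofBijective ρ (h.bijective_of_nat_card_le (le_of_eq ?_))).symm⟩
  rw [card_isom_plus hF n (m := 2) (by omega) t, Nat.card_perm]; simp [Nat.factorial, Finset.prod_range_succ]

end Form
end H5
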