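import Cfsg.Agent.H5.PermMod
/-! The type of the quadratic form `∑_{i<j} xᵢ xⱼ` over the field with two elements. -/
set_option autoImplicit false
namespace H5
open Module
namespace Form
variable {F : Type*} [Field F] {κ : Kind F}

theorem exists_perm_hom' {N : ℕ} (hN : 5 ≤ N) (he : Even N) (h2 : (2 : F) = 0) (hσ : ∀ a, κ.σ a = a) {Φ : Form κ (Fin N → F)}
    (hB : ∀ i j, Φ.B (Pi.single i 1) (Pi.single j 1) = if i = j then 0 else 1) (hQ : ∀ i, Φ.Q (Pi.single i 1) = 0) (h1 : Φ.Q 1 = 0) :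
    ∃ H : Submodule F (Fin N → F), Φ.Nondeg ∧ (∀ k, Φ.HasTS (k + 1) ↔ (Φ.res H).HasTS k) ∧ (Φ.res H).Nondeg ∧ finrank F H + 2 = N ∧
      ∃ ρ : Equiv.Perm (Fin N) →* (Φ.res H).isom, Function.Injective ρ := by
  have k : ∀ i y, Φ.B (Pi.single i 1) y = ∑ j, y j - y i := fun i y => by
    conv_lhs => rw [pi_eq_sum_univ' y, map_sum]
    simp only [B_smul_right, hB, hσ, mul_ite, mul_zero, mul_one]
    rw [eq_sub_iff_add_eq, ← Finset.add_sum_erase _ _ (Finset.mem_univ i), ← Finset.add_sum_erase _ y (Finset.mem_univ i),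
      Finset.sum_congr rfl fun j hj => if_neg (Finset.ne_of_mem_erase hj).symm]; simp [add_comm]
  have N0 : (N : F) = 0 := by obtain ⟨m, rfl⟩ := he; rw [← two_mul, Nat.cast_mul, Nat.cast_two, h2, zero_mul]
  have n : Φ.Nondeg := fun y hy => by
    have : ∀ i, y i = ∑ j, y j := fun i => (sub_eq_zero.1 ((k i y).symm.trans (hy _))).symm
    ext i; rw [this, Finset.sum_congr rfl fun j _ => this j]; simp [N0]
  have s : ∀ (σ : Equiv.Perm (Fin N)) i, LinearEquiv.funCongrLeft F F σ⁻¹ (Pi.single i 1) = Pi.single (σ i) 1 := fun σ i => by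
    ext j; simp [Pi.single_apply, Equiv.symm_apply_eq]
  let φ : Equiv.Perm (Fin N) →* Φ.isom := ⟨⟨fun σ => ⟨LinearEquiv.funCongrLeft F F σ⁻¹, mem_isom_of_span (Pi.basisFun F _).span_eq _
    (by rintro _ ⟨i, rfl⟩ _ ⟨j, rfl⟩; simp only [Pi.basisFun_apply, s, hB, σ.apply_eq_iff_eq])
    (by rintro _ ⟨i, rfl⟩; simp only [Pi.basisFun_apply, s, hQ])⟩, rfl⟩, fun _ _ => rfl⟩
  obtain ⟨f, hf⟩ := n.exists_hyp h1 fun e => by simpa using congrFun e ⟨0, by omega⟩
  refine ⟨_, n, hf.hasTS_succ_iff n, hf.perp_nondeg n, by simpa using hf.finrank_perp n, hf.quotHom φ fun _ => rfl,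
    (injective_iff_map_eq_one _).2 fun σ e => Equiv.ext fun i => ?_⟩
  have ex : ∀ l : List (Fin N), l.length < 5 → ∃ j, j ∉ l := fun l hl => by
    by_contra! h
    have := (Finset.card_le_card fun j _ => List.mem_toFinset.2 (h j) : Finset.univ.card ≤ _).trans l.toFinset_card_le
    simp at this; omega
  obtain ⟨j, hj⟩ := ex [i, σ i] (by simp)
  obtain ⟨l, hl⟩ := ex [i, σ i, j, σ j] (by simp)
  obtain ⟨c, e⟩ := hf.quotHom_ker _ e (y := Pi.single i 1 + Pi.single j 1) (by simp [k, N0]; linear_combination -h2)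
  replace e : (Pi.single (σ i) 1 + Pi.single (σ j) 1 : Fin N → F) = Pi.single i 1 + Pi.single j 1 + c • 1 := by
    rw [← s, ← s, ← map_add]; exact e
  have e1 := congrFun e l
  have e2 := congrFun e (σ i)
  simp only [List.mem_cons, List.not_mem_nil, or_false, not_or] at hj hl
  simp [hl] at e1
  by_contra h
  simp [← e1, Ne.symm hj.1, Ne.symm hj.2, show σ i ≠ i from h] at e2

theorem e2F_cons {N : ℕ} (c : F) (x : Fin N → F) : (e2F F (N + 1)).Q (Fin.cons c x) = c * ∑ i, x i + (e2F F N).Q x := by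
  simp [e2F, As.fA_Q, Fin.sum_univ_succ]

theorem e2F_one (h2 : (2 : F) = 0) (j : ℕ) : (e2F F (4 * j)).Q 1 = 0 := by
  have k : ∀ N, (e2F F (N + 1)).Q 1 = N + (e2F F N).Q 1 := fun N => by
    rw [show (1 : Fin (N + 1) → F) = Fin.cons 1 1 from funext fun i => by cases i using Fin.cases <;> rfl, e2F_cons]; simp
  induction j with
  | zero => simp [e2F, As.fA_Q]
  | succ j i => rw [Nat.mul_succ, k, k, k, k, i]; push_cast; linear_combination (8 * j + 3) * h2

theorem e2F_sum (j : ℕ) : ∑ x, (if (e2F (ZMod 2) (4 * j)).Q x = 0 then 1 else -1 : ℤ) = (-4) ^ j := by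
  let a : ℕ → ZMod 2 → ℤ := fun N c => ∑ x, if (e2F (ZMod 2) N).Q x + c * ∑ i, x i = 0 then 1 else -1
  have k : ∀ N, a (N + 1) 0 = a N 0 + a N 1 ∧ a (N + 1) 1 = a N 1 - a N 0 := fun N => by
    simp only [a, ← (Fin.consEquiv fun _ : Fin (N + 1) => ZMod 2).sum_comp, Fintype.sum_prod_type_right, ← Finset.sum_add_distrib, ← Finset.sum_sub_distrib]
    constructor <;> refine Finset.sum_congr rfl fun x _ => ?_ <;> simp only [Fin.consEquiv, Equiv.coe_fn_mk, e2F_cons, Fin.sum_univ_succ, Fin.cons_zero, Fin.cons_succ] <;>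
      generalize (e2F (ZMod 2) N).Q x = u, ∑ i, x i = s <;> revert u s <;> decide
  suffices a (4 * j) 0 = (-4) ^ j ∧ a (4 * j) 1 = (-4) ^ j by simpa [a] using this.1
  induction j with
  | zero => simp [a, e2F, As.fA_Q]
  | succ j i => simp only [Nat.mul_succ, k, i, pow_succ]; constructor <;> ring

theorem e2F_numSing (j : ℕ) : (2 * (e2F (ZMod 2) (4 * j)).numSing : ℤ) = 2 ^ (4 * j) + (-4) ^ j := by
  rw [← e2F_sum, numSing, Nat.card_eq_fintype_card, Fintype.card_subtype, Finset.card_filter]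
  push_cast
  rw [Finset.mul_sum, show (2 : ℤ) ^ (4 * j) = ∑ _x : Fin (4 * j) → ZMod 2, 1 by simp, ← Finset.sum_add_distrib]
  exact Finset.sum_congr rfl fun x _ => by split_ifs <;> rfl

end Form
end H5
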