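import Cfsg.Agent.H5.Cj7
import Cfsg.Agent.H5.Mx4
/-! Elements of prime order of `PSU` and pairs of complementary totally singular subspaces. -/
set_option autoImplicit false
namespace H5
open Module Pointwise Matrix Form Polynomial

universe u
variable {F : Type u} [Field F] {κ : Kind F} {V : Type u} [AddCommGroup V] [Module F V] [FiniteDimensional F V] {r m k : ℕ} {z b c : Fˣ} {g : V ≃ₗ[F] V} {U W U' W' : Submodule F V}

section bridge
variable {ι : Type} [Fintype ι] [DecidableEq ι] {G' H' : Subgroup (GL ι F)} {G H : Subgroup ((ι → F) ≃ₗ[F] (ι → F))} (hG : ∀ g, g ∈ G' ↔ glEquiv g ∈ G) (hH : ∀ g, g ∈ H' ↔ glEquiv g ∈ H)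
include hG hH
theorem elg_sub [Nonempty ι] : (∀ x ∈ G', (∃ z : F, (x ^ r).1 = z • 1) → (∀ z : F, x.1 ≠ z • 1) → ∃ g ∈ G', g⁻¹ * x * g ∈ H') ↔ ElG G r fun x => ∃ t ∈ G, t⁻¹ * x * t ∈ H := by
  rw [← elg_mat (.id _) (M := (· ∈ G')) fun g => ⟨fun a => ⟨glEquiv.symm g, (hG _).2 (by simpa using a), by simp⟩, fun ⟨x, a, b⟩ => b ▸ (hG x).1 a⟩]
  exact forall₄_congr fun x _ _ _ => glEquiv.exists_congr fun g => by simp [hG, hH]
theorem relIndex_sub : H'.relIndex G' = H.relIndex G := by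
  rw [show H' = H.comap glEquiv.toMonoidHom from Subgroup.ext hH, show G' = G.comap glEquiv.toMonoidHom from Subgroup.ext hG, Subgroup.relIndex_comap,
    Subgroup.map_comap_eq_self_of_surjective glEquiv.surjective]
end bridge

namespace Form
section
variable {Φ : Form κ V}
theorem TP.one (h : Φ.TP U W) (hg : g ∈ Φ.isom) (j : ∀ v ∈ W, g v ∈ W) (e : ∀ v ∈ U, g v = v) (w : V) (hw : w ∈ W) : g w = w :=
  sub_eq_zero.1 (h.c.disjoint.le_bot ⟨h.perp.le ((mem_perp _).2 fun u hu => Φ.B_zero_symm (by rw [map_sub, ← hg.1 u w, e u hu, sub_self])), sub_mem (j w hw) hw⟩)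

theorem TP.not_fix (h : Φ.TP U W) (hg : g ∈ Φ.isom) (i : ∀ v ∈ U, g v ∈ U) (j : ∀ v ∈ W, g v ∈ W) {d : ℕ} (d0 : 0 < d) (e : finrank F (mv g) = d)
    (a : d ∣ finrank F (mv (resAut g U i))) (b : d ∣ finrank F (mv (resAut g W j))) : False := by
  rw [eq_sumAut h.c g i j, finrank_mv_compl] at e
  have k : ∀ {U : Submodule F V} (i : ∀ v ∈ U, g v ∈ U), finrank F (mv (resAut g U i)) = 0 ↔ ∀ v ∈ U, g v = v := fun i => by
    rw [Submodule.finrank_eq_zero, mv_eq_bot]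
    exact ⟨fun e v hv => congrArg Subtype.val (LinearEquiv.congr_fun e ⟨v, hv⟩), fun e => LinearEquiv.ext fun v => Subtype.ext (e v v.2)⟩
  have k1 := mt (fun e => (k j).2 (h.one hg j ((k i).1 e)))
  have k2 := mt (fun e => (k i).2 (h.symm.one hg i ((k j).1 e)))
  have := Nat.le_of_dvd (Nat.pos_of_ne_zero fun e => by omega) a
  have := Nat.le_of_dvd (Nat.pos_of_ne_zero fun e => by omega) b
  omega

theorem TP.swap_le (h : Φ.TP U W) (i : ∀ v ∈ U, g v ∈ W) : finrank F U ≤ finrank F (mv g) := by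
  refine (LinearMap.finrank_range_of_inj (f := nl g ∘ₗ U.subtype) ((injective_iff_map_eq_zero _).2 fun u hu => ?_)).ge.trans (Submodule.finrank_mono (LinearMap.range_comp_le_range ..))
  exact Subtype.ext (h.c.disjoint.le_bot ⟨u.2, (show g u = u by simpa [sub_eq_zero] using hu) ▸ i u u.2⟩)

theorem TP.smul (h : Φ.TP U W) (hg : g ∈ Φ.isom) : Φ.TP (g • U) (g • W) :=
  ⟨h.nd, h.l.map_iso (Ψ := Φ) hg, h.r.map_iso (Ψ := Φ) hg, (Submodule.orderIsoMapComap g).isCompl h.c⟩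
end

variable [Fintype F] {q : ℕ} {hF : Fintype.card F = q ^ 2} {Φ : Form (unitK hF) V}
theorem TP.move (h : Φ.TP U W) (h' : Φ.TP U' W') (φ : U ≃ₗ[F] U') : ∃ g ∈ Φ.isom, (∀ u : U, g u = φ u) ∧ g • U = U' ∧ g • W = W' := by
  obtain ⟨g, g1, g2⟩ := h.nd.ts_conj h.l h'.l φ
  have e : g • U = U' := smul_eq_of_le (fun v hv => (g2 ⟨v, hv⟩).symm ▸ (φ _).2) φ.finrank_eq
  have k := h.smul g1
  rw [e] at k
  have b : ∀ x y, Φ.B (U'.projection _ k.c x + (x - U'.projection _ h'.c x)) (U'.projection _ k.c y + (y - U'.projection _ h'.c y)) = Φ.B x y := fun x y => by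
    have a1 := k.r.2 _ (Submodule.sub_projection_mem k.c x) _ (Submodule.sub_projection_mem k.c y)
    have a2 := h'.r.2 _ (Submodule.sub_projection_mem h'.c x) _ (Submodule.sub_projection_mem h'.c y)
    have a3 := fun {A B} (a : IsCompl U' A) (b : IsCompl U' B) => k.l.2 _ (Submodule.projection_apply_mem a x) _ (Submodule.projection_apply_mem b y)
    simp only [map_add, map_sub, LinearMap.add_apply, LinearMap.sub_apply, a3] at *
    linear_combination a2 - a1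
  obtain ⟨t, t1, t2⟩ := h.nd.witt ⊤ (U'.projection _ k.c + (.id - U'.projection _ h'.c)) (fun u _ h0 => h.nd u fun x => by
    rw [← b, show U'.projection _ k.c u + (u - U'.projection _ h'.c u) = 0 from h0, map_zero]) (fun x _ y _ => b x y) fun x _ => by rw [unit_Q, unit_Q]; exact b x x
  have t3 : ∀ u ∈ U', t u = u := fun u hu => by simp [t2, Submodule.projection_apply_of_mem_left _ hu]
  refine ⟨t * g, mul_mem t1 g1, fun u => by simp [g2, t3], by rw [mul_smul, e]; exact smul_eq_iff.2 fun v hv => (t3 v hv).symm ▸ hv, ?_⟩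
  rw [mul_smul]
  exact smul_eq_of_le (fun v hv => by simp [t2, Submodule.projection_apply_of_mem_right _ hv, Submodule.sub_projection_mem]) (by
    have := k.symm.two_mul; have := h'.symm.two_mul; omega)

theorem TP.moveS [Nontrivial V] (h : Φ.TP U W) (h' : Φ.TP U' W') : ∃ g ∈ Φ.sisom, g • U = U' ∧ g • W = W' := by
  obtain ⟨φ⟩ := FiniteDimensional.nonempty_linearEquiv_of_finrank_eq (R := F) (M := U) (M' := U') (by have := h.two_mul; have := h'.two_mul; omega)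
  obtain ⟨s, hs, -, s1, s2⟩ := h.move h' φ
  obtain ⟨e, he, f, hf, hef⟩ := h.exists_hyp finrank_pos
  obtain ⟨y, y0, hy⟩ := exists_eq_div_conj hF (h.nd.det_mul_conj hs)
  obtain ⟨d, hd, h2, h3⟩ := hef.exists_dil (inv_ne_zero y0)
  refine ⟨s * d, (Φ.mem_sisom).2 ⟨mul_mem hs hd, ?_⟩, by rw [mul_smul, (smul_eq_iff (g := d) (W := U)).2 fun x hx => by simpa [h3, h.l.2 x hx e he] using add_mem hx (U.smul_mem _ he), s1],
    by rw [mul_smul, (smul_eq_iff (g := d) (W := W)).2 fun x hx => by simpa [h3, h.r.2 x hx f hf] using add_mem hx (W.smul_mem _ hf), s2]⟩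
  rw [← LinearEquiv.coe_det, map_mul, Units.val_mul, h2]
  simp only [Kind.unit_σ, map_inv₀, inv_inv]
  field_simp; exact hy

theorem Nondeg.ts_compl (n : Φ.Nondeg) (h2 : (2 : F) ≠ 0) (hg : g ∈ Φ.isom) (r0 : (r : F) ≠ 0) (e : g ^ r = scal V z) (t : Φ.TS U) (d : 2 * finrank F U = finrank F V) (i : ∀ v ∈ U, g v ∈ U) :
    ∃ W, Φ.TP U W ∧ ∀ v ∈ W, g v ∈ W := by
  obtain ⟨C, c1, c2⟩ := exists_inv_compl r0 e i
  have p := n.perp_eq_of_ts t d
  have c3 : IsCompl U (Φ.perp C) := ⟨disjoint_iff.2 (by rw [← p, ← perp_sup, c1.sup_eq_top, n.perp_top]), codisjoint_iff.2 (by rw [← p, ← n.perp_inf, c1.inf_eq_bot, perp_bot])⟩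
  let f : C →ₗ[F] V := C.subtype + C.subtype - U.projection _ c3 ∘ₗ C.subtype
  have f0 : ∀ x : C, f x = x + x - U.projection _ c3 x := fun _ => rfl
  have u := fun x => Submodule.projection_apply_mem c3 x
  refine ⟨LinearMap.range f, ⟨n, t, unit_ts.2 ?_, ⟨Submodule.disjoint_def.2 ?_, codisjoint_iff.2 (eq_top_iff.2 fun x _ => ?_)⟩⟩, ?_⟩
  · rintro _ ⟨x, rfl⟩ _ ⟨y, rfl⟩
    have a1 := Φ.B_zero_symm (Submodule.sub_projection_mem c3 y x x.2)
    have a2 := Submodule.sub_projection_mem c3 x y y.2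
    have a3 := t.2 _ (u x) _ (u y)
    simp only [f0, map_add, map_sub, LinearMap.add_apply, LinearMap.sub_apply] at *
    linear_combination 2 * a1 + 2 * a2 + a3
  · rintro _ hx ⟨x, rfl⟩
    have : (2 : F) • x.1 ∈ U := by simpa [f0, two_smul] using add_mem hx (u x)
    rw [show x = 0 from Subtype.ext (c1.disjoint.le_bot ⟨(U.smul_mem_iff h2).1 this, x.2⟩), map_zero]
  · obtain ⟨a, b, rfl⟩ := exists_add_of_isCompl c1 x
    refine add_mem (Submodule.mem_sup_left a.2) ((Submodule.smul_mem_iff _ h2).1 ?_)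
    simpa [f0, two_smul] using Submodule.add_mem_sup (u b) (LinearMap.mem_range_self f b)
  rintro _ ⟨x, rfl⟩
  have : ∀ v, U.projection _ c3 (g v) = g (U.projection _ c3 v) := fun v => by
    obtain ⟨a, b, rfl⟩ := exists_add_of_isCompl c3 v
    simp [Submodule.projection_apply_of_mem_left c3 (i _ a.2), Submodule.projection_apply_of_mem_right c3 (isom_perp_mem hg c2 _ b.2)]
  exact ⟨⟨_, c2 _ x.2⟩, by simp [f0, this]⟩

variable {D : Fin 2 → Submodule F V} (h : Φ.TP (D 0) (D 1)) (n4 : 4 ≤ finrank F V) [hr : Fact r.Prime]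
include h n4
theorem TP.index (r0 : (r : F) ≠ 0) (d : r ∣ (stabDec D).relIndex Φ.sisom) : ∃ j, 2 * j + 1 ≤ finrank F V ∧ (q : ZMod r) ^ (2 * j + 1) = -1 := by
  have q2 := two_le_of_card_sq hF
  replace d : r * Nat.card ↥((Φ.isom ⊓ stabSub (D 1)) ⊓ stabSub (D 0)) ∣ Nat.card Φ.isom := by
    rw [card_mul_index_inf _ LinearEquiv.det, card_mul_index_inf Φ.isom LinearEquiv.det, mul_left_comm]
    exact mul_dvd_mul (Subgroup.card_dvd_of_le (Subgroup.map_mono (inf_le_left.trans inf_le_left))) (mul_card_dvd d (fun g k => mem_stabDec_fix (Fin.forall_fin_two.2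
      ⟨mem_stabSub'.1 k.1.2, mem_stabSub'.1 k.1.1.2⟩)) (inf_le_inf_right _ (inf_le_left.trans inf_le_left)))
  replace d := (mul_dvd_mul_left r (Subgroup.card_dvd_of_surjective (resHom _ (D 0)) fun φ => by
    obtain ⟨g, g1, g2, g3, g4⟩ := h.move h φ
    exact ⟨⟨g, ⟨g1, mem_stabSub_iff_map.2 g4⟩, mem_stabSub_iff_map.2 g3⟩, LinearEquiv.ext fun v => Subtype.ext (g2 v)⟩)).trans d
  obtain ⟨a, ha⟩ := card_aut' (F := F) (V := D 0)
  have e := prod_odd_even (fun j => uf q (j - 1)) (finrank F (D 0))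
  simp only [Nat.add_sub_cancel] at e
  rw [ha, card_isom_unit h.nd h.two_mul.symm, guOrd, e, hF, Finset.prod_congr rfl fun i _ => (show uf q (2 * (i + 1) - 1) = (q ^ 2) ^ (i + 1) - 1 by
    rw [uf, if_neg (Nat.not_even_iff_odd.2 ⟨i, by omega⟩), ← pow_mul]; rfl), ← mul_assoc, ← mul_assoc,
    Nat.mul_dvd_mul_iff_right (Finset.prod_pos fun i _ => Nat.sub_pos_of_lt (Nat.one_lt_pow (by omega) (by nlinarith)))] at d
  obtain ⟨u, hu⟩ := exists_qu (hF := hF) r0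
  rcases hr.out.dvd_mul.1 ((dvd_mul_right ..).trans d) with d | d
  · exact absurd (hu ▸ (ZMod.natCast_eq_zero_iff _ _).2 (hr.out.dvd_of_dvd_pow d)) u.ne_zero
  obtain ⟨j, hj, d⟩ := (Prime.dvd_finsetProd_iff hr.out.prime _).1 d
  rw [uf, if_pos (even_two_mul j), ← ZMod.natCast_eq_zero_iff] at d
  exact ⟨j, by have := h.two_mul; simp at hj; omega, eq_neg_of_add_eq_zero_left (by simpa using d)⟩

theorem TP.el_iff (d : r ∣ (stabDec D).relIndex Φ.sisom) : ElG Φ.sisom r (fun x => ∃ t ∈ Φ.sisom, t⁻¹ * x * t ∈ stabDec D) ↔ r = 2 ∧ Odd q ∧ padicValNat 2 (q + 1) ≤ padicValNat 2 (finrank F V) := by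
  haveI : Nontrivial V := nontrivial_of_finrank_pos (R := F) (by omega)
  have n := h.nd
  have pp : ∀ {g : V ≃ₗ[F] V} (b : Fˣ), (∃ t ∈ Φ.sisom, t⁻¹ * (g * scal V b) * t ∈ stabDec D) → ∃ U W, Φ.TP U W ∧ (((∀ v ∈ U, g v ∈ U) ∧ ∀ v ∈ W, g v ∈ W) ∨ (∀ v ∈ U, g v ∈ W) ∧ ∀ v ∈ W, g v ∈ U) := by
    rintro g b ⟨t, t1, σ, hσ⟩
    have k : ∀ i, ∀ v ∈ t • D i, g v ∈ t • D (σ i) := by
      rintro i _ ⟨v, hv, rfl⟩
      exact ⟨_, (D _).smul_mem (b.1⁻¹) (hσ i ▸ map_mem_map _ hv), by simp⟩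
    refine ⟨_, _, h.smul t1.1, ?_⟩
    obtain rfl | rfl : σ = 1 ∨ σ = .swap 0 1 := by clear hσ k; revert σ; decide
    exacts [.inl ⟨k 0, k 1⟩, .inr ⟨k 0, k 1⟩]
  have one : ∀ {g : V ≃ₗ[F] V} (b : Fˣ), g ∈ Φ.isom → finrank F (mv g) = 1 → ¬ ∃ t ∈ Φ.sisom, t⁻¹ * (g * scal V b) * t ∈ stabDec D := fun b g1 g2 k => by
    obtain ⟨U, W, k, ⟨i, j⟩ | ⟨i, -⟩⟩ := pp b k
    · exact k.not_fix g1 i j one_pos g2 (one_dvd _) (one_dvd _)
    · have := k.swap_le i; have := k.two_mul; omega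
  have ns : ∀ {g : V ≃ₗ[F] V} (b : Fˣ), (∀ c, g ≠ scal V c) → ∀ c, g * scal V b ≠ scal V c := fun b k c e => k (c * b⁻¹) (by rw [map_mul, ← e, map_inv, mul_inv_cancel_right])
  obtain ⟨p, _, _, pp', -⟩ := FiniteField.card' F
  haveI := Fact.mk pp'
  by_cases rp : r = p
  · subst rp
    obtain ⟨g, g1, j⟩ := n.exists_je_unit (μ := 2 ::ₘ .replicate (finrank F V - 2) 1) (by simp +contextual [Multiset.mem_replicate]) (by simp; omega)
    have g2 := j.pow_char r (by simp; omega) (by have := pp'.two_le; simp +contextual [Multiset.mem_replicate]; omega)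
    have g3 : finrank F (mv g) = 1 := (j.finrank_range (by simp; omega)).trans (by simp)
    refine iff_of_false (fun E => one 1 g1 g3 ?_) fun ⟨e, o, _⟩ => two_ne_zero_of_odd (hF ▸ o.pow) ((two_iff r).2 e)
    simpa using E g ⟨g1, one_of_cop (cop_char r) (by rw [← map_pow, g2, map_one])⟩ ⟨1, by simpa⟩ (ne_scal (by omega) (by omega))
  have r0 := cast_ne (F := F) p hr.out rp
  by_cases r2 : r = 2
  · subst r2
    have h2 : (2 : F) ≠ 0 := by simpa using r0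
    have o : Odd q := (Nat.odd_pow_iff two_ne_zero).1 (hF ▸ odd_of_two_ne_zero h2)
    simp only [o, true_and]
    refine ⟨fun E => by_contra fun v => ?_, fun v g g1 ⟨z, g2⟩ g3 => ?_⟩
    · obtain ⟨b, b1, b2⟩ := (neg_pow_iff (hF := hF) o.add_one.two_dvd (by omega)).2 v
      obtain ⟨W, w1, w2⟩ := n.unit_nd (m := 1) (by omega)
      obtain ⟨s, s1, s2, s3⟩ := n.exists_neg' h2 w2
      exact one b s1 (s3.trans w1) (E _ ⟨mul_mem s1 ((scal_mem_iff n).2 b1), by simp [det_scal, det_invol h2 s2, s3, w1, b2]⟩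
        ⟨b ^ 2, by rw [Commute.mul_pow (scal_comm _ _), s2, map_pow, one_mul]⟩ (ns b (ne_scal (by omega) (by omega))))
    have := h.two_mul
    obtain ⟨U, ⟨u1, u2⟩, u3⟩ := (elu_iff n (P := fun W => finrank F W = finrank F (D 0) ∧ Φ.TS W) ⟨rfl, h.l⟩).2 ⟨(n.ts_inv o.add_one.two_dvd (by omega) this.le).2 (.inr v), fun z np g g1 g2 =>
      (np.ts r0 n g1.1 g2 this.le).2 (.inl rfl)⟩ g g1 ⟨z, fun v => by simp [g2]⟩ fun c k => by
        obtain ⟨v, hv⟩ := exists_ne (0 : V)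
        exact g3 (.mk0 c (by rintro rfl; simpa [hv] using k v)) (LinearEquiv.ext k)
    obtain ⟨W, w1, w2⟩ := n.ts_compl h2 g1.1 r0 g2 u2 (by omega) u3
    obtain ⟨t, t1, rfl, rfl⟩ := h.moveS w1
    refine ⟨t, t1, mem_stabDec_fix (Fin.forall_fin_two.2 ⟨fun x hx => ?_, fun x hx => ?_⟩)⟩
    exacts [mem_map_equiv'.1 (u3 _ (map_mem_map t hx)), mem_map_equiv'.1 (w2 _ (map_mem_map t hx))]
  refine iff_of_false (fun E => ?_) fun k => r2 k.1
  have od := hr.out.odd_of_ne_two r2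
  have fx : ∀ {g : V ≃ₗ[F] V} (b : Fˣ), g ∈ Φ.isom → g ^ r = 1 → (∀ c, g ≠ scal V c) → b * conj hF b = 1 → LinearEquiv.det g * b ^ finrank F V = 1 →
      ∃ U W, Φ.TP U W ∧ (∀ v ∈ U, g v ∈ U) ∧ ∀ v ∈ W, g v ∈ W := fun {g} b g1 g2 g3 b1 b2 => by
    obtain ⟨U, W, k, l | ⟨i, j⟩⟩ := pp b (E _ ⟨mul_mem g1 ((scal_mem_iff n).2 b1), by simpa [det_scal] using b2⟩ ⟨b ^ r, by rw [Commute.mul_pow (scal_comm _ _), g2, map_pow, one_mul]⟩ (ns b g3))
    · exact ⟨U, W, k, l⟩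
    obtain ⟨s, hs⟩ := od
    have a : (g * g) ^ s ∈ stabSub U := pow_mem (mem_stabSub'.2 fun v hv => j (g v) (i v hv)) s
    have := k.two_mul
    rw [Submodule.finrank_eq_zero.2 (disjoint_self.1 (k.c.disjoint.mono_right fun v hv => by
      have := i _ (mem_stabSub'.1 a v hv); rwa [← LinearEquiv.mul_apply, ← sq, ← pow_mul, ← pow_succ', ← hs, g2] at this))] at this
    omega
  obtain ⟨j, jn, hj⟩ := h.index n4 r0 d
  have i1 : orderOf (q : ZMod r) ∣ (2 * j + 1) * 2 := orderOf_dvd_of_pow_eq_one (by rw [pow_mul, hj]; simp)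
  have i2 : 2 ∣ orderOf (q : ZMod r) := by_contra fun o => one_ne_neg r2 ((orderOf_dvd_iff_pow_eq_one.1 (((Nat.prime_two.coprime_iff_not_dvd).2 o).symm.dvd_of_dvd_mul_right i1)).symm.trans hj)
  obtain ⟨c, hc⟩ := i2
  rw [hc, mul_comm 2 c, Nat.mul_dvd_mul_iff_right two_pos] at i1
  have oc := Nat.odd_iff.1 (Odd.of_dvd_nat ⟨j, rfl⟩ i1)
  have := Nat.le_of_dvd (by omega) i1
  have B := blk_unit (hF := hF) (c := c) r2 r0 rfl (by rw [if_neg (by omega), if_pos (by omega)]; omega)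
  have b := ord_sq (hF := hF) (r := r) (b := c) rfl (by rw [if_pos ⟨c, by omega⟩]; omega)
  by_cases k : r ∣ q + 1 ∧ r ∣ finrank F V
  · have := Nat.le_of_dvd (by omega) k.2
    obtain ⟨g, g1, g2, g3, g4⟩ := n.exists_diag od k.1 this
    have := hr.out.two_le
    obtain ⟨U, W, k, i, -⟩ := fx 1 g1 g2 (fun c e => by have := g4 _ h.l fun v hv => e ▸ (D 0).smul_mem _ hv; have := h.two_mul; omega) (by simp) (by simp [g3])
    have := g4 U k.l i
    have := k.two_mul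
    omega
  obtain ⟨X, x1, x2, s, s1, s2, s3⟩ := (B.hasB_iff n.unit_em 1).2 ((Nat.le_div_iff_mul_le B.pos).2 (by omega))
  have g1 := (Φ.sumAut_mem_iff (n.isCompl_perp x1) le_rfl (s, 1)).2 ⟨s1, one_mem _⟩
  have g2 := sumAut_pow (n.isCompl_perp x1) s2 (one_pow r)
  have g3 : finrank F (mv (sumAut (n.isCompl_perp x1) (s, 1))) = c := by rw [finrank_mv_compl, mv_one, finrank_mv_fpf s3, x2]; simp
  generalize sumAut _ (s, 1) = g at g1 g2 g3
  obtain ⟨a, a1, a2⟩ : ∃ b : Fˣ, b * conj hF b = 1 ∧ LinearEquiv.det g * b ^ finrank F V = 1 := by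
    by_cases k' : r ∣ finrank F V; swap; · exact n.det_fix k' g1 g2
    have := pow_gcd_eq_one.2 ⟨show LinearEquiv.det g ^ r = 1 by rw [← map_pow, g2, map_one], (norm_iff (hF := hF)).1 (n.det_mul_conj g1)⟩
    rw [(hr.out.coprime_iff_not_dvd.2 fun e => k ⟨e, k'⟩).gcd_eq_one, pow_one] at this
    exact ⟨1, by simp, by simp [this]⟩
  have := h.two_mul
  obtain ⟨U, W, k, i, j⟩ := fx a g1 g2 (ne_scal (by omega) (by omega)) a1 a2
  exact k.not_fix g1 i j (by omega) g3 (ord_dvd_mv r0 b (resAut_one i g2)) (ord_dvd_mv r0 b (resAut_one j g2))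
end Form
end H5
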