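import Cfsg.Agent.H5.Pu
/-! Tools for elements of prime order of `PSp` and normalizers of extension fields. -/
set_option autoImplicit false
namespace H5
open Module Pointwise Matrix Form Polynomial

universe u
variable {F : Type u} [Field F] {V : Type u} [AddCommGroup V] [Module F V] [FiniteDimensional F V] {r m k : ℕ} {z b c : Fˣ} {g s : V ≃ₗ[F] V} {H : Subgroup (V ≃ₗ[F] V)}

theorem exists_nrm' {ι : Type} [Fintype ι] [DecidableEq ι] [Nonempty ι] {K : Subalgebra F (Matrix ι ι F)} (hK : Cfsg.Geo.IsFieldSubalgebra k K) : ∃ (L : Type u) (_ : Field L) (_ : Algebra F L)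
    (_ : Module L (ι → F)) (_ : IsScalarTower F L (ι → F)), finrank F L = k ∧ Nrm L ((Cfsg.Geo.subalgebraNormalizer K).comap (glEquiv (ι := ι) (F := F)).symm.toMonoidHom) ∧
      ∀ P : ((ι → F) → ι → F) → Prop, (∀ a : L, P (a • ·)) ↔ ∀ a ∈ K, P (a *ᵥ ·) := by
  letI := (As.fld hK).isField.toField
  refine ⟨K, _, inferInstance, inferInstance, inferInstance, hK.3, glEquiv.surjective.forall.2 fun g => ?_, fun P => Subtype.forall⟩
  rw [Subgroup.mem_comap, MulEquiv.coe_toMonoidHom, MulEquiv.symm_apply_apply]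
  refine ⟨fun h => ⟨fun k => ⟨_, (h k).1 k.2⟩, fun k => ⟨⟨(g⁻¹).1 * k * g.1, (h _).2 (by simp [mul_assoc])⟩, Subtype.ext (by simp [mul_assoc])⟩, fun k v => ?_⟩,
    fun ⟨σ, s, h⟩ k => ?_⟩
  · change g.1 *ᵥ k.1 *ᵥ v = (g.1 * k.1 * (g⁻¹).1) *ᵥ g.1 *ᵥ v
    simp [mul_assoc]
  have e : ∀ k : K, g.1 * k * (g⁻¹).1 = σ k := fun k => matrix_ext_mulVec fun v => by
    have : g.1 *ᵥ k.1 *ᵥ (g⁻¹).1 *ᵥ v = (σ k).1 *ᵥ g.1 *ᵥ (g⁻¹).1 *ᵥ v := h k _
    simpa [mul_assoc] using this
  refine ⟨fun h => e ⟨k, h⟩ ▸ (σ _).2, fun h => ?_⟩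
  obtain ⟨l, hl⟩ := s ⟨_, h⟩
  rw [show k = l from (As.ad g).injective ((congrArg Subtype.val hl).symm.trans (e l).symm)]; exact l.2

theorem prod_split (f : ℕ → ℕ) (k0 : 0 < k) (m : ℕ) : ∏ i ∈ Finset.range (k * m), f (i + 1) = (∏ i ∈ (Finset.range (k * m)).filter fun i => ¬ k ∣ i + 1, f (i + 1)) * ∏ i ∈ Finset.range m, f (k * (i + 1)) := by
  rw [← Finset.prod_filter_mul_prod_filter_not _ fun i => k ∣ i + 1, mul_comm]; congr 1
  refine (Finset.prod_bij (fun i _ => k * (i + 1) - 1) (fun i hi => ?_) (fun i _ j _ e => ?_) (fun j hj => ?_) fun i _ => ?_).symm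
  · have := Nat.mul_le_mul_left k (Finset.mem_range.1 hi)
    have := Nat.mul_pos k0 i.succ_pos
    simp only [Finset.mem_filter, Finset.mem_range]
    exact ⟨by rw [Nat.succ_eq_add_one] at *; omega, i + 1, by rw [Nat.succ_eq_add_one] at *; omega⟩
  · have := Nat.mul_pos k0 i.succ_pos
    have := Nat.mul_pos k0 j.succ_pos
    exact Nat.succ_injective (Nat.eq_of_mul_eq_mul_left k0 (by simp only [Nat.succ_eq_add_one] at *; omega))
  · obtain ⟨a, c, e⟩ := Finset.mem_filter.1 hj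
    rcases c with _ | c; · omega
    exact ⟨c, Finset.mem_range.2 (Nat.le_of_mul_le_mul_left (show k * (c + 1) ≤ k * m by simp at a; omega) k0), by omega⟩
  · rw [Nat.sub_add_cancel (Nat.mul_pos k0 i.succ_pos)]

section symp
variable [Fintype F] {Φ : Form (.symp F) V} (n : Φ.Nondeg)
include n
theorem symp_transv (p : ℕ) [hp : Fact p.Prime] [CharP F p] (h : 2 ≤ finrank F V) : ∃ g ∈ Φ.isom, g ^ p = 1 ∧ finrank F (mv g) = 1 := by
  obtain ⟨m, hm, -⟩ := n.symp_hasTS
  obtain ⟨U, _, _, _, Ψ, t, t1, t2, t3, t4⟩ := realU_of (κ := .symp F) (μ := 2 ::ₘ .replicate (finrank F V - 2) 1) (fun _ => rfl) (by simp) (P := Even)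
    (fun a h => let ⟨k, hk⟩ := h.two_dvd; hk ▸ realU_symp k) fun j hj => by
      rw [Multiset.count_cons_of_ne (by rintro rfl; exact hj even_two), Multiset.count_replicate]; split_ifs; exacts [⟨m - 1, by omega⟩, .zero]
  obtain ⟨_, i⟩ := symp_iso t1 n (by simp at t4; omega)
  obtain ⟨g, g1, j⟩ := i.exists_je t2 t3
  exact ⟨g, g1, j.pow_char p (by simp; omega) (by have := hp.out.two_le; simp +contextual [Multiset.mem_replicate]; omega), (j.finrank_range (by simp; omega)).trans (by simp)⟩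

theorem symp_two (h2 : (2 : F) ≠ 0) (hg : g ∈ Φ.isom) (hs : s ∈ Φ.isom) (h : s ∈ H) (e : g ^ 2 = 1 ∧ s ^ 2 = 1 ∧ finrank F (mv s) = finrank F (mv g) ∨ g ^ 2 = scal V (-1) ∧ s ^ 2 = scal V (-1)) :
    ∃ t ∈ Φ.isom, t⁻¹ * g * t ∈ H := by
  classical
  have k : ∀ {g : V ≃ₗ[F] V}, g ^ 2 = scal V (-1) → g ^ 4 = 1 := fun e => by rw [show 4 = 2 * 2 from rfl, pow_mul, e, ← map_pow]; simp
  have h4 : ((4 : ℕ) : F) ≠ 0 := by simpa [show (4 : F) = 2 * 2 by norm_num] using h2
  suffices ∃ e : V ≃ₗ[F] V, ∀ x, e (s x) = g (e x) by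
    obtain ⟨a, ha⟩ := this
    obtain ⟨t, t1, t2⟩ := eqv_symp n hs hg n a ha h4 (e.elim (fun e => by rw [show 4 = 2 * 2 from rfl, pow_mul, e.2.1, one_pow]) fun e => k e.2)
    exact ⟨t, t1, by rwa [mul_assoc, show g * t = t * s from LinearEquiv.ext fun x => (t2 x).symm, inv_mul_cancel_left]⟩
  obtain ⟨a, b, c⟩ | ⟨a, b⟩ := e
  · exact inv_intertw b a c
  have : ∀ {g : V ≃ₗ[F] V}, g ∈ Φ.isom → g ^ 2 = scal V (-1) → ∀ x, 2 * (ev (g : End F V)).count x = if x * x = -1 then finrank F V else 0 := fun {g} g1 g2 x => by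
    have m : ∀ y ∈ ev (g : End F V), y * y = -1 := fun y hy => by
      have := Multiset.mem_map_of_mem (· ^ 2) hy
      rw [← ev_pow, coe_pow_end, g2, ev_scal] at this
      simpa [sq] using Multiset.eq_of_mem_replicate this
    split_ifs with e; swap; · rw [Multiset.count_eq_zero.2 fun h => e (m x h)]
    have i := n.ev_sim (c := 1) (fun _ => rfl) (by simpa using g1.1) four_ne_zero (k g2)
    have := Multiset.count_map_eq_count' (fun y : AlgebraicClosure F => algebraMap F _ (1 : Fˣ).1 * y⁻¹) (ev (g : End F V)) (by simpa using inv_injective) x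
    rw [← i, Units.val_one, map_one, one_mul, ← eq_inv_of_mul_eq_one_left (show -x * x = 1 by simp [e])] at this
    rw [← card_ev (g : End F V), Multiset.card_eq_countP_add_countP (x = ·), two_mul]; congr 1
    refine this.symm.trans (Multiset.countP_congr rfl fun y hy => propext ⟨?_, fun k => ((mul_self_eq_mul_self_iff.1 (e.trans (m y hy).symm)).resolve_left k ▸ neg_neg y)⟩)
    rintro rfl k
    have : (2 : AlgebraicClosure F) ≠ 0 := by rw [← map_ofNat (algebraMap F _)]; simpa using h2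
    exact this (by linear_combination (-x) * k + 2 * e)
  exact exists_intertw h4 (by rw [coe_pow_end, k b]; rfl) (by rw [coe_pow_end, k a]; rfl) (Multiset.ext.2 fun x => Nat.eq_of_mul_eq_mul_left two_pos ((this hs b x).trans (this hg a x).symm))
end symp

variable {K : Type u} [Field K] [Algebra F K] [Module K V] [IsScalarTower F K V]
omit [FiniteDimensional F V] in
theorem exists_liftK [FiniteDimensional F K] (B : V →ₗ[F] V →ₗ[F] F) {τ : K →+* K} (ad : ∀ (a : K) u v, B u (a • v) = B (τ a • u) v) {l : K →ₗ[F] F} (hl : ∃ a, l a ≠ 0) :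
    (∀ x y : K, (∀ a, l (a * x) = l (a * y)) → x = y) ∧ ∃ β : V →ₗ[K] V →ₛₗ[τ] K, ∀ a u v, l (a * β u v) = B (a • u) v := by
  have i : ∀ x y : K, (∀ a, l (a * x) = l (a * y)) → x = y := fun x y h => by_contra fun k => by
    obtain ⟨a, ha⟩ := hl
    exact ha (by simpa [mul_sub, ← sub_eq_zero (a := l _), ← map_sub, ← mul_sub, sub_ne_zero.2 k] using h (a / (x - y)))
  have s : Function.Surjective ((LinearMap.mul F K).flip.compr₂ l) := (LinearMap.injective_iff_surjective_of_finrank_eq_finrank (Subspace.dual_finrank_eq).symm).1 fun x y h =>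
    i x y (LinearMap.congr_fun h)
  choose β hβ using fun u v => s (B.flip v ∘ₗ (LinearMap.toSpanSingleton K V u).restrictScalars F)
  replace hβ : ∀ a u v, l (a * β u v) = B (a • u) v := fun a u v => LinearMap.congr_fun (hβ u v) a
  exact ⟨i, LinearMap.mk₂'ₛₗ (.id K) τ β (fun x y v => i _ _ fun a => by simp [mul_add, hβ]) (fun c x v => i _ _ fun a => by simp [← mul_assoc, hβ, mul_smul])
    (fun v x y => i _ _ fun a => by simp [mul_add, hβ]) (fun c v x => i _ _ fun a => by rw [smul_eq_mul, ← mul_assoc, hβ, hβ, ad, smul_smul, mul_comm a]), hβ⟩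

omit [FiniteDimensional F V] in
theorem lift_isom {κ : Kind K} {Ψ : Form κ V} {B : V → V → F} {l : K →ₗ[F] F} (i : ∀ x y : K, (∀ a, l (a * x) = l (a * y)) → x = y) (h : ∀ a u v, l (a * Ψ.B u v) = B (a • u) v)
    (s : V ≃ₗ[K] V) : (∀ u v, Ψ.B (s u) (s v) = Ψ.B u v) ↔ ∀ u v, B (s u) (s v) = B u v :=
  ⟨fun k u v => by rw [← one_smul K (s u), ← h, k, h, one_smul], fun k u v => i _ _ fun a => by rw [h, h, ← map_smul, k]⟩

omit [FiniteDimensional F V] in
theorem resSc_inj : Function.Injective (resSc F : (V ≃ₗ[K] V) →* V ≃ₗ[F] V) := fun _ _ h => LinearEquiv.ext fun x => LinearEquiv.congr_fun h x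

variable (N : Nrm K H)
include N
theorem Nrm.small_lin (hg : g ∈ H) (l : 2 * finrank F (mv g) < finrank F V) : ∃ s : V ≃ₗ[K] V, g = resSc F s := by
  obtain ⟨σ, -, h⟩ := (N g).1 hg
  refine ⟨{ g with map_smul' := fun k v => ?_ }, rfl⟩
  by_cases k0 : k = 0
  · simp [k0]
  have := finrank_mv_add g
  have := Submodule.finrank_sup_add_finrank_inf_eq (fixSp g) ((fixSp g).map (resSc F (H5.scal V (Units.mk0 k k0)⁻¹) : V →ₗ[F] V))
  have := Submodule.finrank_le (fixSp g ⊔ (fixSp g).map (resSc F (H5.scal V (Units.mk0 k k0)⁻¹) : V →ₗ[F] V))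
  rw [LinearEquiv.finrank_map_eq] at *
  obtain ⟨_, ⟨a, w, b, rfl⟩, v0⟩ := Submodule.exists_mem_ne_zero_of_ne_bot (Submodule.one_le_finrank_iff.1
    (show 1 ≤ finrank F ↥(fixSp g ⊓ (fixSp g).map (resSc F (H5.scal V (Units.mk0 k k0)⁻¹) : V →ₗ[F] V)) by omega))
  have e := h k (k⁻¹ • w)
  rw [show g (k⁻¹ • w) = k⁻¹ • w by simpa [-map_inv] using mem_fixSp.1 a, smul_inv_smul₀ k0, mem_fixSp.1 b] at e
  refine (h k v).trans (congrArg (· • _) (smul_left_injective K (show k⁻¹ • w ≠ 0 by simpa [-map_inv] using v0) ?_))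
  simpa [k0] using e.symm

omit [FiniteDimensional F V] in
theorem Nrm.lin [Finite K] [Nontrivial V] (hg : g ∈ H) (e : g ^ r = 1) (cop : r.Coprime (finrank F K)) : ∃ s : V ≃ₗ[K] V, g = resSc F s := by
  obtain ⟨σ, -, h⟩ := (N g).1 hg
  obtain ⟨v, v0⟩ := exists_ne (0 : V)
  have i := smul_left_injective K (show g v ≠ 0 by simpa)
  let τ := Algebra.IsAlgebraic.algEquivEquivAlgHom F K |>.symm
    { toFun := σ, map_one' := i (by simp [← h]), map_mul' a b := i (by simp [← h, mul_smul]), map_zero' := i (by simp [← h]), map_add' a b := i (by simp [← h, add_smul])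
      commutes' a := i (by simp [← h]) }
  have t : ∀ n (k : K) v, (g ^ n) (k • v) = (τ ^ n) k • (g ^ n) v := fun n k v => by
    induction n with
    | zero => rfl
    | succ n ih => rw [pow_succ', pow_succ', LinearEquiv.mul_apply, ih, h]; rfl
  have : τ = 1 := by
    have := pow_gcd_eq_one.2 ⟨AlgEquiv.ext fun k => smul_left_injective K v0 (by simpa [e] using (t r k v).symm), IsGalois.card_aut_eq_finrank F K ▸ pow_card_eq_one' (x := τ)⟩
    rwa [cop.gcd_eq_one, pow_one] at this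
  exact ⟨{ g with map_smul' := fun k v => by simpa [this] using t 1 k v }, rfl⟩

omit [FiniteDimensional F V] in
theorem Nrm.semi [Fintype F] [Fintype K] (hK : Fintype.card K = Fintype.card F ^ 2) {ι : Type} (e : (ι → K) ≃ₗ[K] V) {a : K} (a0 : a ≠ 0) :
    ∃ s ∈ H, ∀ w, s (e w) = e fun i => a * conj hK (w i) := by
  haveI : FiniteDimensional F K := .of_finite
  let φ : K →ₗ[F] K := { toFun x := a * conj hK x, map_add' := by simp [mul_add], map_smul' c x := by simp [Algebra.smul_def, conj_algebraMap rfl hK, mul_left_comm] }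
  have k : ∀ w, autCongr (e.restrictScalars F) (.piCongrRight fun _ => .ofInjectiveEndo φ ((mul_right_injective₀ a0).comp (conj hK).injective)) (e w) = e fun i => a * conj hK (w i) :=
    fun w => by simp [autCongr_apply]; rfl
  exact ⟨_, (N _).2 ⟨conj hK, fun x => ⟨_, conj_conj hK x⟩, fun c => e.surjective.forall.2 fun w => by
    rw [← map_smul, k, k, ← map_smul]; congr 1; ext; simp [mul_left_comm]⟩, k⟩
end H5
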