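import Cfsg.Agent.H5.Se
/-! Elements of prime order of `PSp` and normalizers of extension fields. -/
set_option autoImplicit false
namespace H5
open Module Pointwise Matrix Form Polynomial

universe u
variable {F : Type u} [Field F] [Fintype F] {V : Type u} [AddCommGroup V] [Module F V] [FiniteDimensional F V] {r m k : ℕ} {H : Subgroup (V ≃ₗ[F] V)}
  {K : Type u} [Field K] [Algebra F K] [Module K V] [IsScalarTower F K V] {Φ : Form (.symp F) V} (n : Φ.Nondeg) (N : Nrm K H) (n4 : 4 ≤ finrank F V) [hr : Fact r.Prime]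
include n N n4
theorem sx_char [CharP F r] (k2 : 2 ≤ finrank F K) : ¬ ElG Φ.isom r fun x => ∃ t ∈ Φ.isom, t⁻¹ * x * t ∈ H := fun E => by
  obtain ⟨g, g1, g2, g3⟩ := symp_transv n r (by omega)
  obtain ⟨t, -, h⟩ := E g g1 ⟨1, by simpa⟩ (ne_scal (by omega) (by omega))
  have := N.small h (by rw [finrank_mv_conj]; omega)
  rw [finrank_mv_conj, g3, Nat.dvd_one] at this; omega

omit N in
theorem sx_odd (r2 : r ≠ 2) {c : ℕ} (B : Blk (.symp F) r c) (l : c ≤ finrank F V) (E : ElG Φ.isom r fun x => ∃ t ∈ Φ.isom, t⁻¹ * x * t ∈ H) : ∃ g ∈ H, g ∈ Φ.isom ∧ g ^ r = 1 ∧ finrank F (mv g) = c := by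
  haveI : Nontrivial V := nontrivial_of_finrank_pos (R := F) (by omega)
  obtain ⟨g, g1, g2, g3⟩ := B.exists_mv n (k := 1) (by omega)
  obtain ⟨t, t1, h⟩ := E g g1 ⟨1, by simpa⟩ (by
    rintro a rfl
    have := pow_gcd_eq_one.2 ⟨scal_injective (V := V) (by rw [map_pow, g2, map_one]), show a ^ 2 = 1 from Units.ext (by simpa [sq] using (scal_mem_iff n).1 g1)⟩
    rw [((Nat.coprime_primes hr.out Nat.prime_two).2 r2).gcd_eq_one, pow_one] at this
    rw [this, map_one, mv_one, finrank_bot] at g3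
    have := B.pos; omega)
  exact ⟨_, h, mul_mem (mul_mem (inv_mem t1) g1) t1, by simp [conj_pow', g2], by rw [finrank_mv_conj, g3, mul_one]⟩

omit N hr in
theorem sx_sq {g : V ≃ₗ[F] V} (hg : g ∈ Φ.isom) {z : Fˣ} (e : g ^ 2 = scal V z) : g ^ 2 = 1 ∨ g ^ 2 = scal V (-1) := by
  haveI : Nontrivial V := nontrivial_of_finrank_pos (R := F) (by omega)
  exact (mul_self_eq_one_iff.1 ((scal_mem_iff n).1 (e ▸ pow_mem hg 2))).imp (fun h => by rw [e, show z = 1 from Units.ext h, map_one]) fun h => by rw [e, show z = -1 from Units.ext h]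

theorem gu_iff (h2 : (2 : F) ≠ 0) (e : finrank F K = 2) (ad : ∀ a : K, ∃ b : K, ∀ u v, Φ.B (a • u) v = Φ.B u (b • v)) (ns : ¬ ∀ (a : K) u v, Φ.B (a • u) v = Φ.B u (a • v))
    (d : r ∣ H.relIndex Φ.isom) : ElG Φ.isom r (fun x => ∃ t ∈ Φ.isom, t⁻¹ * x * t ∈ H) ↔ r = 2 := by
  haveI : Nontrivial V := nontrivial_of_finrank_pos (R := F) (by omega)
  haveI : FiniteDimensional F K := finite_of_finrank_pos (by omega)
  haveI : Finite K := finite_of_fd (F := F)
  haveI := Fintype.ofFinite K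
  haveI : FiniteDimensional K V := .of_restrictScalars_finite F K V
  have hK : Fintype.card K = Fintype.card F ^ 2 := e ▸ Module.card_eq_pow_finrank
  obtain ⟨v, v0⟩ := exists_ne (0 : V)
  choose τ hτ using ad
  have u : ∀ {a b : K}, (∀ u, Φ.B u (a • v) = Φ.B u (b • v)) → a = b := fun h => smul_left_injective K v0 (n.ext h)
  let σ : K →+* K := { toFun := τ, map_one' := u fun x => by simp [← hτ], map_mul' a b := u fun x => by simp [← hτ, mul_smul, smul_comm a b], map_zero' := u fun x => by simp [← hτ]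
                       map_add' a b := u fun x => by simp [← hτ, add_smul] }
  have ad : ∀ (a : K) u v, Φ.B u (a • v) = Φ.B (τ a • u) v := fun a u v => by rw [Φ.B_symm, hτ, Φ.B_symm (τ a • u)]; simp
  obtain ⟨q, hq, h⟩ := exists_conj_eq (σ := σ) (fun a => u fun x => ((hτ ..).symm.trans (ad ..).symm)) fun h => ns fun a => by simpa only [show τ a = a from RingHom.congr_fun h a] using hτ a
  obtain rfl : q = Fintype.card F := Nat.pow_left_injective two_ne_zero (hq.symm.trans hK)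
  obtain rfl : τ = conj hK := congrArg DFunLike.coe h
  obtain ⟨θ, θ0, hθ⟩ := exists_conj_eq_neg hK
  have lc : ∀ x, trL rfl hK θ (conj hK x) = -trL rfl hK θ x := fun x => (algebraMap F K).injective (by simp [trL_eq, hθ, conj_conj])
  obtain ⟨i, β, hβ⟩ := exists_liftK Φ.B ad (trL_ne rfl θ0)
  replace hβ : ∀ a u v, trL rfl hK θ (a * β u v) = Φ.B (a • u) v := hβ
  let Ψ : Form (unitK hK) V := ofHerm (conj_conj hK) (conj_ne_id hK) β fun x y => i _ _ fun a => by
    rw [hβ, Φ.B_symm, ad, ← hβ, ← conj_conj hK a, ← map_mul, lc, conj_conj]; simp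
  have n' : Ψ.Nondeg := fun y hy => n y fun x => by rw [← one_smul K x, ← hβ, show β x y = 0 from hy x]; simp
  have li : ∀ s : V ≃ₗ[K] V, s ∈ Ψ.isom ↔ resSc F s ∈ Φ.isom := fun s => (mem_isom_unit _).trans ((lift_isom (Ψ := Ψ) (B := fun u v => Φ.B u v) i hβ s).trans (mem_isom_symp Φ (g := resSc F s)).symm)
  have dm := finrank_res (V := V) rfl hK
  obtain ⟨p, _, _, pp, -⟩ := FiniteField.card' F
  haveI := Fact.mk pp
  by_cases r2 : r = 2
  · subst r2
    refine iff_of_true (fun g g1 ⟨z, g2⟩ _ => ?_) rfl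
    rcases sx_sq n n4 g1 g2 with g2 | g2
    · obtain ⟨a, ha, -⟩ := (n.mv_nondeg g1 (n := 2) (by simpa) g2).symp_hasTS
      obtain ⟨W, w1, w2⟩ := n'.unit_nd (m := a) (by have := (mv g).finrank_le; omega)
      obtain ⟨s, s1, s2, s3⟩ := n'.exists_neg' (by rw [← map_ofNat (algebraMap F K)]; simpa using h2) w2
      exact symp_two n h2 g1 ((li s).1 s1) (N.res s) (.inl ⟨g2, by rw [← map_pow, s2, map_one], by rw [finrank_mv_res, e, s3, w1, ha]⟩)
    obtain ⟨j, hj⟩ := unit_iso (hermF_nondeg (finrank K V) hK) n' (by simp)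
    obtain ⟨a, ha⟩ := exists_norm_eq hK (μ := -1) (by simp)
    obtain ⟨s, s1, s2⟩ := N.semi hK j (a := a) (by rintro rfl; simp at ha)
    refine symp_two n h2 g1 ((mem_isom_symp _).2 (j.surjective.forall₂.2 fun x y => ?_)) s1 (.inr ⟨g2, LinearEquiv.ext (j.surjective.forall.2 fun x => ?_)⟩)
    · have b : ∀ u v, Φ.B u v = trL rfl hK θ (β u v) := fun u v => by rw [← one_mul (β u v), hβ, one_smul]
      rw [b, b, s2, s2, show β _ _ = _ from hj.1 _ _, show β (j x) _ = _ from hj.1 _ _, ← neg_neg (trL rfl hK θ ((hermF (finrank K V) hK).B x y)), ← lc, ← map_neg]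
      congr 1
      simp only [hermF_B', map_sum, map_mul, conj_conj, ← Finset.sum_neg_distrib]
      exact Finset.sum_congr rfl fun i _ => by linear_combination (conj hK (x i) * y i) * ha
    · simp only [sq, LinearEquiv.mul_apply, s2, map_mul, conj_conj, ← mul_assoc, ha, scal_apply, Units.val_neg, Units.val_one, neg_smul, one_smul, ← map_neg]
      congr 1; ext; simp
  refine iff_of_false (fun E => ?_) r2
  by_cases rp : r = p
  · subst rp; exact sx_char n N n4 e.ge E
  have r0 := cast_ne (F := F) p hr.out rp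
  have r0' : (r : K) ≠ 0 := by rw [← map_natCast (algebraMap F K)]; exact (_root_.map_ne_zero _).2 r0
  obtain ⟨u, hu⟩ := exists_qu (hF := hK) r0'
  have q2 := Fintype.one_lt_card (α := F)
  obtain ⟨j, j0, jn, hj⟩ : ∃ j, 0 < j ∧ j ≤ finrank K V ∧ (-Fintype.card F : ZMod r) ^ j = -1 := by
    replace d := mul_card_dvd (S := Ψ.isom.map (resSc F)) d (by rintro _ ⟨s, -, rfl⟩; exact N.res s) (by rintro _ ⟨s, h, rfl⟩; exact (li s).1 h)
    rw [Subgroup.card_map_of_injective resSc_inj, card_isom_unit n' rfl, card_isom_symp rfl n dm, guOrd, spOrd,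
      Finset.prod_congr rfl fun i _ => (show Fintype.card F ^ (2 * (i + 1)) - 1 = (if Even i then Fintype.card F ^ (i + 1) - 1 else Fintype.card F ^ (i + 1) + 1) * uf (Fintype.card F) i by
      rw [mul_comm 2, pow_mul, show _ - 1 = _ from Nat.sq_sub_sq _ 1, uf]; split_ifs <;> [exact mul_comm _ _; rfl]), Finset.prod_mul_distrib, ← mul_assoc, ← mul_assoc,
      Nat.mul_dvd_mul_iff_right (Finset.prod_pos fun i _ => by unfold uf; split_ifs; omega; exact Nat.sub_pos_of_lt (Nat.one_lt_pow (by omega) (by omega)))] at d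
    rcases hr.out.dvd_mul.1 ((dvd_mul_right ..).trans d) with d | d
    · exact absurd (hu ▸ (ZMod.natCast_eq_zero_iff _ _).2 (hr.out.dvd_of_dvd_pow d)) u.ne_zero
    obtain ⟨j, hj, d⟩ := (Prime.dvd_finsetProd_iff hr.out.prime _).1 d
    refine ⟨j + 1, by omega, by simp at hj; omega, ?_⟩
    rw [← ZMod.natCast_eq_zero_iff] at d
    split_ifs at d with e
    · rw [Nat.cast_sub (Nat.one_le_pow _ _ (by omega))] at d
      rw [e.add_one.neg_pow]; push_cast at d; linear_combination -d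
    · rw [(Nat.not_even_iff_odd.1 e).add_one.neg_pow]; push_cast at d; linear_combination d
  have i4 : orderOf (Fintype.card F : ZMod r) % 4 ≠ 2 := fun e => by
    have := congrArg Units.val (pow_half u (j := orderOf (Fintype.card F : ZMod r) / 2) (by rw [← orderOf_units, hu]; omega))
    have o : Odd (orderOf (Fintype.card F : ZMod r) / 2) := Nat.odd_iff.2 (by omega)
    have k := congrArg (· ^ (orderOf (Fintype.card F : ZMod r) / 2)) hj
    simp only [Units.val_pow_eq_pow_val, hu, Units.val_neg, Units.val_one] at this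
    simp only [pow_right_comm _ j, o.neg_pow, this, neg_neg, one_pow] at k
    exact one_ne_neg r2 k
  obtain ⟨B, -, -, -, -, b⟩ := blk_so (F := F) r2 p rp rfl rfl
  have B' := blk_unit (hF := hK) (c := if Even (orderOf (Fintype.card F : ZMod r)) then orderOf (Fintype.card F : ZMod r) else 2 * orderOf (Fintype.card F : ZMod r)) r2 r0' rfl (by simp only [Nat.even_iff]; split_ifs <;> omega)
  have := Nat.le_of_dvd (by omega) ((b j).1 ((dvd_pow_iff Fintype.card_pos _).2 (orderOf_dvd_of_pow_eq_one (by rw [pow_mul, ← neg_sq, pow_right_comm, hj]; simp))))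
  obtain ⟨g, g1, g2, g3, g4⟩ := sx_odd n n4 r2 B (by omega) E
  obtain ⟨s, rfl⟩ := N.lin g1 g3 (e ▸ (Nat.coprime_primes hr.out Nat.prime_two).2 r2)
  obtain ⟨k, hk, -⟩ := B'.dim n' ((li s).2 g2) (resSc_inj (F := F) (by rw [map_pow, g3, map_one]))
  rw [finrank_mv_res, e] at g4
  have := finrank_mv_add s
  have := B.pos
  rcases k with _ | k <;> [omega; nlinarith]

theorem spx_iff (hk : k.Prime) (e : finrank F K = k) (sa : ∀ (a : K) u v, Φ.B (a • u) v = Φ.B u (a • v)) (al : ∀ (a : K) v, Φ.B (a • v) v = 0)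
    (d : r ∣ H.relIndex Φ.isom) : ElG Φ.isom r (fun x => ∃ t ∈ Φ.isom, t⁻¹ * x * t ∈ H) ↔ r = 2 ∧ finrank F V = 4 ∧ k = 2 ∧ Odd (Fintype.card F) := by
  have k2 := hk.two_le
  haveI : Nontrivial V := nontrivial_of_finrank_pos (R := F) (by omega)
  haveI : FiniteDimensional F K := finite_of_finrank_pos (by omega)
  haveI : Finite K := finite_of_fd (F := F)
  haveI := Fintype.ofFinite K
  haveI : FiniteDimensional K V := .of_restrictScalars_finite F K V
  have hK : Fintype.card K = Fintype.card F ^ k := e ▸ Module.card_eq_pow_finrank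
  have L : ∀ l : K →ₗ[F] F, (∃ a, l a ≠ 0) → ∃ Ψ : Form (.symp K) V, Ψ.Nondeg ∧ (∀ u v, l (Ψ.B u v) = Φ.B u v) ∧ ∀ s : V ≃ₗ[K] V, s ∈ Ψ.isom ↔ resSc F s ∈ Φ.isom := fun l hl => by
    obtain ⟨i, β, hβ⟩ := exists_liftK (τ := .id K) Φ.B (fun a u v => (sa a u v).symm) hl
    replace hβ : ∀ a u v, l (a * β u v) = Φ.B (a • u) v := hβ
    let Ψ := ofAlt β fun x => i _ _ fun a => by simp [hβ, al]
    exact ⟨Ψ, fun y hy => n y fun x => by rw [← one_smul K x, ← hβ, show β x y = 0 from hy x]; simp, fun u v => by rw [← one_smul K u, ← hβ, one_mul, one_smul]; rfl,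
      fun s => (mem_isom_symp _).trans ((lift_isom (Ψ := Ψ) (B := fun u v => Φ.B u v) i hβ s).trans (mem_isom_symp Φ (g := resSc F s)).symm)⟩
  obtain ⟨l, hl, -⟩ := Submodule.exists_le_ker_of_notMem (p := (⊥ : Submodule F K)) (v := 1) (by simp)
  obtain ⟨Ψ, n', -, li⟩ := L l ⟨1, hl⟩
  obtain ⟨m, hm, -⟩ := n'.symp_hasTS
  have dm : finrank F V = 2 * (k * m) := by rw [← finrank_mul_finrank F K V, e, hm]; ring
  have m0 : 0 < m := Nat.pos_of_ne_zero (by rintro rfl; omega)
  have km := Nat.le_mul_of_pos_right k m0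
  have ev : ∀ {r : ℕ} (s : V ≃ₗ[K] V), (r : F) ≠ 0 → resSc F s ∈ Φ.isom → resSc F s ^ r = 1 → 2 * k ∣ finrank F (mv (resSc F s)) := fun {r} s r0 s1 s2 => by
    obtain ⟨a, ha, -⟩ := (n'.mv_nondeg ((li s).2 s1) (n := r) (by rw [← map_natCast (algebraMap F K)]; exact (_root_.map_ne_zero _).2 r0) (resSc_inj (F := F) (by rw [map_pow, s2, map_one]))).symp_hasTS
    exact ⟨a, by rw [finrank_mv_res, e, ha]; ring⟩
  obtain ⟨p, _, _, pp, -⟩ := FiniteField.card' F
  haveI := Fact.mk pp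
  by_cases rp : r = p
  · subst rp; exact iff_of_false (sx_char n N n4 (by omega)) fun ⟨e, _, _, o⟩ => two_ne_zero_of_odd o ((two_iff r).2 e)
  have r0 := cast_ne (F := F) p hr.out rp
  by_cases r2 : r = 2
  · subst r2
    have h2 : (2 : F) ≠ 0 := by simpa using r0
    by_cases n4' : finrank F V = 4; swap
    · refine iff_of_false (fun E => ?_) fun h => n4' h.2.1
      obtain ⟨W, w1, w2⟩ := n.exists_nd (a := 1) (by omega)
      obtain ⟨g, g1, g2, g3⟩ := n.exists_neg' h2 w1
      obtain ⟨t, t1, h⟩ := E g g1 ⟨1, by simpa⟩ (ne_scal (by omega) (by omega))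
      obtain ⟨s, hs⟩ := N.small_lin h (by rw [finrank_mv_conj]; omega)
      have := ev s r0 (hs ▸ mul_mem (mul_mem (inv_mem t1) g1) t1) (by simp [← hs, conj_pow', g2])
      rw [← hs, finrank_mv_conj] at this
      have := Nat.le_of_dvd (by omega) this
      omega
    obtain rfl : k = 2 := by omega
    obtain rfl : m = 1 := by omega
    refine iff_of_true (fun g g1 ⟨z, g2⟩ g3 => ?_) ⟨rfl, n4', rfl, odd_of_two_ne_zero h2⟩
    obtain ⟨Ψ, n', b, li⟩ := L (trL rfl hK 1) (trL_ne rfl one_ne_zero)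
    obtain ⟨j, hj⟩ := symp_iso (sympF_nondeg 1) n' (by simp [hm])
    rcases sx_sq n n4 g1 g2 with g2 | g2; swap
    · refine symp_two n h2 g1 ((li _).1 ((hj.mem_iff _).1 (spEquiv 1 ⟨_, SymplecticGroup.J_mem _ K⟩).2)) (N.res _) (.inr ⟨g2, LinearEquiv.ext fun x => ?_⟩)
      simp [sq, autCongr_apply, J_squared, neg_mulVec]
    obtain ⟨s, s1, s2⟩ := N.semi hK j one_ne_zero
    have s3 : s ∈ Φ.isom := (mem_isom_symp _).2 (j.surjective.forall₂.2 fun x y => (algebraMap F K).injective (by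
      rw [← b, ← b, s2, s2, hj.1, hj.1, trL_eq, trL_eq]
      simp [Cfsg.sympForm, J, fromBlocks_mulVec, dotProduct, neg_mulVec, conj_conj, add_comm]))
    have s4 : s ^ 2 = 1 := LinearEquiv.ext (j.surjective.forall.2 fun x => by simp [sq, s2, conj_conj])
    have rk : ∀ {g : V ≃ₗ[F] V}, g ∈ Φ.isom → g ^ 2 = 1 → g ≠ 1 → g ≠ scal V (-1) → finrank F (mv g) = 2 := fun {g} g1 g2 a b => by
      obtain ⟨c, hc, -⟩ := (n.mv_nondeg g1 (n := 2) (by simpa) g2).symp_hasTS
      have := Submodule.one_le_finrank_iff.2 (mt mv_eq_bot.1 a)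
      have := Submodule.finrank_lt (s := mv g) fun h => b (LinearEquiv.ext fun x => by
        obtain ⟨x, rfl⟩ := h.ge (Submodule.mem_top (x := x))
        simp [show g (g x) = x from LinearEquiv.congr_fun (sq g ▸ g2) x])
      omega
    obtain ⟨θ, θ0, hθ⟩ := exists_conj_eq_neg hK
    have h2' : (2 : K) ≠ 0 := by rw [← map_ofNat (algebraMap F K)]; simpa using h2
    refine symp_two n h2 g1 s3 s1 (.inl ⟨g2, s4, (rk s3 s4 (fun h => ?_) fun h => ?_).trans (rk g1 g2 (by simpa using g3 1) (g3 _)).symm⟩)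
    · have := congrFun (j.injective ((s2 fun _ => θ).symm.trans (LinearEquiv.congr_fun h _))) (.inl 0)
      rw [hθ] at this
      exact mul_ne_zero h2' θ0 (by linear_combination -this)
    · have := congrFun (j.injective ((s2 fun _ => 1).symm.trans ((LinearEquiv.congr_fun h _).trans (by simp : _ = j (-fun _ => 1))))) (.inl 0)
      simp only [map_one, Pi.neg_apply] at this
      exact h2' (by linear_combination this)
  refine iff_of_false (fun E => ?_) fun h => r2 h.1
  have q2 := Fintype.one_lt_card (α := F)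
  have i0 := ord_pos hr.out r0
  obtain ⟨j, jn, jk, hj⟩ : ∃ j, j < k * m ∧ ¬ k ∣ j + 1 ∧ r ∣ Fintype.card F ^ (2 * (j + 1)) - 1 := by
    replace d := mul_card_dvd (S := Ψ.isom.map (resSc F)) d (by rintro _ ⟨s, -, rfl⟩; exact N.res s) (by rintro _ ⟨s, h, rfl⟩; exact (li s).1 h)
    rw [Subgroup.card_map_of_injective resSc_inj, card_isom_symp hK n' hm, card_isom_symp rfl n dm, spOrd, spOrd,
      prod_split (fun j => Fintype.card F ^ (2 * j) - 1) hk.pos, Finset.prod_congr rfl fun i _ => (show (Fintype.card F ^ k) ^ (2 * (i + 1)) - 1 = Fintype.card F ^ (2 * (k * (i + 1))) - 1 by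
      rw [← pow_mul, mul_left_comm]), ← mul_assoc, ← mul_assoc, Nat.mul_dvd_mul_iff_right (Finset.prod_pos fun i _ => Nat.sub_pos_of_lt (Nat.one_lt_pow (by positivity) q2))] at d
    rcases hr.out.dvd_mul.1 ((dvd_mul_right ..).trans d) with d | d
    · exact absurd i0 (by simp [(ZMod.natCast_eq_zero_iff _ _).2 (hr.out.dvd_of_dvd_pow d)])
    obtain ⟨j, hj, d⟩ := (Prime.dvd_finsetProd_iff hr.out.prime _).1 d
    exact ⟨j, Finset.mem_range.1 (Finset.mem_filter.1 hj).1, (Finset.mem_filter.1 hj).2, d⟩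
  obtain ⟨B, -, c, hc, -, b⟩ := blk_so (F := F) r2 p rp rfl rfl
  have cr : 2 * c ∣ r - 1 := by
    rw [← hc]; split_ifs with h
    exacts [ord_dvd_pred r0, (Nat.coprime_two_left.2 (Nat.not_even_iff_odd.1 h)).mul_dvd_of_dvd_of_dvd (hr.out.even_sub_one r2).two_dvd (ord_dvd_pred r0)]
  rw [hc] at B b
  have cj := (Nat.mul_dvd_mul_iff_left two_pos).1 ((b _).1 hj)
  have := Nat.le_of_dvd (by omega) cj
  have := Nat.le_of_dvd (by have := hr.out.two_le; omega) cr
  obtain ⟨g, g1, g2, g3, g4⟩ := sx_odd n n4 r2 B (by omega) E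
  obtain ⟨s, rfl⟩ : ∃ s : V ≃ₗ[K] V, g = resSc F s := by
    by_cases rk : r = k
    exacts [N.small_lin g1 (by omega), N.lin g1 g3 (e ▸ (Nat.coprime_primes hr.out hk).2 rk)]
  exact jk (((Nat.mul_dvd_mul_iff_left two_pos).1 (g4 ▸ ev s r0 g2 g3)).trans cj)
end H5
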