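import Cfsg.Agent.H5.Mx5
import Cfsg.Agent.H5.SL2

/-!
Rational structures over a subfield `F₀`: the embedding `Sf.jj`, components `Sf.cmp`, rational spans `Sf.sp`,
torus elements from Dickson's theorem (`sl2_torus`, `lin_torus`), the lemma `Sf.no_torus`, uniform scalars, and
maximality of subfield subgroups of `SL(V)` (`Sf.full_of_not_rat`).
-/

set_option autoImplicit false

namespace H5

open Module

theorem sl2_torus {F : Type*} [Field F] [Fintype F] (Γ : Subgroup (SL2 F)) {a a' c : F} (ha : a ≠ 0) (ha' : a' ≠ 0) (n : a ≠ a')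
    (hc : c ≠ 0) (h1 : sl2 1 a 0 1 (by simp) ∈ Γ) (h2 : sl2 1 a' 0 1 (by simp) ∈ Γ) (h3 : sl2 1 0 c 1 (by simp) ∈ Γ) :
    ∃ l b d h, sl2 l b 0 d h ∈ Γ ∧ l ≠ 1 := by
  obtain ⟨p, _⟩ := CharP.exists F
  haveI : Fact p.Prime := ⟨CharP.char_is_prime F p⟩
  let C : PG F := aff (Units.mk0 a ha)⁻¹ (-(a⁻¹ * c⁻¹))
  let H := cj C (Γ.map mkS)
  have tr : ∀ b, sl2 1 b 0 1 (by simp) ∈ Γ → aff 1 (a⁻¹ * b) ∈ H := fun b hb => mem_cj.2 ⟨_, hb, by
    rw [mkS_sl2]; simp only [C, aff_inv, aff_mul]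
    refine Eq.trans (show _ = aff 1 b from rfl) (aff_inj.2 ⟨by simp, by simp; field_simp⟩)⟩
  have k1 : ∀ μ : Fˣ, μ ≠ 1 → aff μ 0 ∈ H → ∃ l b d h, sl2 l b 0 d h ∈ Γ ∧ l ≠ 1 := fun μ h0 h => by
    obtain ⟨g, hg, e⟩ := mem_cj.1 h
    obtain ⟨x, y, z, w, hd, rfl⟩ := exists_sl2 g
    simp only [C, aff_inv, aff_mul, mkS_sl2] at e
    obtain ⟨t, t0, e1, -, e2, e3⟩ := pg_eq_iff.1 e
    obtain rfl : z = 0 := (mul_eq_zero.1 e2.symm).resolve_left t0
    refine ⟨x, y, w, hd, hg, ?_⟩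
    rintro rfl
    refine h0 (Units.ext ?_)
    simp [ha] at e1 hd
    rw [e1, Units.val_one, e3, hd, mul_one]
  have k2 : (2 : F) ≠ 0 → ∀ g ∈ H, g ≠ 1 → g * g = 1 → ∃ l b d h, sl2 l b 0 d h ∈ Γ ∧ l ≠ 1 := fun h2 g hg g1 g2 => by
    obtain ⟨s, hs, e⟩ := mem_cj.1 hg
    have s1 : mkS s ≠ 1 := by rw [e]; simpa [mul_assoc, inv_mul_eq_one]
    have s2 : mkS (s * s) = 1 := by rw [map_mul, e]; simp [mul_assoc, ← mul_assoc g g, g2]
    have s3 : s * s = -1 := (mkS_eq_one_iff.1 s2).resolve_left fun k => s1 (mkS_eq_one_iff.2 (sl2_sq_eq_one h2 k))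
    refine ⟨-1, 0, -1, by simp, ?_, fun k => h2 (by linear_combination -k)⟩
    convert mul_mem hs hs
    rw [s3]; ext i j; fin_cases i <;> fin_cases j <;> simp
  rcases dickson_norm p H (by simpa [ha] using tr a h1) ⟨_, mem_cj.2 (show C⁻¹ * (C * mkS (sl2 1 0 c 1 (by simp)) * C⁻¹) * C ∈ _ from
      ⟨_, h3, by group⟩), by
      rw [mul_smul, mul_smul, aff_inv, aff_infty, mkS_sl2, pg_infty hc, aff_coe]; simp⟩ with
    ⟨rfl, m, T, D, h, hD⟩ | ⟨rfl, ⟨e⟩⟩ | ⟨k, hk, h⟩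
  · have nT : ∀ b : F, b ≠ 0 → aff 1 b ∉ T := fun b hb e => h.not_dvd 2 (orderOf_aff_one 2 hb ▸ h.orderOf_dvd e)
    have := (h.mul_mem_iff (hD (tr a h1)) (hD (tr a' h2))).2 (iff_of_false (nT _ (by simp [ha])) (nT _ (by simp [ha, ha'])))
    rw [aff_mul, mul_one] at this
    refine (nT _ (fun e => n ?_) this).elim
    have c2 : (2 : F) = 0 := CharTwo.two_eq_zero
    simp only [Units.val_one, one_mul, ← mul_add, mul_eq_zero, inv_eq_zero, ha, false_or] at e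
    linear_combination c2 * a - e
  · obtain ⟨g, hg⟩ := exists_prime_orderOf_dvd_card' (G := H) 2 (by
      rw [Nat.card_congr e.toEquiv, nat_card_alternatingGroup]; simp [Nat.factorial])
    refine k2 (fun e => by simpa using (CharP.cast_eq_zero_iff F 3 2).1 e) g g.2 (fun e => ?_) ?_
    · rw [show g = 1 from Subtype.ext e, orderOf_one] at hg; omega
    · have := pow_orderOf_eq_one g; rw [hg, sq] at this; exact congrArg Subtype.val this
  have hk' : subPSL k ≤ H := h.elim (fun e => e ▸ subPSL_le k) fun e => e.2.ge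
  by_cases c2 : (2 : F) = 0
  · obtain ⟨s, s0, s1⟩ : ∃ s : k, s ≠ 0 ∧ s ≠ 1 := by
      by_contra! e
      classical
      have := Nat.card_le_card_of_injective (fun s : k => decide (s = 0)) fun x y hxy => by
        by_cases hx : x = 0 <;> by_cases hy : y = 0
        exacts [hx.trans hy.symm, by simp_all, by simp_all, (e x hx).trans (e y hy).symm]
      rw [Nat.card_eq_fintype_card (α := Bool), Fintype.card_bool] at this; omega
    have s0' : (s : F) ≠ 0 := by simpa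
    refine k1 (Units.mk0 (s * s) (mul_ne_zero s0' s0')) (fun e => s1 (Subtype.ext (sub_eq_zero.1 (pow_eq_zero_iff two_ne_zero |>.1 ?_))))
      (hk' ?_)
    · have := congrArg Units.val e; simp only [Units.val_mk0, Units.val_one] at this
      simp only [OneMemClass.coe_one]; linear_combination this + (1 - s) * c2
    · convert pg_mem_subPSL s.2 k.zero_mem k.zero_mem (k.inv_mem s.2) (by simp [s0']) using 1
      exact pg_eq_iff.2 ⟨(s : F)⁻¹, by simpa, by simp [s0'], by simp, by simp, by simp⟩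
  · exact k2 c2 _ (hk' (pg_mem_subPSL k.zero_mem k.one_mem (k.neg_mem k.one_mem) k.zero_mem (by simp)))
      (by simp [pg_eq_one_iff]) (by simp [pg_mul, pg_eq_one_iff])

theorem lin_torus {F : Type*} [Field F] [Fintype F] {V : Type*} [AddCommGroup V] [Module F V] {K : Subgroup (V ≃ₗ[F] V)}
    {R : Submodule F V} {P : Type*} (x y : P → V) {a a' c : F} (ha : a ≠ 0) (ha' : a' ≠ 0) (n : a ≠ a') (hc : c ≠ 0)
    (h1 : ∃ g ∈ K, (∀ r ∈ R, g r = r) ∧ ∀ p, g (x p) - x p ∈ R ∧ g (y p) - (a • x p + y p) ∈ R)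
    (h2 : ∃ g ∈ K, (∀ r ∈ R, g r = r) ∧ ∀ p, g (x p) - x p ∈ R ∧ g (y p) - (a' • x p + y p) ∈ R)
    (h3 : ∃ g ∈ K, (∀ r ∈ R, g r = r) ∧ ∀ p, g (x p) - (x p + c • y p) ∈ R ∧ g (y p) - y p ∈ R) :
    ∃ g ∈ K, ∃ l : F, l ≠ 1 ∧ (∀ r ∈ R, g r = r) ∧ ∀ p, g (x p) - l • x p ∈ R := by
  let M : Submonoid (SL2 F) :=
    { carrier := {γ | ∃ g ∈ K, (∀ r ∈ R, g r = r) ∧ ∀ p, g (x p) - (γ 0 0 • x p + γ 1 0 • y p) ∈ R ∧
        g (y p) - (γ 0 1 • x p + γ 1 1 • y p) ∈ R}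
      one_mem' := ⟨1, one_mem _, by simp⟩
      mul_mem' := fun {γ δ} ⟨g, a, b, c⟩ ⟨g', a', b', c'⟩ => ⟨g * g', mul_mem a a', fun r hr => by simp [b' r hr, b r hr], fun p => by
        have k : ∀ (z) (s t : F), g' z - (s • x p + t • y p) ∈ R →
            g (g' z) - ((γ 0 0 * s + γ 0 1 * t) • x p + (γ 1 0 * s + γ 1 1 * t) • y p) ∈ R := fun z s t h => by
          have e := b _ h
          convert add_mem (add_mem h (R.smul_mem s (c p).1)) (R.smul_mem t (c p).2) using 1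
          simp only [map_sub, map_add, map_smul] at e
          linear_combination (norm := module) e
        simpa [Matrix.mul_apply, Fin.sum_univ_two] using And.intro (k _ _ _ (c' p).1) (k _ _ _ (c' p).2)⟩ }
  obtain ⟨l, b, d, h, ⟨g, h4, h5, h6⟩, h7⟩ := sl2_torus { M with
      inv_mem' := fun {γ} h => by
        rw [← pow_orderOf_eq_one γ |> fun e => inv_eq_of_mul_eq_one_right (show γ * γ ^ (orderOf γ - 1) = 1 by
          rw [← pow_succ', Nat.sub_add_cancel (orderOf_pos γ), e]) |>.symm]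
        exact pow_mem (show γ ∈ M from h) _ } ha ha' n hc (by simpa [M] using h1) (by simpa [M] using h2) (by simpa [M] using h3)
  exact ⟨g, h4, l, h7, h5, fun p => by simpa using (h6 p).1⟩

namespace Sf

variable {F : Type*} [Field F] {F₀ : Subfield F} {ι : Type} {V : Type*} [AddCommGroup V] [Module F V] (e : (ι → F) ≃ₗ[F] V)

variable (F₀) in
/-- rational vectors -/
def jj : (ι → F₀) →ₗ[F₀] V where
  toFun x := e fun i => x i
  map_add' x y := by rw [← map_add]; rfl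
  map_smul' c x := by rw [RingHom.id_apply, Subfield.smul_def, ← map_smul]; rfl

/-- component of a vector along an `F₀`-linear functional on `F` -/
def cmp (τ : Dual F₀ F) : V →ₗ[F₀] (ι → F₀) where
  toFun y i := τ (e.symm y i)
  map_add' x y := by ext; simp
  map_smul' c x := by ext; rw [Subfield.smul_def, map_smul, Pi.smul_apply, ← Subfield.smul_def, map_smul]; rfl

/-- `F`-span of a rational subspace -/
def sp (T : Submodule F₀ (ι → F₀)) : Submodule F V := Submodule.span F (jj F₀ e '' T)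

variable (F₀) in
/-- multiples of rational vectors -/
def FV (y : V) : Prop := ∃ (c : F) (x : ι → F₀), y = c • jj F₀ e x

variable (F₀) in
/-- rational subspaces -/
def RSub (A : Submodule F V) : Prop := ∀ y ∈ A, ∀ τ, jj F₀ e (cmp e τ y) ∈ A

variable {e} {τ : Dual F₀ F} {T : Submodule F₀ (ι → F₀)} {c : F} {x x' : ι → F₀} {y w : V} {A A' : Submodule F V}

theorem jj_smul (c : F₀) (x : ι → F₀) : jj F₀ e (c • x) = (c : F) • jj F₀ e x := map_smul _ _ _

theorem tau_coe (τ : Dual F₀ F) (a : F₀) : τ a = a * τ 1 := by rw [← smul_eq_mul, ← map_smul, Subfield.smul_def]; simp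

theorem cmp_smul_jj (τ : Dual F₀ F) (c : F) (x : ι → F₀) : cmp e τ (c • jj F₀ e x) = τ c • x := funext fun i => by
  simp only [cmp, jj, LinearMap.coe_mk, AddHom.coe_mk, map_smul, LinearEquiv.symm_apply_apply, Pi.smul_apply, smul_eq_mul]
  rw [mul_comm c, mul_comm (τ c), ← smul_eq_mul (x i), ← map_smul]; rfl

theorem cmp_jj (τ : Dual F₀ F) (x : ι → F₀) : cmp e τ (jj F₀ e x) = τ 1 • x := by rw [← cmp_smul_jj (e := e), one_smul]

theorem cmp_smul (τ : Dual F₀ F) (c : F) (y : V) : cmp e τ (c • y) = cmp e (τ ∘ₗ LinearMap.mulLeft F₀ c) y := by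
  ext; simp [cmp]

theorem jj_mem_sp (h : x ∈ T) : jj F₀ e x ∈ sp e T := Submodule.subset_span ⟨x, h, rfl⟩

theorem cmp_mem (h : y ∈ sp e T) (τ) : cmp e τ y ∈ T := by
  induction h using Submodule.span_induction generalizing τ with
  | mem _ h => obtain ⟨x, hx, rfl⟩ := h; exact cmp_jj (e := e) τ x ▸ T.smul_mem _ hx
  | zero => simp
  | add _ _ _ _ a b => exact map_add (cmp e τ) _ _ ▸ add_mem (a τ) (b τ)
  | smul c _ _ a => rw [cmp_smul]; exact a _

theorem sp_le : sp e T ≤ A ↔ ∀ x ∈ T, jj F₀ e x ∈ A := by simp [sp, Submodule.span_le, Set.subset_def]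

theorem RSub.sp : RSub F₀ e (sp e T) := fun _ h τ => jj_mem_sp (cmp_mem h τ)

variable [Finite F]

theorem exists_tau (h : c ∉ F₀) : ∃ τ : Dual F₀ F, τ 1 = 1 ∧ τ c = 0 := by
  obtain ⟨τ, a, b⟩ := exists_dual (W := F₀ ∙ c) (x := (1 : F)) (by
    rw [Submodule.mem_span_singleton]; rintro ⟨a, ha⟩
    exact h (eq_inv_of_mul_eq_one_right ha ▸ F₀.inv_mem a.2))
  exact ⟨τ, a, b c (Submodule.mem_span_singleton_self c)⟩

variable (F₀) in
theorem exists_tau0 : ∃ τ : Dual F₀ F, τ 1 = 1 := (exists_dual (W := ⊥) (by simp)).imp fun _ h => h.1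

variable (F₀) in
theorem exists_bas : ∃ (n : ℕ) (θ : Fin n → F) (τ : Fin n → Dual F₀ F), n = finrank F₀ F ∧ ∀ c, c = ∑ i, θ i * τ i c :=
  let b := finBasis F₀ F
  ⟨_, b, b.coord, rfl, fun c => (b.sum_repr _).symm.trans (Finset.sum_congr rfl fun _ _ => mul_comm _ _)⟩

omit [Finite F] in
theorem sum_cmp {n : ℕ} {θ : Fin n → F} {τ : Fin n → Dual F₀ F} (h : ∀ c, c = ∑ i, θ i * τ i c) (y : V) :
    y = ∑ i, θ i • jj F₀ e (cmp e (τ i) y) := e.symm.injective (funext fun k => by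
  simp only [map_sum, map_smul, jj, cmp, LinearMap.coe_mk, AddHom.coe_mk, LinearEquiv.symm_apply_apply, Finset.sum_apply,
    Pi.smul_apply, smul_eq_mul]
  exact h _)

theorem mem_of_cmp (h : ∀ τ : Dual F₀ F, jj F₀ e (cmp e τ y) ∈ A) : y ∈ A := by
  obtain ⟨n, θ, τ, -, h1⟩ := exists_bas F₀
  rw [sum_cmp (e := e) h1 y]; exact sum_mem fun i _ => A.smul_mem _ (h _)

theorem mem_sp (h : ∀ τ, cmp e τ y ∈ T) : y ∈ sp e T := mem_of_cmp fun τ => jj_mem_sp (h τ)

theorem jj_mem_iff : jj F₀ e x ∈ sp e T ↔ x ∈ T :=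
  ⟨fun h => let ⟨τ, a⟩ := exists_tau0 F₀; by simpa [cmp_jj, a] using cmp_mem h τ, jj_mem_sp⟩

theorem jj_eq_zero : jj F₀ e x = 0 ↔ x = 0 := by simpa [sp] using jj_mem_iff (e := e) (T := ⊥) (x := x)

theorem eq_top_of (h : ∀ x, jj F₀ e x ∈ A) : A = ⊤ := eq_top_iff.2 fun _ _ => mem_of_cmp fun _ => h _

theorem ext_jj {W : Type*} [AddCommGroup W] [Module F W] {f f' : V →ₗ[F] W} (h : ∀ x, f (jj F₀ e x) = f' (jj F₀ e x)) : f = f' :=
  LinearMap.eqLocus_eq_top.1 (eq_top_of (F₀ := F₀) (e := e) h)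

theorem RSub.fv (h : RSub F₀ e A) (h' : RSub F₀ e A') (a : w ∈ A) (a' : w ∈ A') (k : A ⊓ A' ≤ F ∙ w) : FV F₀ e w := by
  by_cases w0 : ∀ τ : Dual F₀ F, jj F₀ e (cmp e τ w) = 0
  · exact ⟨0, 0, by simpa using mem_of_cmp (A := ⊥) w0⟩
  obtain ⟨τ, n⟩ := not_forall.1 w0
  obtain ⟨c, hc⟩ := Submodule.mem_span_singleton.1 (k ⟨h w a τ, h' w a' τ⟩)
  exact ⟨c⁻¹, _, by rw [← hc, inv_smul_smul₀ (by rintro rfl; simp [← hc] at n)]⟩

theorem mem_of_not_rat (h : c • jj F₀ e x - jj F₀ e x' ∈ sp e T) (n : c ∉ F₀) : x' ∈ T := by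
  obtain ⟨τ, a, b⟩ := exists_tau n
  simpa [cmp_smul_jj, cmp_jj, a, b] using cmp_mem h τ

variable [Fintype ι]

theorem finrank_core (A : Submodule F V) : finrank F₀ ((A.restrictScalars F₀).comap (jj F₀ e)) ≤ finrank F A := by
  haveI := e.finiteDimensional
  let b := finBasis F₀ ((A.restrictScalars F₀).comap (jj F₀ e))
  have : LinearIndependent F fun i => (⟨jj F₀ e (b i), (b i).2⟩ : A) := Fintype.linearIndependent_iff.2 fun g hg i => by
    refine (Module.forall_dual_apply_eq_zero_iff F₀ _).1 fun τ => Fintype.linearIndependent_iff.1 b.linearIndependent (fun i => τ (g i)) ?_ i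
    ext1
    simpa [cmp_smul_jj] using congrArg (fun z : A => cmp e τ z) hg
  simpa using this.fintype_card_le_finrank

theorem no_torus {g : V ≃ₗ[F] V} {S : Submodule F₀ (ι → F₀)} (h5 : 5 ≤ finrank F₀ S) {s t} (hs : s ∈ S) (ht : t ∈ S)
    (h1 : ∀ x ∈ S, g (jj F₀ e x) - jj F₀ e x ∈ Submodule.span F {g (jj F₀ e s) - jj F₀ e s, g (jj F₀ e t) - jj F₀ e t})
    (h2 : ∀ x ∈ S, g (jj F₀ e x) = jj F₀ e x → x = 0) (h3 : ∀ x ∈ S, FV F₀ e (g (jj F₀ e x))) : False := by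
  obtain ⟨a, m, hm⟩ := h3 s hs
  obtain ⟨b, n, hn⟩ := h3 t ht
  let T := Submodule.span F₀ {x | x ∈ [s, m, t, n]}
  have k : ∀ x ∈ [s, m, t, n], jj F₀ e x ∈ sp e T := fun x hx => jj_mem_sp (Submodule.subset_span hx)
  have h4 : ∀ x ∈ S, x ∉ T → ∃ x', g (jj F₀ e x) = jj F₀ e x' := fun x hx n => by
    obtain ⟨c, x', h⟩ := h3 x hx
    refine ⟨(⟨c, by_contra fun k' => n (mem_of_not_rat (h ▸ Submodule.span_le.2 ?_ (h1 x hx)) k')⟩ : F₀) • x', by rw [h, jj_smul]⟩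
    rintro _ (rfl | rfl)
    exacts [hm ▸ sub_mem (Submodule.smul_mem _ _ (k _ (by simp))) (k _ (by simp)),
      hn ▸ sub_mem (Submodule.smul_mem _ _ (k _ (by simp))) (k _ (by simp))]
  obtain ⟨z, hz, nz⟩ := SetLike.not_le_iff_exists.1 (show ¬ S ≤ T from fun h => by
    have := (Submodule.finrank_mono h).trans (finrank_span_le _); simp at this; omega)
  have h6 : ∀ x ∈ S, ∃ x', g (jj F₀ e x) = jj F₀ e x' := fun x hx => (em (x ∈ T)).elim (fun h => by
    obtain ⟨a, ha⟩ := h4 _ (add_mem hx hz) (by rwa [T.add_mem_iff_right h])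
    obtain ⟨b, hb⟩ := h4 _ hz nz
    exact ⟨a - b, by rw [map_sub, ← ha, ← hb]; simp⟩) (h4 x hx)
  obtain ⟨τ, hτ⟩ := exists_tau0 F₀
  obtain ⟨m, hm⟩ := h6 s hs
  obtain ⟨n, hn⟩ := h6 t ht
  let f := (cmp e τ ∘ₗ ((g : V →ₗ[F] V) - LinearMap.id).restrictScalars F₀ ∘ₗ jj F₀ e) ∘ₗ S.subtype
  have := LinearMap.finrank_range_of_inj (f := f) ((injective_iff_map_eq_zero _).2 fun x hx => by
    obtain ⟨x', h⟩ := h6 _ x.2
    exact Subtype.ext (h2 _ x.2 (by rw [h, show x' = x by simpa [f, h, cmp_jj, hτ, sub_eq_zero] using hx])))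
  have h7 : LinearMap.range f ≤ Submodule.span F₀ {x | x ∈ [m - s, n - t]} := by
    rintro _ ⟨x, rfl⟩
    refine cmp_mem (Submodule.span_le.2 ?_ (h1 _ x.2)) τ
    rintro _ (rfl | rfl)
    exacts [by rw [hm, ← map_sub]; exact jj_mem_sp (Submodule.subset_span (by simp)),
      by rw [hn, ← map_sub]; exact jj_mem_sp (Submodule.subset_span (by simp))]
  have := (Submodule.finrank_mono h7).trans (finrank_span_le _)
  simp at this; omega

omit [Fintype ι] in
theorem sc_pair {g : V ≃ₗ[F] V} {u u' m} (h : g (jj F₀ e u) = c • jj F₀ e m) (h1 : FV F₀ e (g (jj F₀ e u')))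
    (h2 : FV F₀ e (g (jj F₀ e (u + u')))) (n : u ∉ F₀ ∙ u') : ∃ m', g (jj F₀ e u') = c • jj F₀ e m' := by
  obtain ⟨a, x, ha⟩ := h1
  obtain ⟨b, z, hb⟩ := h2
  rw [map_add, map_add, h, ha] at hb
  have u0 : ∀ s : F, jj F₀ e u ≠ s • jj F₀ e u' := fun s k => n ((jj_mem_iff (e := e)).1 (by
    rw [k]; exact Submodule.smul_mem _ _ (jj_mem_sp (Submodule.mem_span_singleton_self _))))
  have c0 : c ≠ 0 := fun k => u0 0 (g.injective (by rw [h, k, zero_smul, zero_smul, map_zero]))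
  by_cases k : a / c ∈ F₀
  · exact ⟨(⟨_, k⟩ : F₀) • x, by rw [ha, jj_smul, smul_smul, mul_div_cancel₀ _ c0]⟩
  by_cases x0 : x = 0
  · exact ⟨0, by simp [ha, x0]⟩
  have a0 : a ≠ 0 := by rintro rfl; simp at k
  have j : ∀ s : F, jj F₀ e m = s • jj F₀ e x → False := fun s k => u0 (c * s / a) (g.injective (by
    rw [map_smul, h, ha, k, smul_smul, smul_smul, div_mul_cancel₀ _ a0]))
  have zs : jj F₀ e z ∈ sp e (F₀ ∙ z) := jj_mem_sp (Submodule.mem_span_singleton_self _)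
  have h3 : (-(a / c)) • jj F₀ e x - jj F₀ e m ∈ sp e (F₀ ∙ z) := by
    rw [← Submodule.smul_mem_iff _ (neg_ne_zero.2 c0)]
    convert Submodule.smul_mem _ b zs using 1
    rw [← hb, smul_sub, smul_smul, neg_mul_neg, mul_div_cancel₀ _ c0, neg_smul, sub_neg_eq_add, add_comm]
  have h4 : (-(c / a)) • jj F₀ e m - jj F₀ e x ∈ sp e (F₀ ∙ z) := by
    rw [← Submodule.smul_mem_iff _ (neg_ne_zero.2 a0)]
    convert Submodule.smul_mem _ b zs using 1
    rw [← hb, smul_sub, smul_smul, neg_mul_neg, mul_div_cancel₀ _ a0, neg_smul, sub_neg_eq_add]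
  obtain ⟨s, hs⟩ := Submodule.mem_span_singleton.1 (mem_of_not_rat h3 (by rwa [neg_mem_iff]))
  obtain ⟨t, ht⟩ := Submodule.mem_span_singleton.1 (mem_of_not_rat h4 fun j => k (by
    rw [← inv_div]; exact F₀.inv_mem (neg_mem_iff.1 j)))
  have t0 : (t : F) ≠ 0 := fun j => x0 (by rw [← ht, show t = 0 from Subtype.ext j, zero_smul])
  exact (j (s / t) (by rw [← hs, ← ht, jj_smul, jj_smul, smul_smul, div_mul_cancel₀ _ t0])).elim

omit [Fintype ι] in
theorem level_cases [Fintype F] {r : ℕ} (hr : r.Prime) (hc : Fintype.card F = Nat.card F₀ ^ r) {P : F → Prop} (h0 : ∀ c : F₀, P c)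
    (add : ∀ a b, P a → P b → P (a + b)) (mul : ∀ a b, P a → P b → P (a * b)) : (∀ c, P c → c ∈ F₀) ∨ ∀ c, P c := by
  let M : Submonoid F := ⟨⟨{c | P c}, mul _ _⟩, h0 1⟩
  let L : Subfield F := { M with
    add_mem' := add _ _, zero_mem' := h0 0, neg_mem' := fun {a} h => show P (-a) by simpa using mul _ _ (h0 (-1)) h
    inv_mem' := fun a h => by
      by_cases a0 : a = 0
      · exact show P a⁻¹ by simpa [a0] using h0 0
      rw [inv_eq_of_mul_eq_one_right (show a * a ^ (Fintype.card F - 2) = 1 by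
        rw [← pow_succ', ← FiniteField.pow_card_sub_one_eq_one a a0]; congr 1; have := Fintype.one_lt_card (α := F); omega)]
      exact pow_mem (show a ∈ M from h) _ }
  exact (subfield_prime_deg hr hc (k1 := L) fun c h => h0 ⟨c, h⟩).imp (fun e c h => e.le h) fun e c => e.ge trivial

theorem scalar_of {g : V ≃ₗ[F] V} {P : (ι → F₀) → Prop} (h : ∀ x, P x → FV F₀ e (g (jj F₀ e x))) {u} (hu : P u) (u0 : u ≠ 0)
    (h1 : ∀ x, P x → ∃ t, P t ∧ P (u + t) ∧ P (t + x) ∧ t ∉ Submodule.span F₀ {y | y ∈ [u, x]}) :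
    ∃ c : F, c ≠ 0 ∧ ∀ x, P x → ∃ x', g (jj F₀ e x) = c • jj F₀ e x' := by
  obtain ⟨c, m, hm⟩ := h u hu
  refine ⟨c, fun k => u0 (jj_eq_zero.1 (g.injective (by rw [hm, k, zero_smul, map_zero]))), fun x hx => ?_⟩
  obtain ⟨t, a, b, b', n⟩ := h1 x hx
  rw [span_two] at n
  obtain ⟨m', hm'⟩ := sc_pair hm (h t a) (h _ b) fun k => n (Submodule.mem_sup_left (by
    obtain ⟨s, rfl⟩ := Submodule.mem_span_singleton.1 k
    exact Submodule.mem_span_singleton.2 ⟨s⁻¹, inv_smul_smul₀ (by rintro rfl; simp at u0) t⟩))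
  exact sc_pair hm' (h x hx) (h _ b') fun k => n (Submodule.mem_sup_right k)

section SL
variable [DecidableEq ι] {χ χ' : Dual F₀ (ι → F₀)} {ψ : Dual F V} {K : Subgroup (V ≃ₗ[F] V)} {v v' : ι → F₀}

variable (e) in
/-- extension of a rational functional -/
def xt (χ : Dual F₀ (ι → F₀)) : Dual F V := (∑ i, (χ (Pi.single i 1) : F) • LinearMap.proj i) ∘ₗ (e.symm : V →ₗ[F] (ι → F))

omit [Finite F] in
theorem tau_xt (τ : Dual F₀ F) (y : V) : τ (xt e χ y) = χ (cmp e τ y) := by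
  rw [LinearMap.pi_apply_eq_sum_univ χ]
  simp only [xt, cmp, LinearMap.comp_apply, LinearMap.sum_apply, map_sum, LinearMap.smul_apply, ← Subfield.smul_def, map_smul]
  exact Finset.sum_congr rfl fun i _ => by rw [smul_eq_mul, smul_eq_mul, mul_comm]; congr 2; ext; simp [Pi.single_apply, eq_comm]

omit [Finite F] in
@[simp] theorem xt_jj (x : ι → F₀) : xt e χ (jj F₀ e x) = χ x := by
  rw [LinearMap.pi_apply_eq_sum_univ χ]
  simp only [xt, jj, LinearMap.comp_apply, LinearMap.sum_apply, LinearMap.smul_apply, smul_eq_mul]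
  push_cast
  exact Finset.sum_congr rfl fun i _ => by rw [mul_comm]; congr 3 <;> [simp; (ext; simp [Pi.single_apply, eq_comm])]

omit [Finite F] in
theorem rat_of_xt (h : ∀ χ : Dual F₀ (ι → F₀), xt e χ y ∈ F₀) : ∃ x, y = jj F₀ e x :=
  ⟨fun i => ⟨e.symm y i, by simpa [xt, Pi.single_apply, apply_ite] using h (LinearMap.proj i)⟩, by simp [jj]⟩

omit [Finite F] [DecidableEq ι] in
theorem exists_ker (χ χ' : Dual F₀ (ι → F₀)) (m : List (ι → F₀)) (h : m.length + 2 < Fintype.card ι) :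
    ∃ x, χ x = 0 ∧ χ' x = 0 ∧ x ∉ Submodule.span F₀ {y | y ∈ m} := by
  have a := (χ.prod χ').finrank_range_add_finrank_ker
  have b := (χ.prod χ').range.finrank_le
  obtain ⟨x, h1, h2⟩ := SetLike.not_le_iff_exists.1 (show ¬ (χ.prod χ').ker ≤ Submodule.span F₀ {y | y ∈ m} from fun k => by
    have := (Submodule.finrank_mono k).trans (finrank_span_le m); simp at a b; omega)
  exact ⟨x, by simpa [and_assoc] using And.intro h1 h2⟩

variable (F₀ e K) in
/-- the level of `K` -/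
def LvS (c : F) : Prop := ∀ (v : ι → F₀) χ, χ v = 0 → TIn K (c • jj F₀ e v) (xt e χ)

variable (h6 : 6 ≤ Fintype.card ι) (hK : ∀ c : F₀, LvS F₀ e K c)
include h6 hK

omit [Finite F] in
theorem lvS_of (h : TIn K (c • jj F₀ e v) (xt e χ)) (v0 : v ≠ 0) (χ0 : χ ≠ 0) : LvS F₀ e K c := by
  have k : ∀ v χ, χ v = 0 → TIn K (jj F₀ e v) (xt e χ) := fun v χ h => by simpa using hK 1 v χ h
  have sV : ∀ {v v' χ}, TIn K (c • jj F₀ e v) (xt e χ) → v ∉ F₀ ∙ v' → χ v' = 0 → TIn K (c • jj F₀ e v') (xt e χ) :=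
    fun {v v' χ} h n a => by
      obtain ⟨χ', b, b'⟩ := exists_dual n
      simpa [b] using (k v' χ' (b' _ (Submodule.mem_span_singleton_self _))).comm h (by simp [a])
  have aV : ∀ {v v' χ}, TIn K (c • jj F₀ e v) (xt e χ) → v ≠ 0 → χ v' = 0 → TIn K (c • jj F₀ e v') (xt e χ) :=
    fun {v v' χ} h n a => by
      obtain ⟨z, b, -, b'⟩ := exists_ker χ χ [v, v'] (by simp; omega)
      rw [span_two] at b'
      refine sV (sV h (fun j => b' (Submodule.mem_sup_left ?_)) b) (fun j => b' (Submodule.mem_sup_right j)) a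
      obtain ⟨s, rfl⟩ := Submodule.mem_span_singleton.1 j
      exact Submodule.mem_span_singleton.2 ⟨s⁻¹, inv_smul_smul₀ (by rintro rfl; simp at n) z⟩
  have sF : ∀ {v v' χ χ'}, TIn K (c • jj F₀ e v) (xt e χ) → χ v' = 1 → χ' v' = 0 → χ' v = 0 → TIn K (c • jj F₀ e v) (xt e χ') :=
    fun {v v' χ χ'} h a b b' => by simpa [a] using h.comm (k v' χ' b) (by simp [b'])
  intro v2 χ2 h2
  obtain ⟨v1, a, a', n⟩ := exists_ker χ χ2 [] (by simp; omega)
  obtain ⟨x, hx⟩ := LinearMap.surjective_of_ne_zero χ0 1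
  obtain ⟨z, b, -, n'⟩ := exists_ker χ2 χ2 [v1, x] (by simp; omega)
  obtain ⟨χ3, d, d'⟩ := exists_dual n'
  exact aV (sF (sF (aV h v0 a) hx (d' _ (Submodule.subset_span (by simp))) (d' _ (Submodule.subset_span (by simp)))) d b a')
    (by simpa using n) h2

theorem fv_of_ker (hL : ∀ c, LvS F₀ e K c → c ∈ F₀) (h : TIn K w ψ) (ψ0 : ψ ≠ 0) (v0 : v ≠ 0) (hv : ψ (jj F₀ e v) = 0) :
    FV F₀ e w := by
  have k : ∀ v χ, χ v = 0 → TIn K (jj F₀ e v) (xt e χ) := fun v χ h => by simpa using hK 1 v χ h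
  have A : ∀ v ≠ 0, ψ (jj F₀ e v) = 0 → ∀ χ : Dual F₀ (ι → F₀), χ v = 0 → ∀ x, ψ (jj F₀ e x) * xt e χ w ∈ F₀ :=
    fun v v0 hv χ a x => by
      obtain ⟨z, -, -, n⟩ := exists_ker 0 0 [x, v] (by simp; omega)
      obtain ⟨χ', b, b'⟩ := exists_dual n
      have := ((k v χ a).comm h hv).comm (k x χ' (b' _ (Submodule.subset_span (by simp))))
        (by simp [b' v (Submodule.subset_span (by simp))])
      exact hL _ (lvS_of h6 hK (by rwa [smul_smul] at this) v0 (by rintro rfl; simp at b))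
  by_cases h1 : ∀ χ : Dual F₀ (ι → F₀), χ v = 0 → xt e χ w = 0
  · obtain ⟨c, hc⟩ := Submodule.mem_span_singleton.1 ((sp_le (T := F₀ ∙ v) (A := F ∙ jj F₀ e v)).2 (fun x hx => by
      obtain ⟨s, rfl⟩ := Submodule.mem_span_singleton.1 hx
      exact Submodule.mem_span_singleton.2 ⟨s, (jj_smul _ _).symm⟩) (mem_sp (y := w) fun τ => by_contra fun n => by
        obtain ⟨χ, a, b⟩ := exists_dual n
        simp [← tau_xt, h1 χ (b _ (Submodule.mem_span_singleton_self _))] at a))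
    exact ⟨c, v, hc.symm⟩
  push Not at h1
  obtain ⟨χ1, a, b⟩ := h1
  obtain ⟨τ, hτ⟩ := exists_tau0 F₀
  obtain ⟨x, hx⟩ : ∃ x, ψ (jj F₀ e x) ≠ 0 := by_contra fun n => ψ0 (ext_jj (F₀ := F₀) (e := e) (by simpa using n))
  obtain ⟨z, hz⟩ := rat_of_xt (F₀ := F₀) (e := e) (y := ψ (jj F₀ e x) • w) fun χ => by
    obtain ⟨v', d, d', n⟩ := exists_ker χ (τ ∘ₗ (xt e χ1 w • ψ).restrictScalars F₀ ∘ₗ jj F₀ e) [] (by simp; omega)
    have := tau_coe τ ⟨_, A v v0 hv χ1 a v'⟩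
    simp only [LinearMap.comp_apply, LinearMap.restrictScalars_apply, LinearMap.smul_apply, smul_eq_mul] at d'
    rw [mul_comm] at d'
    rw [d', hτ, mul_one] at this
    simpa using A v' (by simpa using n) (by simpa [b] using congrArg Subtype.val this.symm) χ d x
  exact ⟨_, z, by rw [← hz, inv_smul_smul₀ hx]⟩

theorem fv_of_tin (hL : ∀ c, LvS F₀ e K c → c ∈ F₀) (h : TIn K w ψ) (ψ0 : ψ ≠ 0) : FV F₀ e w := by
  have _ := Fintype.ofFinite F
  haveI := e.finiteDimensional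
  by_contra! n
  have inj : ∀ v, ψ (jj F₀ e v) = 0 → v = 0 := fun v hv => by_contra fun v0 => n (fv_of_ker h6 hK hL h ψ0 v0 hv)
  obtain ⟨χ, hχ⟩ : ∃ χ : Dual F₀ (ι → F₀), xt e χ w ≠ 0 := by
    by_contra! k
    obtain ⟨x, hx⟩ := rat_of_xt (y := w) fun χ => k χ ▸ F₀.zero_mem
    exact n ⟨1, x, by simpa⟩
  obtain ⟨s, hs, -, s0⟩ := exists_ker χ χ [] (by simp; omega)
  obtain ⟨t, ht, -, t0⟩ := exists_ker χ χ [s] (by simp; omega)
  replace s0 : ψ (jj F₀ e s) ≠ 0 := fun k => s0 (by simp [inj s k])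
  have U : ∀ s, χ s = 0 → ∃ g ∈ K, (∀ r ∈ (xt e χ).ker ⊓ ψ.ker, g r = r) ∧ ∀ p : χ.ker, g (jj F₀ e p) - jj F₀ e p ∈ (xt e χ).ker ⊓ ψ.ker ∧
      g (ψ (jj F₀ e p) • w) - ((xt e χ w * ψ (jj F₀ e s)) • jj F₀ e p + ψ (jj F₀ e p) • w) ∈ (xt e χ).ker ⊓ ψ.ker := fun s hs => by
    obtain ⟨-, g, a, b⟩ := hK 1 s χ hs
    exact ⟨g, a, fun r hr => by simp [b, show xt e χ r = 0 from hr.1], fun p => by simp [b, hs, show χ p = 0 from p.2, h.1]; ring⟩
  obtain ⟨g, hg, l, l1, fx, hl⟩ := lin_torus _ _ (mul_ne_zero hχ s0) (mul_ne_zero hχ fun k => t0 (by simp [inj t k]))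
    (fun k => t0 (Submodule.subset_span (by
      simpa [sub_eq_zero] using inj (t - s) (by rw [map_sub, map_sub, mul_left_cancel₀ hχ k, sub_self])))) one_ne_zero
    (U s hs) (U t ht) (let ⟨a, g, b, c⟩ := h; ⟨g, b, fun r hr => by simp [c, show ψ r = 0 from hr.2], fun p => by simp [c, a]⟩)
  have D : ∀ z, xt e χ z = 0 → g z - z = (ψ z / ψ (jj F₀ e s)) • (g (jj F₀ e s) - jj F₀ e s) := fun z hz => by
    have := fx (z - (ψ z / ψ (jj F₀ e s)) • jj F₀ e s) ⟨by simp [hz, hs], by simp [s0]⟩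
    rw [map_sub, map_smul] at this
    linear_combination (norm := module) this
  have st : g ∈ stabSub (xt e χ).ker := mem_stabSub'.2 fun z hz => by
    have := (hl ⟨s, hs⟩).1
    rw [eq_add_of_sub_eq (D z hz)]
    simpa [hs, show xt e χ z = 0 from hz] using Or.inr this
  have := χ.finrank_range_add_finrank_ker
  have := χ.range.finrank_le
  refine no_torus (e := e) (g := g) (S := χ.ker) (by simp_all; omega) hs hs (fun x hx => ?_) (fun x hx k => inj x ?_) fun x hx => ?_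
  · rw [D (jj F₀ e x) (by simpa using hx)]; exact Submodule.smul_mem _ _ (Submodule.subset_span (by simp))
  · have := (hl ⟨x, hx⟩).2
    rw [k] at this
    exact mul_left_cancel₀ (sub_ne_zero.2 l1.symm) (by simpa [sub_mul] using this)
  · refine fv_of_ker h6 hK hL ((by simpa using hK 1 x χ hx : TIn K (jj F₀ e x) _).conj hg (φ' := xt e χ ∘ₗ (g.symm : V →ₗ[F] V))
      (by simp)) (fun k => hχ (by simpa using LinearMap.congr_fun k (g w))) (v := s) (by rintro rfl; simp at s0) ?_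
    exact (st _).2 (by simpa using hs)

theorem full_or_rat [FiniteDimensional F V] [Fintype F] {r : ℕ} (hr : r.Prime) (hc : Fintype.card F = Nat.card F₀ ^ r) :
    fullSub K = ⊤ ∨ ∀ g ∈ K, ∃ c : F, c ≠ 0 ∧ ∀ x, ∃ x', g (jj F₀ e x) = c • jj F₀ e x' := by
  refine (level_cases hr hc hK (fun a b h h' v χ k => by rw [add_smul]; exact (h v χ k).add (h' v χ k)) fun a b h h' v χ k => ?_).symm.imp
    (fun h => eq_top_of (F₀ := F₀) (e := e) fun v => mem_full.2 fun φ hφ => ?_) fun h g hg => ?_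
  · obtain ⟨z, d, -, n⟩ := exists_ker χ χ [v] (by simp; omega)
    obtain ⟨χ', f, f'⟩ := exists_dual n
    simpa [f, smul_smul, mul_comm] using (h v χ' (f' _ (Submodule.subset_span (by simp)))).comm (h' z χ d) (by simp [k])
  · obtain ⟨n, θ, τ, -, h1⟩ := exists_bas F₀
    rw [show φ = ∑ i, θ i • xt e (τ i ∘ₗ φ.restrictScalars F₀ ∘ₗ jj F₀ e) from ext_jj (F₀ := F₀) (e := e) fun x => by simpa using h1 _]
    exact Finset.sum_induction _ _ (fun _ _ => TIn.add') (TIn.zero' _) fun i _ => (h _ v _ (by simp [hφ])).smul'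
  obtain ⟨u, -, -, u0⟩ := exists_ker (F₀ := F₀) (ι := ι) 0 0 [] (by simp; omega)
  simpa using scalar_of (g := g) (P := fun _ => True) (fun x _ => by
    obtain ⟨z, -, -, n⟩ := exists_ker 0 0 [x] (by simp; omega)
    obtain ⟨χ, f, f'⟩ := exists_dual n
    exact fv_of_tin h6 hK h ((by simpa using hK 1 x χ (f' _ (Submodule.subset_span (by simp))) : TIn K (jj F₀ e x) _).conj hg
      (φ' := xt e χ ∘ₗ (g.symm : V →ₗ[F] V)) (by simp)) fun k => by simpa [f] using LinearMap.congr_fun k (g (jj F₀ e z)))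
    trivial (by simpa using u0) fun x _ => by simpa using exists_ker (F₀ := F₀) 0 0 [u, x] (by simp; omega)

end SL

end Sf

namespace As
open Sf Cfsg.Geo Matrix
variable {ι : Type} [Fintype ι] [DecidableEq ι] {F : Type*} [Field F] {F₀ : Subfield F}

theorem mem_subfield_up {P g : GL ι F} : g ∈ subfieldSubgroup F₀ P ↔
    ∃ c : F, c ≠ 0 ∧ ∀ x, ∃ x', glEquiv g (jj F₀ (glEquiv P) x) = c • jj F₀ (glEquiv P) x' := by
  rw [mem_subfield]
  refine ⟨fun ⟨c, c0, h⟩ => ⟨c⁻¹, inv_ne_zero c0, fun x => ⟨fun i => ⟨_, h.mulVec (fun i => (x i).2) i⟩, ?_⟩⟩,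
    fun ⟨c, c0, h⟩ => ⟨c⁻¹, inv_ne_zero c0, fun i j => ?_⟩⟩
  · show _ = c⁻¹ • P.1 *ᵥ ((c • ad P⁻¹ g.1) *ᵥ fun i => (x i : F))
    simp [jj, ad_coe, smul_mulVec, mulVec_smul, c0, mulVec_mulVec, ← mul_assoc]
  · obtain ⟨x, hx⟩ := h (Pi.single j 1)
    have := congrArg (fun z => ((c⁻¹ • P⁻¹.1) *ᵥ z) i) hx
    simp [jj, smul_mulVec, mulVec_smul, mulVec_mulVec, c0, ← Pi.single_op (fun _ (a : F₀) => (a : F))] at this
    convert (x i).2 using 1
    rw [← this]; simp [ad_coe, mul_apply (N := P.1), mulVec, dotProduct]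

end As

end H5
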