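import Cfsg.Agent.H5.Sf1

/-!
Subfield subgroups of classical groups, I: the calculus `Form.EA` of Eichler transformations in a subgroup, rational
structures `Sf.RS`, the level `Sf.Lv`, rationality of elements fixing rational singular vectors (`RS.ng`, `RS.ng2`) and
`RS.EG_le` (full level).
-/

set_option autoImplicit false

namespace H5

open Module

namespace Form
variable {F : Type*} [Field F] {κ : Kind F} {V : Type*} [AddCommGroup V] [Module F V] {Φ : Form κ V}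
variable {K : Subgroup (V ≃ₗ[F] V)} {u v v' t : V} {a a' c : F} {g : V ≃ₗ[F] V}

variable (Φ) in
/-- the Eichler transformation `ρ_{u,v,a}` lies in `K` -/
def EA (K : Subgroup (V ≃ₗ[F] V)) (u v : V) (a : F) : Prop := ∃ hu hv ha, Φ.eich u v a hu hv ha ∈ K

namespace EA
theorem ex (h : Φ.EA K u v a) : ∃ g ∈ K, ∀ x, g x = x + Φ.B x u • v - (κ.ε * (Φ.B x v + a * Φ.B x u)) • u :=
  let ⟨hu, hv, ha, h⟩ := h; ⟨_, h, Φ.eich_apply hu hv ha⟩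
theorem Qu (h : Φ.EA K u v a) : Φ.Q u = 0 := h.1
theorem Bv (h : Φ.EA K u v a) : Φ.B v u = 0 := h.2.1
theorem pa (h : Φ.EA K u v a) : κ.π a = Φ.Q v := h.2.2.1
theorem congr (h : Φ.EA K u v a) {u'} (hu : Φ.Q u' = 0) (hv : Φ.B v' u' = 0) (ha : κ.π a' = Φ.Q v')
    (e : ∀ x, Φ.B x u • v - (κ.ε * (Φ.B x v + a * Φ.B x u)) • u = Φ.B x u' • v' - (κ.ε * (Φ.B x v' + a' * Φ.B x u')) • u') :
    Φ.EA K u' v' a' :=
  let ⟨_, _, _, h⟩ := h; ⟨hu, hv, ha, by convert h using 1; ext x; rw [eich_apply, eich_apply, add_sub_assoc, add_sub_assoc, e]⟩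
theorem conj (h : Φ.EA K u v a) (hK : K ≤ Φ.isom) (hg : g ∈ K) : Φ.EA K (g u) (g v) a :=
  let ⟨_, _, _, h⟩ := h; ⟨_, _, _, conj_eich (hK hg) .. ▸ mul_mem (mul_mem hg h) (inv_mem hg)⟩
theorem comm (h : Φ.EA K u v a) (hK : K ≤ Φ.isom) (hg : g ∈ K) (e : g u = u) : Φ.EA K u (g v - v) (-Φ.B v (g v - v)) :=
  let ⟨a, b, c, h⟩ := h
  ⟨_, _, _, (comm_eich (hK hg) e a b c).subst (motive := (· ∈ K)) (mul_mem (mul_mem (mul_mem hg h) (inv_mem hg)) (inv_mem h))⟩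
theorem mul (h : Φ.EA K u v a) (h' : Φ.EA K u v' a') : Φ.EA K u (v + v') (a + a' + Φ.B v' v) :=
  let ⟨_, _, _, h⟩ := h; let ⟨_, _, _, h'⟩ := h'; ⟨_, _, _, eich_mul (Φ := Φ) .. ▸ mul_mem h h'⟩
theorem swap (h : Φ.EA K u (c • t) 0) (ht : Φ.Q t = 0) (e : Φ.B u t = 0) : Φ.EA K t ((-(κ.ε * κ.σ c)) • u) 0 :=
  h.congr ht (by simp [e]) (by simp [Φ.Q_smul, h.Qu]) fun x => by
    simp only [B_smul_right, map_neg, map_mul, κ.σσ, κ.σε]; match_scalars <;> [(ring_nf; simp [κ.ε_sq]); ring]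
end EA

theorem Isot.hasTS [FiniteDimensional F V] {d : ℕ} (h : Φ.Isot d) (hΦ : Φ.Nondeg) {k : ℕ} (e : 2 * k + d ≤ finrank F V + 2) :
    Φ.HasTS k := by
  induction k with
  | zero => exact hasTS_zero
  | succ k ih =>
    obtain ⟨T, h1, h2⟩ := ih (by omega)
    obtain ⟨C, a, b⟩ := IsModularLattice.exists_disjoint_and_sup_eq h2.le_perp
    have := Submodule.finrank_sup_add_finrank_inf_eq T C
    rw [b, a.eq_bot, finrank_bot] at this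
    have := hΦ.finrank_perp T
    obtain ⟨x, hx, x0, qx⟩ := h C (by omega)
    exact ⟨_, by rw [Submodule.finrank_sup_span_singleton fun k => x0 (Submodule.disjoint_def.1 a x k hx), h1],
      h2.sup_singleton qx (b ▸ Submodule.mem_sup_right hx)⟩

theorem Isot.ex_one [FiniteDimensional F V] {d : ℕ} (h : Φ.Isot d) (hΦ : Φ.Nondeg) (l : List V)
    (e : 2 * l.length + 2 + d ≤ finrank F V) {y : V} (hy : y ∉ Submodule.span F {x | x ∈ l}) :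
    ∃ x, Φ.Q x = 0 ∧ (∀ t ∈ l, Φ.B t x = 0) ∧ Φ.B y x = 1 :=
  let ⟨x, a, b, c⟩ := h.exists_ne hΦ l e hy
  ⟨κ.σ (Φ.B y x)⁻¹ • x, Φ.Q_smul_zero a _, fun t ht => by simp [Φ.B_zero_symm (b t ht)], by simp [B_ne_symm c]⟩

end Form

theorem span_swap {F : Type*} [Field F] {V : Type*} [AddCommGroup V] [Module F V] {S : Submodule F V} {r z : V} (h1 : r ∉ S)
    (h2 : z ∉ S ⊔ F ∙ r) : r ∉ S ⊔ F ∙ z := fun h => by
  obtain ⟨s, hs, _, hz, rfl⟩ := Submodule.mem_sup.1 h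
  obtain ⟨c, rfl⟩ := Submodule.mem_span_singleton.1 hz
  have c0 : c ≠ 0 := by rintro rfl; simp [hs] at h1
  exact h2 (((S ⊔ F ∙ (s + c • z)).smul_mem_iff c0).1 (by
    simpa using sub_mem (Submodule.mem_sup_right (Submodule.mem_span_singleton_self (s + c • z))) (Submodule.mem_sup_left hs)))

namespace Sf

variable {F : Type*} [Field F] {F₀ : Subfield F} {ι : Type} [Fintype ι] {V : Type*} [AddCommGroup V] [Module F V]
variable {κ : Kind F} {κ₀ : Kind F₀} {Φ : Form κ V} {e : (ι → F) ≃ₗ[F] V} {ζ : F} {Ψ : Form κ₀ (ι → F₀)}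

local notation "J" => jj F₀ e

/-- `Ψ` is an `F₀`-form of `ζ Φ`. -/
structure RS (Φ : Form κ V) (e : (ι → F) ≃ₗ[F] V) (ζ : F) (Ψ : Form κ₀ (ι → F₀)) : Prop where
  B : ∀ x y, (Ψ.B x y : F) = ζ * Φ.B (jj F₀ e x) (jj F₀ e y)
  Q : ∀ x, Ψ.Q x = 0 → Φ.Q (jj F₀ e x) = 0
  z : ζ ≠ 0
  nd : Φ.Nondeg
  iso : Ψ.Isot 3
  dim : 13 ≤ Fintype.card ι

variable (Φ e ζ Ψ) in
/-- the level of `K` -/
def Lv (K : Subgroup (V ≃ₗ[F] V)) (c : F) : Prop :=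
  ∀ u t, Ψ.Q u = 0 → Ψ.Q t = 0 → Ψ.B t u = 0 → Φ.EA K (J u) ((ζ * c) • J t) 0

namespace RS
variable [Finite F] (h : RS Φ e ζ Ψ) {K : Subgroup (V ≃ₗ[F] V)} {u t r p s : ι → F₀} {y w w' : V} {a c : F} {g : V ≃ₗ[F] V}
  {T : Submodule F₀ (ι → F₀)} {A : Submodule F V}
include h

omit [Finite F] in
theorem B0 : Φ.B (J u) (J t) = 0 ↔ Ψ.B u t = 0 := by rw [← Subtype.coe_inj, h.B]; simp [h.z]
omit [Finite F] in
theorem B1 (k : Ψ.B u t = 1) : Φ.B (J u) (J t) = ζ⁻¹ := eq_inv_of_mul_eq_one_right (by rw [← h.B, k]; rfl)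

theorem nd0 : Ψ.Nondeg := fun y hy => (jj_eq_zero (e := e)).1 (h.nd _ fun x => LinearMap.congr_fun
  (ext_jj (F₀ := F₀) (e := e) (f := Φ.B.flip (J y)) (f' := 0) fun x => h.B0.2 (hy x)) x)

theorem tau_B (τ : Dual F₀ F) (y : V) (p) : τ (ζ * Φ.B y (J p)) = Ψ.B (cmp e τ y) p := by
  obtain ⟨n, θ, τ', -, h1⟩ := exists_bas F₀
  rw [sum_cmp (e := e) h1 y]
  simp only [map_sum, cmp_smul_jj, map_smul, LinearMap.sum_apply, LinearMap.smul_apply, Finset.mul_sum, smul_eq_mul]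
  exact Finset.sum_congr rfl fun i _ => by rw [mul_left_comm, ← h.B, mul_comm, mul_comm (τ _), ← smul_eq_mul (Ψ.B _ _), ← map_smul]; rfl

theorem exn (l m : List (ι → F₀)) (k : l.length + m.length ≤ 10 := by simp) :
    ∃ x, Ψ.Q x = 0 ∧ (∀ t ∈ l, Ψ.B x t = 0) ∧ x ∉ Submodule.span F₀ {x | x ∈ m} :=
  h.iso.exists_not_mem h.nd0 l m (by have := h.dim; simp; omega)

theorem ex1 (l : List (ι → F₀)) (hy : r ∉ Submodule.span F₀ {x | x ∈ l}) (k : l.length ≤ 4 := by simp) :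
    ∃ x, Ψ.Q x = 0 ∧ (∀ t ∈ l, Ψ.B t x = 0) ∧ Ψ.B r x = 1 := h.iso.ex_one h.nd0 l (by have := h.dim; simp; omega) hy

theorem ind (l : List (ι → F₀)) {P : (ι → F₀) → Prop} (h1 : ∀ x, Ψ.Q x = 0 → (∀ t ∈ l, Ψ.B x t = 0) → P x)
    (h2 : ∀ x y, P x → P y → P (x + y)) (hx : ∀ t ∈ l, Ψ.B r t = 0) (k : l.length ≤ 4 := by simp) : P r :=
  h.iso.ind h.nd0 l (by have := h.dim; simp; omega) h1 h2 hx

theorem ind_jj (l : List (ι → F₀)) (h1 : ∀ x, Ψ.Q x = 0 → (∀ t ∈ l, Ψ.B x t = 0) → J x ∈ A) (hy : ∀ t ∈ l, Φ.B y (J t) = 0)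
    (k : l.length ≤ 4 := by simp) : y ∈ A :=
  mem_of_cmp (F₀ := F₀) (e := e) fun τ => h.ind l (P := fun x => J x ∈ A) h1 (fun x y a b => by rw [map_add]; exact add_mem a b)
    (fun t ht => by rw [← h.tau_B, hy t ht, mul_zero, map_zero]) k

theorem ex_ne (w0 : w ≠ 0) : ∃ t, Ψ.Q t = 0 ∧ Φ.B (J t) w ≠ 0 := by
  by_contra! n
  exact w0 (h.nd w fun x => h.ind_jj [] (A := (Φ.B.flip w).ker) (fun x a _ => n x a) (by simp))

omit [Finite F] in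
theorem B_sp (hs : s ∈ Ψ.perp T) (hw : w ∈ sp e T) : Φ.B (J s) w = 0 :=
  Φ.B_zero_symm ((sp_le (A := (Φ.B.flip (J s)).ker)).2 (fun x hx => h.B0.2 (Ψ.B_zero_symm (hs x hx))) hw)

theorem rat (l : List (ι → F₀)) (h1 : ∀ p, Ψ.Q p = 0 → (∀ t ∈ l, Ψ.B p t = 0) → ζ * Φ.B y (J p) ∈ F₀) (k : l.length ≤ 4 := by simp) :
    ∃ x, y - J x ∈ sp e (Submodule.span F₀ {x | x ∈ l}) := by
  obtain ⟨τ, hτ⟩ := exists_tau0 F₀
  refine ⟨cmp e τ y, mem_sp fun τ' => (h.nd0.perp_perp _).le fun p hp => ?_⟩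
  refine h.ind l (P := fun p => Ψ.B _ p = 0) (fun p q hp => ?_) (fun x y a b => by rw [map_add, a, b, add_zero]) (Ψ.mem_perp_span.1 hp) k
  have := tau_coe τ ⟨_, h1 p q hp⟩
  rw [← h.tau_B, map_sub, LinearMap.sub_apply, mul_sub, ← h.B, ← h.tau_B, this, hτ, mul_one, sub_self, map_zero]

variable (hK : K ≤ Φ.isom) (h0 : ∀ c : F₀, Lv Φ e ζ Ψ K c)
include hK

omit [Finite F] in
theorem step (hc : Lv Φ e ζ Ψ K c) (k : Φ.EA K (J u) y a) (qp : Ψ.Q p = 0) (qt : Ψ.Q t = 0) (e1 : Ψ.B t p = 0) (e2 : Ψ.B u p = 0)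
    (e3 : Ψ.B u t = 0) : ∃ a, Φ.EA K (J u) ((Φ.B y (J p) * (ζ * c)) • J t - (κ.ε * (κ.σ (ζ * c) * Φ.B y (J t))) • J p) a ∧
      (Φ.B y (J t) = 0 → a = 0) := by
  obtain ⟨g, hg, E⟩ := (hc p t qp qt e1).ex
  have := k.comm hK hg (by simp [E, h.B0.2 e2, h.B0.2 e3])
  refine ⟨_, by convert this using 1; simp only [E, Form.B_smul_right, zero_mul, add_zero, smul_smul]; abel, fun z => by simp [E, z]⟩

omit [Finite F] in
theorem step' (hc : Lv Φ e ζ Ψ K c) (k : Φ.EA K (J u) y a) (qp : Ψ.Q p = 0) (qt : Ψ.Q t = 0) (e1 : Ψ.B t p = 0) (e2 : Ψ.B u p = 0)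
    (e3 : Ψ.B u t = 0) (e4 : Φ.B y (J t) = 0) : Φ.EA K (J u) ((ζ * (Φ.B y (J p) * c)) • J t) 0 := by
  obtain ⟨a, h1, h2⟩ := h.step hK hc k qp qt e1 e2 e3
  simpa [h2 e4, e4, mul_left_comm] using h1

theorem lv_mul {a b : F} (ha : Lv Φ e ζ Ψ K a) (hb : Lv Φ e ζ Ψ K b) : Lv Φ e ζ Ψ K (a * b) := fun u r qu qr k => by
  obtain ⟨t, qt, b1, n⟩ := h.exn [u, r] [u, r]
  obtain ⟨s, qs, b2, b3⟩ := h.ex1 _ n
  simp only [List.forall_mem_cons] at b1 b2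
  convert h.step' hK hb (ha u t qu qt b1.1) qs qr b2.2.1 b2.1 (Ψ.B_zero_symm k) (by simp [h.B0.2 b1.2.1]) using 4
  rw [Form.B_smul_left, h.B1 b3, mul_right_comm, mul_inv_cancel₀ h.z, one_mul]

include h0

theorem lv_of (k : Φ.EA K (J u) ((ζ * c) • J r) 0) (qu : Ψ.Q u = 0) (u0 : u ≠ 0) (b : Ψ.B r u = 0) (n : r ∉ F₀ ∙ u) :
    Lv Φ e ζ Ψ K c := by
  have st : ∀ {c : F} {u r t}, Φ.EA K (J u) (c • J r) 0 → Ψ.Q t = 0 → Ψ.B t u = 0 → Ψ.B r t = 0 → r ∉ (F₀ ∙ u) ⊔ F₀ ∙ t →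
      Φ.EA K (J u) (c • J t) 0 := fun {c u r t} k qt b1 b2 n => by
    obtain ⟨s, qs, b3, b4⟩ := h.ex1 [u, t] (by rwa [span_two])
    simp only [List.forall_mem_cons] at b3
    simpa [h.B1 b4, h.z, mul_left_comm ζ] using h.step' hK (h0 1) k qs qt b3.2.1 b3.1 (Ψ.B_zero_symm b1) (by simp [h.B0.2 b2])
  have ext : ∀ {c : F} {u r t}, Φ.EA K (J u) (c • J r) 0 → r ∉ F₀ ∙ u → Ψ.Q t = 0 → Ψ.B t u = 0 → Φ.EA K (J u) (c • J t) 0 :=
    fun {c u r t} k n qt b => by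
      obtain ⟨z, qz, b1, n'⟩ := h.exn [u, r, t] [u, r, t]
      simp only [List.forall_mem_cons] at b1
      have m : ∀ x ∈ [r, t], z ∉ (F₀ ∙ u) ⊔ F₀ ∙ x := fun x hx k => n' ((sup_le (Submodule.span_mono (by simp))
        (Submodule.span_mono (by simpa using Or.inr (List.mem_pair.1 hx))) : (F₀ ∙ u) ⊔ F₀ ∙ x ≤ _) k)
      exact st (st k qz b1.1 (Ψ.B_zero_symm b1.2.1) (span_swap n (m r (by simp)))) qt b b1.2.2.1 (m t (by simp))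
  intro u' t' q1 q2 b'
  obtain ⟨t, qt, b1, n'⟩ := h.exn [u, u'] [u, u']
  simp only [List.forall_mem_cons, span_two] at b1 n'
  have := (ext ((ext k n qt b1.1).swap (h.Q _ qt) (h.B0.2 (Ψ.B_zero_symm b1.1)))
    (by simpa using span_swap (S := ⊥) (by simpa) (by simpa using fun k => n' (Submodule.mem_sup_left k))) q1
      (Ψ.B_zero_symm b1.2.1)).swap (h.Q _ q1) (h.B0.2 b1.2.1)
  exact ext (by simpa using this) (fun k => n' (Submodule.mem_sup_right k)) q2 b'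

theorem lv_B (k : Φ.EA K (J u) y a) (qu : Ψ.Q u = 0) (u0 : u ≠ 0) (qp : Ψ.Q p = 0) (b : Ψ.B p u = 0) :
    Lv Φ e ζ Ψ K (Φ.B y (J p)) := by
  obtain ⟨r', q1, b1, n1⟩ := h.exn [u, p] [u]
  obtain ⟨r, q2, b2, n2⟩ := h.exn [u, p, r'] [u, p, r']
  obtain ⟨p', q3, b3, b4⟩ := h.ex1 _ n2
  simp only [List.forall_mem_cons] at b1 b2 b3
  obtain ⟨a, k', -⟩ := h.step hK (h0 1) k qp q2 b2.2.1 (Ψ.B_zero_symm b) (Ψ.B_zero_symm b2.1)
  refine h.lv_of hK h0 ?_ qu u0 b1.1 (by simpa using n1)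
  simpa [h.B1 b4, h.B0.2 b3.2.1, h.z, mul_assoc] using h.step' hK (h0 1) k' q3 q1 b3.2.2.1 b3.1 (Ψ.B_zero_symm b1.1)
    (by simp [h.B0.2 b2.2.2.1, h.B0.2 (Ψ.B_zero_symm b1.2.1)])

section
variable (hL : ∀ c, Lv Φ e ζ Ψ K c → c ∈ F₀)
include hL

theorem ng (hg : g ∈ K) (qs : Ψ.Q s = 0) (s0 : s ≠ 0) (fx : g (J s) = J s) (qt : Ψ.Q t = 0) (b : Ψ.B t s = 0) :
    ∃ x, g (J t) - J x ∈ sp e (F₀ ∙ s) := by
  simpa using h.rat (y := g (J t)) [s] fun p qp bp => by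
    have := (h0 1 s t qs qt b).conj hK hg
    rw [fx] at this
    have := hL _ (h.lv_B hK h0 this qs s0 qp (bp s (by simp)))
    simpa using this

theorem ng2 (hT : finrank F₀ T ≤ 4) (hg : g ∈ K) (fx : ∀ s ∈ Ψ.perp T, g (J s) = J s) (qt : Ψ.Q t = 0) : ∃ x, g (J t) = J x := by
  simpa [sp, sub_eq_zero] using h.rat (y := g (J t)) [] fun p qp _ => by
    have := h.nd0.finrank_perp (T ⊔ Submodule.span F₀ {x | x ∈ [t, p]})
    have := Submodule.finrank_add_le_finrank_add_finrank T (Submodule.span F₀ {x | x ∈ [t, p]})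
    have := finrank_span_le (F := F₀) [t, p]
    have := h.dim
    obtain ⟨s, hs, s0, qs⟩ := h.iso (Ψ.perp (T ⊔ Submodule.span F₀ {x | x ∈ [t, p]})) (by simp at *; omega)
    have b := fun x (hx : x ∈ [t, p]) => Ψ.B_zero_symm (hs x (Submodule.mem_sup_right (Submodule.subset_span hx)))
    have := (h0 1 s t qs qt (b t (by simp))).conj hK hg
    rw [fx s fun x hx => hs x (Submodule.mem_sup_left hx)] at this
    have := hL _ (h.lv_B hK h0 this qs s0 qp (b p (by simp)))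
    simpa using this

end

omit h0 in
theorem EG_le (hL : ∀ c, Lv Φ e ζ Ψ K c) (hc : (∀ a, κ.π a = 0 → ∃ c, a = κ.σ c - κ.ε * c) ∨
    ∃ a₀, (∀ u, Ψ.Q u = 0 → Φ.EA K (J u) 0 a₀) ∧ ∀ a, κ.π a = 0 → ∃ μ, a = μ * κ.σ μ * a₀) : Φ.EG ≤ K := by
  haveI := e.finiteDimensional
  have L : ∀ c : F, ∀ u t, Ψ.Q u = 0 → Ψ.Q t = 0 → Ψ.B t u = 0 → Φ.EA K (J u) (c • J t) 0 := fun c u t a b d => by
    simpa [h.z] using hL (ζ⁻¹ * c) u t a b d
  have Z : ∀ u ≠ 0, Ψ.Q u = 0 → Φ.EIn K (J u) 0 := fun u u0 qu a hu hv ha => by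
    suffices Φ.EA K (J u) 0 a from this.2.2.2
    rw [Φ.Q_zero] at ha
    rcases hc with hc | ⟨a₀, k, hc⟩
    · obtain ⟨c, rfl⟩ := hc a ha
      exact (L c u u qu qu (Ψ.B_self_of_Q qu)).congr hu hv (by simpa using ha) fun x => by
        simp only [Form.B_smul_right, map_zero]; match_scalars; ring_nf; simp [κ.ε_sq]
    obtain ⟨μ, rfl⟩ := hc a ha
    obtain ⟨t, qt, b, n⟩ := h.exn [u] [u]
    obtain ⟨s, qs, b1, b2⟩ := h.ex1 _ n
    replace b := b u (by simp)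
    obtain ⟨g, hg, E⟩ := (L (ζ * μ) s u qs qu (b1 u (by simp))).ex
    have k1 := (k t qt).conj hK hg
    have e1 : g (J t) = J t + μ • J u := by simp [E, h.B1 b2, h.B0.2 b, smul_smul, h.z]
    have e2 : κ.σ a₀ = -(κ.ε * a₀) := by
      have := Φ.B_self 0 a₀ (k t qt).pa; simp at this; linear_combination (-κ.ε) * this - κ.σ a₀ * κ.εε
    obtain ⟨g1, i1, E1⟩ := k1.ex
    obtain ⟨g2, i2, E2⟩ := (k t qt).ex
    obtain ⟨g3, i3, E3⟩ := (L (-(κ.ε * a₀ * μ)) t u qt qu (Ψ.B_zero_symm b)).ex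
    refine ⟨hu, hv, by simpa using ha, ?_⟩
    convert mul_mem (inv_mem (mul_mem i2 i3)) i1 using 1
    rw [eq_inv_mul_iff_mul_eq]; ext x
    simp only [LinearEquiv.mul_apply, E1, E2, E3, e1, Form.eich_apply, map_add, map_sub, map_smul, LinearMap.add_apply, map_zero,
      LinearMap.sub_apply, LinearMap.smul_apply, Form.B_smul_right, h.B0.2 b, h.B0.2 (Ψ.B_zero_symm b), Φ.B_self_of_Q hu,
      Φ.B_self_of_Q (h.Q _ qt), smul_zero, map_neg, map_mul, e2, κ.σε, LinearMap.zero_apply, smul_eq_mul]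
    have e3 : κ.ε ^ 3 = κ.ε := by rw [pow_succ, κ.ε_sq, one_mul]
    match_scalars <;> ring_nf <;> simp only [κ.ε_sq, e3] <;> ring
  have S : ∀ u ≠ 0, Ψ.Q u = 0 → Φ.SIn K ⊤ (J u) := fun u u0 qu => ⟨trivial, h.Q u qu, fun v _ a hu hv ha =>
    Form.EIn.span (S := {y | ∃ t, Ψ.Q t = 0 ∧ Ψ.B t u = 0 ∧ y = J t}) (Z u u0 qu) (by
      rintro _ ⟨t, a, b, rfl⟩
      exact ⟨h.B0.2 b, fun c => Form.EIn.of_one (Z u u0 qu) (L c u t qu a b).2.2.2⟩)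
      (h.ind_jj [u] (fun t a b => Submodule.subset_span ⟨t, a, b u (by simp), rfl⟩) (by simpa)) a hu hv ha⟩
  obtain ⟨u, qu, -, n⟩ := h.exn [] []
  obtain ⟨z, qz, -, b⟩ := h.ex1 _ n
  exact Form.Good.top h.nd hK ⟨_, _, S u (by simpa using n) qu, S z (by rintro rfl; simp at b) qz, by simp [h.B1 b, h.z]⟩

end RS

end Sf

end H5
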