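import Cfsg.Agent.H5.Sf2

/-!
Subfield subgroups of classical groups, II: images of rational singular vectors under an overgroup of trivial level
(transvection route `RS.fvT`, long root route `RS.planeO`), the dichotomy `RS.dich` and the bridge `As.CG.subfield`.
-/

set_option autoImplicit false

namespace H5

open Module

namespace Sf

variable {F : Type*} [Field F] {F₀ : Subfield F} {ι : Type} [Fintype ι] {V : Type*} [AddCommGroup V] [Module F V]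
variable {κ : Kind F} {κ₀ : Kind F₀} {Φ : Form κ V} {e : (ι → F) ≃ₗ[F] V} {ζ : F} {Ψ : Form κ₀ (ι → F₀)}

local notation "J" => jj F₀ e

omit [Fintype ι] in
theorem mem_sp_cons {x : ι → F₀} {l : List (ι → F₀)} {y : V} (h : y - J x ∈ sp e (Submodule.span F₀ {z | z ∈ l})) :
    y ∈ sp e (Submodule.span F₀ {z | z ∈ x :: l}) := by
  rw [← sub_add_cancel y (J x)]
  exact add_mem (Submodule.span_mono (Set.image_mono (Submodule.span_mono (fun _ => List.mem_cons_of_mem x))) h)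
    (jj_mem_sp (Submodule.subset_span List.mem_cons_self))

omit [Fintype ι] in
theorem exists_out {S : Submodule F₀ (ι → F₀)} (l : List (ι → F₀)) (h : l.length < finrank F₀ S) :
    ∃ x ∈ S, x ∉ Submodule.span F₀ {z | z ∈ l} := by
  by_contra! k
  have : FiniteDimensional F₀ (Submodule.span F₀ {z | z ∈ l}) := .span_of_finite _ l.finite_toSet
  exact ((Submodule.finrank_mono k).trans (finrank_span_le l)).not_gt h

omit [Fintype ι] in
theorem fv_planes [Finite F] {g : V ≃ₗ[F] V} {u t t' : ι → F₀} (n : t' ∉ Submodule.span F₀ {z | z ∈ [u, t]})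
    (h : RSub F₀ e (Submodule.span F {g (J u), g (J t)})) (h' : RSub F₀ e (Submodule.span F {g (J u), g (J t')})) :
    FV F₀ e (g (J u)) := by
  refine h.fv h' (Submodule.subset_span (by simp)) (Submodule.subset_span (by simp)) fun x ⟨a, b⟩ => ?_
  obtain ⟨c, d, rfl⟩ := Submodule.mem_span_pair.1 b
  obtain ⟨c', d', k⟩ := Submodule.mem_span_pair.1 a
  obtain rfl : d = 0 := by_contra fun d0 => n ((jj_mem_iff (e := e)).1 ((Submodule.smul_mem_iff _ d0).1 (by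
    rw [show d • J t' = (c' - c) • J u + d' • J t from g.injective (by
      simp only [map_add, map_smul]; linear_combination (norm := module) -k)]
    exact add_mem (Submodule.smul_mem _ _ (jj_mem_sp (Submodule.subset_span (by simp))))
      (Submodule.smul_mem _ _ (jj_mem_sp (Submodule.subset_span (by simp)))))))
  exact Submodule.mem_span_singleton.2 ⟨c, by simp⟩

namespace RS
variable [Finite F] (h : RS Φ e ζ Ψ) {K : Subgroup (V ≃ₗ[F] V)} {u t r p s : ι → F₀} {y w w' : V} {a c : F} {g : V ≃ₗ[F] V}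
  {T S : Submodule F₀ (ι → F₀)} {A : Submodule F V}
include h

theorem exS : ∃ S : Submodule F₀ (ι → F₀), finrank F₀ S = 5 ∧ Ψ.TS S := h.iso.hasTS h.nd0 (by have := h.dim; simp; omega)

theorem mem_of_map (l : List (ι → F₀)) (k : l.length ≤ 4) (n : w' ∉ Submodule.span F (J '' {x | x ∈ l}) ⊔ F ∙ w)
    (h1 : ∀ t, Ψ.Q t = 0 → (∀ s ∈ l, Ψ.B t s = 0) → Φ.B (J t) w • w' - (κ.ε * Φ.B (J t) w') • w ∈ A) : w ∈ A := by
  haveI := e.finiteDimensional
  obtain ⟨v, a, b⟩ := h.nd.exists_sep n 1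
  have := h.ind_jj l (y := v) (A := A.comap ((Φ.B.flip w).smulRight w' - (κ.ε • Φ.B.flip w').smulRight w)) h1
    (fun t ht => Φ.B_zero_symm (b _ (Submodule.mem_sup_left (Submodule.subset_span ⟨t, ht, rfl⟩)))) k
  simpa [Φ.B_zero_symm (b w (Submodule.mem_sup_right (Submodule.mem_span_singleton_self w))), Φ.B_symm w' v, a] using this

variable (hK : K ≤ Φ.isom) (h0 : ∀ c : F₀, Lv Φ e ζ Ψ K c) (hL : ∀ c, Lv Φ e ζ Ψ K c → c ∈ F₀)
include hK h0 hL

theorem fvT_ker (k : Φ.EA K w 0 a) (a0 : a ≠ 0) (qs : Ψ.Q s = 0) (s0 : s ≠ 0) (b : Φ.B (J s) w = 0) : FV F₀ e w := by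
  by_cases w0 : w = 0
  · exact ⟨0, 0, by simp [w0]⟩
  obtain ⟨g, hg, E⟩ := k.ex
  simp only [smul_zero, add_zero, map_zero, zero_add] at E
  obtain ⟨x, hx⟩ : ∃ x, w ∈ sp e (Submodule.span F₀ {z | z ∈ [x, s]}) := by
    by_cases k : ∀ t, Ψ.Q t = 0 → Ψ.B t s = 0 → Φ.B (J t) w = 0
    · exact (h.rat [s] fun p qp b => by simp [Φ.B_zero_symm (k p qp (b s (by simp)))]).imp fun _ => mem_sp_cons
    push Not at k
    obtain ⟨t, qt, b1, b2⟩ := k
    obtain ⟨x, hx⟩ := h.ng hK h0 hL hg qs s0 (by simp [E, b]) qt b1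
    refine ⟨t - x, (Submodule.smul_mem_iff _ (mul_ne_zero κ.ε_ne (mul_ne_zero a0 b2))).1 (mem_sp_cons ?_)⟩
    convert neg_mem hx using 1 <;> [simp; (simp only [E, map_sub]; abel)]
  obtain ⟨t, qt, b⟩ := h.ex_ne w0
  obtain ⟨z, hz⟩ := h.ng2 hK h0 hL ((finrank_span_le [x, s]).trans (by simp)) hg (fun s hs => by simp [E, h.B_sp hs hx]) qt
  exact ⟨(κ.ε * (a * Φ.B (J t) w))⁻¹, t - z, by
    rw [map_sub, ← hz, E, sub_sub_cancel, inv_smul_smul₀ (mul_ne_zero κ.ε_ne (mul_ne_zero a0 b))]⟩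

theorem fvT {a₀ : F} (a0 : a₀ ≠ 0) (hT : ∀ u, Ψ.Q u = 0 → Φ.EA K (J u) 0 a₀) (k : Φ.EA K w 0 a₀) : FV F₀ e w := by
  have _ := Fintype.ofFinite F
  by_contra n
  obtain ⟨S, h5, hS⟩ := h.exS
  have inj : ∀ s ∈ S, Φ.B (J s) w = 0 → s = 0 := fun s hs b => by_contra fun s0 => n (h.fvT_ker hK h0 hL k a0 (hS.1 s hs) s0 b)
  have o : ∀ s ∈ S, ∀ z ∈ sp e S, Φ.B z (J s) = 0 := fun s hs z hz => Φ.B_zero_symm (h.B_sp (hS.le_perp hs) hz)
  obtain ⟨s, hs, s0, t, ht, t0, st⟩ : ∃ s ∈ S, s ≠ 0 ∧ ∃ t ∈ S, t ≠ 0 ∧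
      Φ.B w (J s) * Φ.B (J s) w ≠ Φ.B w (J t) * Φ.B (J t) w := by
    by_contra! j
    obtain ⟨x, hx, n1⟩ := exists_out (S := S) [] (by simp [h5])
    obtain ⟨y, hy, n2⟩ := exists_out (S := S) [x] (by simp [h5])
    obtain ⟨z, hz, n3⟩ := exists_out (S := S) [x, y] (by simp [h5])
    replace n1 : x ≠ 0 := by simpa using n1
    have m : ∀ v ∈ Submodule.span F₀ {z | z ∈ [x, y]}, v + z ≠ 0 := fun v hv k => n3 (eq_neg_of_add_eq_zero_right k ▸ neg_mem hv)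
    have m1 : x ∈ Submodule.span F₀ {z | z ∈ [x, y]} := Submodule.subset_span (by simp)
    have m2 : y ∈ Submodule.span F₀ {z | z ∈ [x, y]} := Submodule.subset_span (by simp)
    have e1 := j x hx n1 y hy (by rintro rfl; simp at n2)
    have e2 := j x hx n1 z hz (by rintro rfl; simp at n3)
    have e3 := j x hx n1 _ (add_mem hx hy) fun k => n2 (eq_neg_of_add_eq_zero_right k ▸ neg_mem (Submodule.subset_span (by simp)))
    have e4 := j x hx n1 _ (add_mem hx hz) (m x m1)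
    have e5 := j x hx n1 _ (add_mem hy hz) (m y m2)
    have e6 := j x hx n1 _ (add_mem (add_mem hx hy) hz) (m _ (add_mem m1 m2))
    simp only [map_add, LinearMap.add_apply] at e3 e4 e5 e6
    have := mt (inj x hx) n1
    exact mul_ne_zero (Form.B_ne_symm this) this (by linear_combination e6 + e1 + e2 - e3 - e4 - e5)
  have nz : ∀ s ∈ S, s ≠ 0 → -(κ.ε * a₀) * (Φ.B w (J s) * Φ.B (J s) w) ≠ 0 := fun s hs s0 =>
    mul_ne_zero (by simp [κ.ε_ne, a0]) (mul_ne_zero (Form.B_ne_symm (mt (inj s hs) s0)) (mt (inj s hs) s0))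
  let R := sp e S ⊓ (Φ.B.flip w).ker
  have U : ∀ s ∈ S, ∃ g ∈ K, (∀ r ∈ R, g r = r) ∧ ∀ p : S, g (J p) - J p ∈ R ∧ g (Φ.B (J p) w • w) -
      ((-(κ.ε * a₀) * (Φ.B w (J s) * Φ.B (J s) w)) • J p + Φ.B (J p) w • w) ∈ R := fun s hs => by
    obtain ⟨g, a, E⟩ := (hT s (hS.1 s hs)).ex
    refine ⟨g, a, fun r hr => by simp [E, o s hs r hr.1], fun p => ⟨by simp [E, o s hs _ (jj_mem_sp p.2)], ?_, by simp [E]; ring⟩⟩
    refine (sp e S).mem_carrier.2 (Eq.subst (motive := (· ∈ sp e S)) ?_ (sub_mem (Submodule.smul_mem _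
      (-(Φ.B (J p) w * (κ.ε * (a₀ * Φ.B w (J s))))) (jj_mem_sp hs))
      (Submodule.smul_mem _ (-(κ.ε * a₀) * (Φ.B w (J s) * Φ.B (J s) w)) (jj_mem_sp p.2))))
    simp only [E, map_smul, map_zero, smul_zero, LinearMap.smul_apply, smul_eq_mul]; module
  obtain ⟨g, hg, l, l1, fx, hl⟩ := lin_torus _ _ (nz s hs s0) (nz t ht t0) (fun k => st (mul_left_cancel₀ (by simp [κ.ε_ne, a0]) k))
    (c := -(κ.ε * a₀)) (by simp [κ.ε_ne, a0]) (U s hs) (U t ht) (let ⟨g, b, E⟩ := k.ex; ⟨g, b, fun r hr => by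
      simp [E, show Φ.B r w = 0 from hr.2], fun p => by simp [E, Φ.B_self_of_Q k.Qu, smul_smul, mul_assoc, ← sub_eq_add_neg]⟩)
  replace s0 := And.intro s0 (mt (inj s hs) s0)
  refine no_torus (e := e) (g := g) h5.ge hs hs (fun x hx => ?_) (fun x hx k => inj x hx ?_) fun x hx => ?_
  · have := fx (J x - (Φ.B (J x) w / Φ.B (J s) w) • J s) ⟨sub_mem (jj_mem_sp hx) (Submodule.smul_mem _ _ (jj_mem_sp hs)), by simp [s0]⟩
    rw [map_sub, map_smul] at this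
    exact Submodule.mem_span_pair.2 ⟨Φ.B (J x) w / Φ.B (J s) w, 0, by linear_combination (norm := module) -this⟩
  · have := (hl ⟨x, hx⟩).2
    rw [k] at this
    exact mul_left_cancel₀ (sub_ne_zero.2 l1.symm) (by simpa [sub_mul] using this)
  · refine h.fvT_ker hK h0 hL (by simpa using (hT x (hS.1 x hx)).conj hK hg) a0 (hS.1 s hs) s0.1 (Φ.B_zero_symm (o s hs _ ?_))
    simpa using add_mem (hl ⟨x, hx⟩).1 (Submodule.smul_mem _ l (jj_mem_sp hx))

theorem plane_sp (k : Φ.EA K w w' 0) (q : Φ.Q w' = 0) (n : w' ∉ F ∙ w) (n' : w ∉ F ∙ w') (hT : finrank F₀ T ≤ 4) (a : w ∈ sp e T)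
    (a' : w' ∈ sp e T) : RSub F₀ e (Submodule.span F {w, w'}) := by
  obtain ⟨g, hg, E⟩ := k.ex
  let C := ((Submodule.span F {w, w'}).restrictScalars F₀).comap J
  have key : ∀ t, Ψ.Q t = 0 → Φ.B (J t) w • w' - (κ.ε * Φ.B (J t) w') • w ∈ sp e C := fun t qt => by
    obtain ⟨z, hz⟩ := h.ng2 hK h0 hL hT hg (fun s hs => by simp [E, h.B_sp hs a, h.B_sp hs a']) qt
    have : Φ.B (J t) w • w' - (κ.ε * Φ.B (J t) w') • w = J (z - t) := by rw [map_sub, ← hz, E]; simp; abel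
    rw [this]
    exact jj_mem_sp (show J (z - t) ∈ Submodule.span F {w, w'} from
      Submodule.mem_span_pair.2 ⟨-_, _, by rw [neg_smul, neg_add_eq_sub, this]⟩)
  rw [show Submodule.span F {w, w'} = sp e C from le_antisymm (Submodule.span_le.2 (by
    rintro _ (rfl | rfl)
    · exact h.mem_of_map [] (by simp) (by simpa) fun t qt _ => key t qt
    · exact h.mem_of_map [] (by simp) (w' := w) (by simpa) fun t qt _ => by
        convert Submodule.smul_mem _ (-κ.ε) (key t qt) using 1; match_scalars <;> simp)) (sp_le.2 fun _ hx => hx)]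
  exact RSub.sp

omit hL in
theorem plane_conj (hg : g ∈ K) (qu : Ψ.Q u = 0) (qt : Ψ.Q t = 0) (b : Ψ.B t u = 0) (u0 : u ≠ 0)
    (n : t ∉ Submodule.span F₀ {z | z ∈ [u]}) (hP : Φ.EA K (g (J u)) (ζ • g (J t)) 0 → ζ • g (J t) ∉ F ∙ g (J u) → g (J u) ≠ 0 →
      RSub F₀ e (Submodule.span F {g (J u), ζ • g (J t)})) : RSub F₀ e (Submodule.span F {g (J u), g (J t)}) := by
  have := hP (by simpa using (h0 1 u t qu qt b).conj hK hg) (fun k => n (by
    obtain ⟨c, hc⟩ := Submodule.mem_span_singleton.1 k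
    rw [← g.map_smul, ← g.map_smul, g.injective.eq_iff] at hc
    exact (jj_mem_iff (e := e)).1 ((Submodule.smul_mem_iff _ h.z).1
      (hc ▸ Submodule.smul_mem _ _ (jj_mem_sp (Submodule.subset_span (by simp))))))) (by simpa [jj_eq_zero])
  rwa [Submodule.span_insert, Submodule.span_singleton_smul_eq h.z.isUnit, ← Submodule.span_insert] at this

omit hL in
theorem fvP (hP : ∀ w w', Φ.EA K w w' 0 → Φ.Q w' = 0 → w' ∉ F ∙ w → w ≠ 0 → RSub F₀ e (Submodule.span F {w, w'})) (hg : g ∈ K)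
    (qu : Ψ.Q u = 0) : FV F₀ e (g (J u)) := by
  by_cases u0 : u = 0
  · exact ⟨0, 0, by simp [u0]⟩
  have P := fun t qt b n => h.plane_conj hK h0 hg (t := t) qu qt b u0 n fun k =>
    hP _ _ k (Φ.Q_smul_zero (((hK hg).2 _).trans (h.Q t qt)) _)
  obtain ⟨t, qt, b, n⟩ := h.exn [u] [u]
  obtain ⟨t', qt', b', n'⟩ := h.exn [u] [u, t]
  exact fv_planes n' (P t qt (b u (by simp)) n) (P t' qt' (b' u (by simp)) fun k => n' (Submodule.span_mono (by simp) k))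

end RS

theorem _root_.H5.not_mem_swap {w w' : V} (n : w' ∉ F ∙ w) (w0 : w ≠ 0) : w ∉ F ∙ w' := by
  simpa using span_swap (S := ⊥) (r := w) (z := w') (by simpa) (by simpa)

namespace RS
variable [Finite F] {K : Subgroup (V ≃ₗ[F] V)} {u s : ι → F₀} {w w' : V} {g : V ≃ₗ[F] V} {S : Submodule F₀ (ι → F₀)}
variable {Φ : Form (Kind.orth F) V} (h : RS Φ e ζ Ψ) (hK : K ≤ Φ.isom) (h0 : ∀ c : F₀, Lv Φ e ζ Ψ K c)
  (hL : ∀ c, Lv Φ e ζ Ψ K c → c ∈ F₀)
include h hK h0 hL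

theorem planeO_ker (k : Φ.EA K w w' 0) (n : w' ∉ F ∙ w) (w0 : w ≠ 0) (qs : Ψ.Q s = 0) (s0 : s ≠ 0) (b : Φ.B (J s) w = 0)
    (b' : Φ.B (J s) w' = 0) : RSub F₀ e (Submodule.span F {w, w'}) := by
  have q : Φ.Q w' = 0 := k.pa.symm
  have n' := not_mem_swap n w0
  have ms : ∀ x, J s ∈ sp e (Submodule.span F₀ {z | z ∈ [x, s]}) := fun x => jj_mem_sp (Submodule.subset_span (by simp))
  have A : ∀ {w w' : V} (α β : F), Φ.EA K w w' 0 → α ≠ 0 → α • w + β • w' = J s →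
      ∃ x, w ∈ sp e (Submodule.span F₀ {z | z ∈ [x, s]}) ∧ w' ∈ sp e (Submodule.span F₀ {z | z ∈ [x, s]}) := fun {w w'} α β k α0 j => by
    have q : Φ.Q w' = 0 := k.pa.symm
    have k' : Φ.EA K (J s) (α⁻¹ • w') 0 := k.congr (h.Q s qs) (by simp [← j, k.Bv, Φ.B_self_of_Q q]) (by simp [Φ.Q_smul, q])
      fun x => by simp only [← j, map_add, Form.B_smul_right]; match_scalars <;> simp <;> field_simp; ring
    obtain ⟨x, hx⟩ := h.rat (y := (ζ⁻¹ * α⁻¹) • w') [s] fun p qp bp => by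
      have := hL _ (h.lv_B hK h0 k' qs s0 qp (bp s (by simp)))
      simpa [h.z, mul_assoc] using this
    have := (Submodule.smul_mem_iff _ (by simp [h.z, α0])).1 (mem_sp_cons hx)
    exact ⟨x, (Submodule.smul_mem_iff _ α0).1 (eq_sub_of_add_eq j ▸ sub_mem (ms x) (Submodule.smul_mem _ _ this)), this⟩
  by_cases m : J s ∈ Submodule.span F {w, w'}
  · obtain ⟨α, β, j⟩ := Submodule.mem_span_pair.1 m
    by_cases α0 : α = 0
    · obtain ⟨x, a, a'⟩ := A β 0 ((one_smul F w' ▸ k :).swap (c := 1) q (Φ.B_zero_symm k.Bv))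
        (by rintro rfl; exact s0 (jj_eq_zero.1 (by simpa [α0] using j.symm))) (by simpa [α0] using j)
      exact h.plane_sp hK h0 hL k q n n' ((finrank_span_le _).trans (by simp)) (by simpa using a') a
    · obtain ⟨x, a, a'⟩ := A α β k α0 j
      exact h.plane_sp hK h0 hL k q n n' ((finrank_span_le _).trans (by simp)) a a'
  obtain ⟨g, hg, E⟩ := k.ex
  let C := ((Submodule.span F {z | z ∈ [w, w', J s]}).restrictScalars F₀).comap J
  have key : ∀ t, Ψ.Q t = 0 → (∀ x ∈ [s], Ψ.B t x = 0) → Φ.B (J t) w • w' - (1 * Φ.B (J t) w') • w ∈ sp e C := fun t qt bt => by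
    obtain ⟨z, hz⟩ := h.ng hK h0 hL hg qs s0 (by simp [E, b, b']) qt (bt s (by simp))
    have j : Φ.B (J t) w • w' - (1 * Φ.B (J t) w') • w = J (z - t) + (g (J t) - J z) := by rw [map_sub, E]; simp; abel
    have sC : F₀ ∙ s ≤ C := (Submodule.span_singleton_le_iff_mem _ _).2 (Submodule.subset_span (s := {z | z ∈ [w, w', J s]}) (by simp))
    rw [j]; refine add_mem (jj_mem_sp (show J (z - t) ∈ Submodule.span F {z | z ∈ [w, w', J s]} from ?_))
      (Submodule.span_mono (Set.image_mono sC) hz)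
    rw [← sub_eq_of_eq_add j]
    exact sub_mem (sub_mem (Submodule.smul_mem _ _ (Submodule.subset_span (by simp))) (Submodule.smul_mem _ _
      (Submodule.subset_span (by simp)))) (sp_le.2 sC hz)
  rw [Submodule.span_insert] at m
  refine h.plane_sp hK h0 hL k q n n' (T := C) ((finrank_core _).trans ((finrank_span_le _).trans (by simp)))
    (h.mem_of_map [s] (by simp) (by simpa [sup_comm] using span_swap n m) key)
    (h.mem_of_map [s] (by simp) (w' := w) (by simpa [sup_comm] using span_swap n' (sup_comm (F ∙ w) _ ▸ m)) fun t qt bt => ?_)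
  simpa using neg_mem (key t qt bt)

theorem fvO_ts (h3 : 3 ≤ finrank F₀ S) (hS : Ψ.TS S) (hg : g ∈ K) (b : ∀ x ∈ S, ∀ s ∈ S, Φ.B (J s) (g (J x)) = 0) (hu : u ∈ S) :
    FV F₀ e (g (J u)) := by
  by_cases u0 : u = 0
  · exact ⟨0, 0, by simp [u0]⟩
  have P := fun t ht n => h.plane_conj hK h0 hg (t := t) (hS.1 u hu) (hS.1 t ht) (hS.2 t ht u hu) u0 n fun k n w0 =>
    h.planeO_ker hK h0 hL k n w0 (hS.1 u hu) u0 (b u hu u hu) (by simp [b t ht u hu])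
  obtain ⟨t, ht, n⟩ := exists_out (S := S) [u] (by simp; omega)
  obtain ⟨t', ht', n'⟩ := exists_out (S := S) [u, t] (by simp; omega)
  exact fv_planes n' (P t ht n) (P t' ht' fun k => n' (Submodule.span_mono (by simp) k))

theorem planeO (k : Φ.EA K w w' 0) (n : w' ∉ F ∙ w) (w0 : w ≠ 0) : RSub F₀ e (Submodule.span F {w, w'}) := by
  have _ := Fintype.ofFinite F
  by_contra nr
  obtain ⟨S, h5, hS⟩ := h.exS
  have inj : ∀ s ∈ S, Φ.B (J s) w = 0 → Φ.B (J s) w' = 0 → s = 0 := fun s hs b b' => by_contra fun s0 =>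
    nr (h.planeO_ker hK h0 hL k n w0 (hS.1 s hs) s0 b b')
  have o : ∀ s ∈ S, ∀ z ∈ sp e S, Φ.B z (J s) = 0 := fun s hs z hz => Φ.B_zero_symm (h.B_sp (hS.le_perp hs) hz)
  have q : Φ.Q w' = 0 := k.pa.symm
  obtain ⟨δ, hδ⟩ : ∃ δ : (ι → F₀) → (ι → F₀) → F, ∀ x y, δ x y = Φ.B (J x) w * Φ.B (J y) w' - Φ.B (J x) w' * Φ.B (J y) w :=
    ⟨_, fun _ _ => rfl⟩
  obtain ⟨g₀, hg₀, E₀⟩ := k.ex
  simp only [Kind.orth_ε, one_mul, zero_mul, add_zero] at E₀
  by_cases d : ∀ x ∈ S, ∀ y ∈ S, δ x y = 0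
  · obtain ⟨s, hs, s0⟩ := exists_out (S := S) [] (by simp [h5])
    refine no_torus (e := e) (g := g₀) h5.ge hs hs (fun x hx => ?_) (fun x hx j => ?_) fun x hx =>
      h.fvO_ts hK h0 hL (by omega) hS hg₀ (fun x hx s hs => by
        simp [E₀, o x hx _ (jj_mem_sp hs)]; linear_combination d x hx s hs - hδ x s) hx
    · have := (hδ x s).symm.trans (d x hx s hs)
      by_cases b : Φ.B (J s) w = 0
      · have b' : Φ.B (J s) w' ≠ 0 := fun b' => s0 (by simp [inj s hs b b'])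
        refine Submodule.mem_span_pair.2 ⟨Φ.B (J x) w' / Φ.B (J s) w', 0, ?_⟩
        simp only [E₀]; match_scalars <;> field_simp <;> simp_all
      · refine Submodule.mem_span_pair.2 ⟨Φ.B (J x) w / Φ.B (J s) w, 0, ?_⟩
        simp only [E₀]; match_scalars <;> field_simp <;> first | ring1 | linear_combination this | linear_combination -this
    rw [E₀, add_sub_assoc, add_eq_left, sub_eq_zero] at j
    have b : Φ.B (J x) w = 0 := by_contra fun b => n (((F ∙ w).smul_mem_iff b).1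
      (j ▸ Submodule.smul_mem _ _ (Submodule.mem_span_singleton_self w)))
    exact inj x hx b (by simpa [b, w0] using j.symm)
  push Not at d
  obtain ⟨s, hs, t, ht, d⟩ := d
  let R := sp e S ⊓ ((Φ.B.flip w).ker ⊓ (Φ.B.flip w').ker)
  have pl : ∀ x ∈ S, ∀ y ∈ S, ∀ z ∈ S, δ x y • J z + δ y z • J x + δ z x • J y ∈ R := fun x hx y hy z hz =>
    ⟨add_mem (add_mem (Submodule.smul_mem _ _ (jj_mem_sp hz)) (Submodule.smul_mem _ _ (jj_mem_sp hx)))
      (Submodule.smul_mem _ _ (jj_mem_sp hy)), by simp [hδ]; ring, by simp [hδ]; ring⟩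
  obtain ⟨s', hs', t', ht', d1, d2⟩ : ∃ s' ∈ S, ∃ t' ∈ S, δ s' t' ≠ 0 ∧ δ s t ≠ δ s' t' := by
    by_contra! j
    obtain ⟨p, hp, n⟩ := exists_out (S := S) [s, t] (by simp [h5])
    have c : ∀ x ∈ S, ∀ y ∈ S, ∃ c : F₀, δ x y = δ s t * c := fun x hx y hy =>
      (em (δ x y = 0)).elim (fun k => ⟨0, by simp [k]⟩) fun k => ⟨1, by simp [j x hx y hy k]⟩
    obtain ⟨a, ha⟩ := c t ht p hp
    obtain ⟨b, hb⟩ := c p hp s hs
    have := pl s hs t ht p hp
    rw [ha, hb, mul_smul, mul_smul, ← smul_add, ← smul_add, R.smul_mem_iff d, ← jj_smul, ← jj_smul, ← map_add, ← map_add] at this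
    have := inj _ (add_mem (add_mem hp (S.smul_mem a hs)) (S.smul_mem b ht)) this.2.1 this.2.2
    rw [add_assoc, add_eq_zero_iff_eq_neg] at this
    exact n (this ▸ neg_mem (add_mem (Submodule.smul_mem _ _ (Submodule.subset_span (by simp)))
      (Submodule.smul_mem _ _ (Submodule.subset_span (by simp)))))
  have U : ∀ s ∈ S, ∀ t ∈ S, ∃ g ∈ K, (∀ r ∈ R, g r = r) ∧ ∀ p : S, g (J p) - J p ∈ R ∧
      g (Φ.B (J p) w • w' - Φ.B (J p) w' • w) - ((-ζ * δ s t) • J p + (Φ.B (J p) w • w' - Φ.B (J p) w' • w)) ∈ R :=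
    fun s hs t ht => by
      obtain ⟨g, a, E⟩ := (h0 1 s t (hS.1 s hs) (hS.1 t ht) (hS.2 t ht s hs)).ex
      refine ⟨g, a, fun r hr => by simp [E, o s hs r hr.1, o t ht r hr.1], fun p =>
        ⟨by simp [E, o s hs _ (jj_mem_sp p.2), o t ht _ (jj_mem_sp p.2)], ?_⟩⟩
      convert R.smul_mem ζ (pl p p.2 s hs t ht) using 1
      simp only [E, hδ, map_sub, map_smul, LinearMap.sub_apply, LinearMap.smul_apply, Φ.orth_symm _ w, Φ.orth_symm _ w', smul_eq_mul,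
        Form.B_smul_right]
      match_scalars <;> simp <;> ring
  obtain ⟨g, hg, l, l1, fx, hl⟩ := lin_torus _ _ (mul_ne_zero (neg_ne_zero.2 h.z) d) (mul_ne_zero (neg_ne_zero.2 h.z) d1)
    (fun k => d2 (mul_left_cancel₀ (neg_ne_zero.2 h.z) k)) one_ne_zero (U s hs t ht) (U s' hs' t' ht')
    ⟨g₀, hg₀, fun r hr => by simp [E₀, show Φ.B r w = 0 from hr.2.1, show Φ.B r w' = 0 from hr.2.2], fun p => by
      simp [E₀, Φ.B_self_of_Q k.Qu, Φ.B_self_of_Q q, k.Bv, Φ.B_zero_symm k.Bv, add_sub_assoc]⟩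
  refine no_torus (e := e) (g := g) h5.ge hs ht (fun x hx => ?_) (fun x hx k => ?_) fun x hx =>
    h.fvO_ts hK h0 hL (by omega) hS hg (fun x hx s hs => Φ.B_zero_symm (o s hs _ (by
      simpa using add_mem (hl ⟨x, hx⟩).1 (Submodule.smul_mem _ l (jj_mem_sp hx))))) hx
  · have := fx _ (pl s hs t ht x hx)
    simp only [map_add, map_smul] at this
    exact ((Submodule.smul_mem_iff _ d).1 (Submodule.mem_span_pair.2 ⟨-δ t x, -δ x s, by linear_combination (norm := module) -this⟩))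
  · have := (hl ⟨x, hx⟩).2
    rw [k] at this
    exact inj x hx (mul_left_cancel₀ (sub_ne_zero.2 l1.symm) (by simpa [sub_mul] using this.1))
      (mul_left_cancel₀ (sub_ne_zero.2 l1.symm) (by simpa [sub_mul] using this.2))

end RS

namespace RS
variable [Fintype F] (h : RS Φ e ζ Ψ) {K : Subgroup (V ≃ₗ[F] V)} (hK : K ≤ Φ.isom) (h0 : ∀ c : F₀, Lv Φ e ζ Ψ K c)
include h hK h0

theorem fv2 (hc : Fintype.card F = Nat.card F₀ ^ 2) (hL : ∀ c, Lv Φ e ζ Ψ K c → c ∈ F₀) {g u} (hg : g ∈ K) (qu : Ψ.Q u = 0) :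
    FV F₀ e (g (J u)) := by
  obtain ⟨n, θ, τ, hn, h1⟩ := exists_bas F₀
  obtain rfl : n = 2 := hn.trans (Nat.pow_right_injective (one_lt_card_subfield F₀) (by
    simp only [← hc, ← Module.natCard_eq_pow_finrank, Nat.card_eq_fintype_card]))
  refine h.fvP hK h0 (fun w w' k q n w0 => h.plane_sp hK h0 hL k q n (not_mem_swap n w0)
    ((finrank_span_le [cmp e (τ 0) w, cmp e (τ 1) w, cmp e (τ 0) w', cmp e (τ 1) w']).trans (by simp)) ?_ ?_) hg qu
  all_goals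
    refine (sum_cmp (e := e) h1 _).symm.subst (motive := (· ∈ sp e _)) <| sum_mem fun i _ => Submodule.smul_mem _ _ (jj_mem_sp (Submodule.subset_span ?_))
    fin_cases i <;> simp

theorem dich {r : ℕ} (hr : r.Prime) (hc : Fintype.card F = Nat.card F₀ ^ r) (hz : (∀ a, κ.π a = 0 → ∃ c, a = κ.σ c - κ.ε * c) ∨
    ∃ a₀, (∀ u, Ψ.Q u = 0 → Φ.EA K (J u) 0 a₀) ∧ ∀ a, κ.π a = 0 → ∃ μ, a = μ * κ.σ μ * a₀)
    (hf : (∀ c, Lv Φ e ζ Ψ K c → c ∈ F₀) → ∀ g ∈ K, ∀ u, Ψ.Q u = 0 → FV F₀ e (g (J u))) :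
    (∀ g ∈ K, ∃ c : F, c ≠ 0 ∧ ∀ x, ∃ x', g (J x) = c • J x') ∨ Φ.EG ≤ K := by
  refine (level_cases hr hc h0 (fun a b ha hb u t qu qt k => ?_) fun a b => h.lv_mul hK).imp (fun hL g hg => ?_)
    fun hL => h.EG_le hK hL hz
  · simpa [Φ.B_self_of_Q (h.Q t qt), mul_add, add_smul] using (ha u t qu qt k).mul (hb u t qu qt k)
  obtain ⟨u, qu, -, n⟩ := h.exn [] []
  obtain ⟨c, c0, hc⟩ := scalar_of (hf hL g hg) qu (by simpa using n) fun x qx => by
    obtain ⟨t, qt, b, n⟩ := h.exn [u, x] [u, x]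
    exact ⟨t, qt, by rw [Ψ.Q_add_of_perp (Ψ.B_zero_symm (b u (by simp))), qu, qt, add_zero],
      by rw [Ψ.Q_add_of_perp (b x (by simp)), qx, qt, add_zero], n⟩
  exact ⟨c, c0, fun x => h.ind [] (P := fun x => ∃ x', g (J x) = c • J x') (fun x qx _ => hc x qx)
    (fun x y ⟨a, ha⟩ ⟨b, hb⟩ => ⟨a + b, by simp [ha, hb]⟩) (by simp)⟩

end RS

theorem map_mem_sub [Fintype F] (σ : F →+* F) {a : F} (h : a ∈ F₀) : σ a ∈ F₀ := by
  rw [mem_subfield_iff] at *; rw [← map_pow, h]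

/-- restriction of `ζ B` to the rational vectors -/
def resB (σ : F₀ →+* F₀) (hσ : ∀ a, (σ a : F) = κ.σ a) (h : ∀ x y, ζ * Φ.B (J x) (J y) ∈ F₀) :
    (ι → F₀) →ₗ[F₀] (ι → F₀) →ₛₗ[σ] F₀ :=
  LinearMap.mk₂'ₛₗ _ _ (fun x y => ⟨_, h x y⟩) (fun _ _ _ => Subtype.ext (by simp [mul_add]))
    (fun _ _ _ => Subtype.ext (by simp only [jj_smul, Form.B_smul_left, mul_left_comm ζ]; rfl))
    (fun _ _ _ => Subtype.ext (by simp [mul_add]))
    fun _ _ _ => Subtype.ext (by simp only [jj_smul, Form.B_smul_right, mul_left_comm ζ, ← hσ]; rfl)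

variable [Finite F] (z : ζ ≠ 0) (nd : Φ.Nondeg) (dim : 13 ≤ Fintype.card ι)
include nd dim

omit nd in
theorem rs_unit [Fintype F] {q : ℕ} {hF : Fintype.card F = q ^ 2} {Φ : Form (unitK hF) V} (nd : Φ.Nondeg) {b : F} (hb : b ∈ F₀)
    (n : conj hF b ≠ b) (h : ∀ x y, 1 * Φ.B (J x) (J y) ∈ F₀) : ∃ (κ₀ : Kind F₀) (Ψ : Form κ₀ (ι → F₀)), RS Φ e 1 Ψ := by
  have _ := Fintype.ofFinite F₀
  let σ : F₀ →+* F₀ := ((conj hF).comp F₀.subtype).codRestrict F₀ fun a => map_mem_sub (conj hF) a.2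
  have i : ∀ a, σ (σ a) = a := fun a => Subtype.ext (conj_conj hF a)
  have n' : σ ≠ RingHom.id _ := fun k => n (congrArg Subtype.val (RingHom.congr_fun k ⟨b, hb⟩))
  have s : ∀ a, (σ a : F) = (unitK hF).σ a := fun _ => rfl
  obtain ⟨q₀, hF₀, k⟩ := exists_conj_eq i n'
  clear_value σ; subst k
  let Ψ : Form (unitK hF₀) (ι → F₀) := Form.ofHerm i n' (resB _ s h) fun x y => Subtype.ext (by
    rw [s]; simpa [resB] using Φ.B_symm (J x) (J y))
  exact ⟨_, Ψ, fun _ _ => rfl, fun x k => by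
    have := congrArg Subtype.val ((Ψ.unit_Q x).symm.trans k); rw [Φ.unit_Q]; exact (one_mul _).symm.trans this,
    one_ne_zero, nd, fun C hC => As.isotU Ψ C (by omega), dim⟩

include z

omit [Finite F] in
theorem rs_symp (hσ : ∀ a : F₀, κ.σ a = a) (h : ∀ x y, ζ * Φ.B (J x) (J y) ∈ F₀) (hQ : ∀ x, Φ.Q (J x) = 0) :
    ∃ Ψ : Form (Kind.symp F₀) (ι → F₀), RS Φ e ζ Ψ :=
  ⟨Form.ofAlt (resB (RingHom.id _) (fun a => (hσ a).symm) h) fun x => Subtype.ext (by simp [resB, Φ.B_self_of_Q (hQ x)]),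
    fun _ _ => rfl, fun x _ => hQ x, z, nd, fun C hC =>
      let ⟨x, hx, e⟩ := (Submodule.ne_bot_iff _).1 (Submodule.one_le_finrank_iff.1 (by omega)); ⟨x, hx, e, Form.symp_Q _ x⟩, dim⟩

theorem rs_orth (hσ : ∀ a : F₀, κ.σ a = a) {μ : F} (μ0 : μ ≠ 0) (h : ∀ x, μ * Φ.Q (J x) ∈ F₀)
    (hB : ∀ x y, μ * κ.π (Φ.B (J x) (J y)) = ζ * Φ.B (J x) (J y)) : ∃ Ψ : Form (Kind.orth F₀) (ι → F₀), RS Φ e ζ Ψ := by
  have _ := Fintype.ofFinite F₀
  have k : ∀ x y, μ * Φ.Q (J (x + y)) = μ * Φ.Q (J x) + μ * Φ.Q (J y) + ζ * Φ.B (J x) (J y) := fun x y => by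
    rw [map_add, Φ.Q_add, ← hB]; ring
  have k' : ∀ x y, ζ * Φ.B (J x) (J y) ∈ F₀ := fun x y => by
    convert sub_mem (h (x + y)) (add_mem (h x) (h y)) using 1; rw [k]; ring
  exact ⟨Form.ofQuadFun (fun x => ⟨_, h x⟩) (resB (RingHom.id _) (fun a => (hσ a).symm) k')
    (fun c x => Subtype.ext (by simp only [jj_smul, Φ.Q_smul, hσ, mul_left_comm μ]; rfl)) fun x y => Subtype.ext (k x y),
    fun _ _ => rfl, fun x k => (mul_eq_zero.1 (congrArg Subtype.val k)).resolve_left μ0, z, nd, As.isotO _, dim⟩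

end Sf

namespace As
open Sf Cfsg.Geo
variable {ι : Type} [Fintype ι] [DecidableEq ι] {F : Type*} [Field F] [Fintype F] {F₀ : Subfield F} {κ : Kind F} {κ₀ : Kind F₀}
  {Φ : Form κ (ι → F)} {Ω : Subgroup (GL ι F)} {d r : ℕ} {P : GL ι F} {ζ : F} {Ψ : Form κ₀ (ι → F₀)}

theorem CG.subfield (c : CG Φ Ω d) (h : RS Φ (glEquiv P) ζ Ψ) (hr : r.Prime) (hc : Fintype.card F = Nat.card F₀ ^ r)
    (hz : (∀ a, κ.π a = 0 → ∃ c, a = κ.σ c - κ.ε * c) ∨
      ∃ a₀, κ.π a₀ = 0 ∧ a₀ * ζ⁻¹ ∈ F₀ ∧ ∀ a, κ.π a = 0 → ∃ μ, a = μ * κ.σ μ * a₀)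
    (hf : (∃ a₀, a₀ ≠ 0 ∧ κ.π a₀ = 0 ∧ a₀ * ζ⁻¹ ∈ F₀) ∨ r = 2 ∨ ∀ K ≤ Φ.isom, (∀ c : F₀, Lv Φ (glEquiv P) ζ Ψ K c) →
      (∀ c, Lv Φ (glEquiv P) ζ Ψ K c → c ∈ F₀) → ∀ w w', Φ.EA K w w' 0 → w' ∉ F ∙ w → w ≠ 0 →
        RSub F₀ (glEquiv P) (Submodule.span F {w, w'})) : IsMaximalIn Ω (subfieldSubgroup F₀ P ⊓ Ω) := by
  refine isMax_of c.mem (S' := (subfieldSubgroup F₀ P).comap glEquiv.symm.toMonoidHom) (fun g _ => by simp) (fun K h1 h2 => ?_)
    (c.big.subfield' hr hc P)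
  have hK := h2.trans Form.EG_le_isom
  have ε : κ.ε ∈ F₀ := by rcases mul_self_eq_one_iff.1 κ.εε with e | e <;> simp [e]
  have E : ∀ u t (c a : F), Ψ.Q u = 0 → Ψ.Q t = 0 → Ψ.B t u = 0 → c ∈ F₀ → κ.π a = 0 → a * ζ⁻¹ ∈ F₀ →
      Φ.EA K (jj F₀ (glEquiv P) u) ((ζ * c) • jj F₀ (glEquiv P) t) a := fun u t c a qu qt b hc ha ha' =>
    ⟨h.Q u qu, by rw [Form.B_smul_left, h.B0.2 b, mul_zero], by rw [ha, Φ.Q_smul_zero (h.Q t qt)], h1 ⟨mem_subfield_up.2 ⟨1, one_ne_zero,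
      fun x => ⟨x + (Ψ.B x u * ⟨c, hc⟩) • t - (⟨_, add_mem (map_mem_sub κ.σ (mul_mem hc (Ψ.B t x).2))
        (mul_mem ε (mul_mem ha' (Ψ.B x u).2))⟩ : F₀) • u, by
        rw [MulEquiv.coe_toMonoidHom, MulEquiv.apply_symm_apply, Form.eich_apply, map_sub, map_add, jj_smul, jj_smul,
          Φ.B_symm (_ • _) (jj F₀ _ x), Form.B_smul_left]
        simp only [MulMemClass.coe_mul, h.B, one_smul]
        have := h.z
        match_scalars <;> simp [mul_add, mul_assoc, mul_left_comm] <;> field_simp⟩⟩, Form.eich_mem_EG _ _ _⟩⟩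
  have h0 : ∀ c : F₀, Lv Φ (glEquiv P) ζ Ψ K c := fun c u t qu qt b => E u t c 0 qu qt b c.2 (by simp) (by simp)
  have T : ∀ a, κ.π a = 0 → a * ζ⁻¹ ∈ F₀ → ∀ u, Ψ.Q u = 0 → Φ.EA K (jj F₀ (glEquiv P) u) 0 a := fun a ha ha' u qu => by
    simpa using E u 0 0 a qu (by simp) (by simp) (by simp) ha ha'
  refine (h.dich hK h0 hr hc (hz.imp_right fun ⟨a, i, j, k⟩ => ⟨a, T a i j, k⟩) fun hL g hg u qu => ?_).imp_left
    fun k g hg => mem_subfield_up.2 (by simpa using k g hg)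
  rcases hf with ⟨a, a0, i, j⟩ | rfl | k
  exacts [h.fvT hK h0 hL a0 (T a i j) (by simpa using (T a i j u qu).conj hK hg), h.fv2 hK h0 hc hL hg qu,
    h.fvP hK h0 (fun w w' a _ => k K hK h0 hL w w' a) hg qu]

theorem hz_unit {q : ℕ} (hF : Fintype.card F = q ^ 2) (a : F) (ha : (unitK hF).π a = 0) :
    ∃ c, a = (unitK hF).σ c - (unitK hF).ε * c := by
  obtain ⟨θ, hθ⟩ := Kind.exists_trace_one (conj_conj hF) (conj_ne_id hF)
  refine ⟨-(a * θ), ?_⟩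
  simp only [Kind.unit_π, Kind.unit_σ, Kind.unit_ε, map_neg, map_mul] at ha ⊢
  linear_combination (-a) * hθ + conj hF θ * ha

theorem CG.subfieldO {Φ : Form (Kind.orth F) (ι → F)} (c : CG Φ Ω d) (h13 : 13 ≤ Fintype.card ι) (hr : r.Prime)
    (hc : Fintype.card F = Nat.card F₀ ^ r) (z : ζ ≠ 0) (hP : IsQuadFormRationalStructure (fun v => ζ * Φ.Q v) F₀ P) :
    IsMaximalIn Ω (subfieldSubgroup F₀ P ⊓ Ω) :=
  let ⟨_, h⟩ := rs_orth (e := glEquiv P) z c.nd h13 (fun _ => rfl) z (fun x => hP _ fun i => (x i).2) fun _ _ => rfl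
  c.subfield h hr hc (.inl fun a ha => ⟨0, by simpa using ha⟩) (.inr (.inr fun _ hK h0 hL _ _ => h.planeO hK h0 hL))

end As

end H5
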