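import Cfsg.Agent.H5.Om3
import Cfsg.Agent.H5.Simple
import Cfsg.Prelude.Def_FischerSpaces

/-!
Rank one isometries, classes of 3-transpositions in classical groups, and the groups generated by the reflections of one norm.
-/

set_option autoImplicit false

namespace H5
namespace Form

open Module Matrix Subgroup

section general
variable {F : Type*} [Field F] {κ : Kind F} {V : Type*} [AddCommGroup V] [Module F V] {Φ : Form κ V}

theorem Nondeg.rank_one [FiniteDimensional F V] (h : Φ.Nondeg) {g : V ≃ₗ[F] V} (hg : g ∈ Φ.isom)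
    (h1 : finrank F (LinearMap.range ((g : V →ₗ[F] V) - LinearMap.id)) = 1) :
    ∃ p a ha, p ≠ 0 ∧ a ≠ 0 ∧ g = Φ.refl p a ha := by
  obtain ⟨⟨p, hp⟩, p0, H⟩ := finrank_eq_one_iff'.1 h1
  replace p0 : p ≠ 0 := fun e => p0 (Subtype.ext e)
  have R : LinearMap.range ((g : V →ₗ[F] V) - LinearMap.id) = F ∙ p := le_antisymm (fun x hx => by
    obtain ⟨c, e⟩ := H ⟨x, hx⟩; exact Submodule.mem_span_singleton.2 ⟨c, congrArg Subtype.val e⟩)
    ((Submodule.span_singleton_le_iff_mem _ _).2 hp)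
  have P := h.perp_range_sub hg
  rw [R] at P
  have fx : ∀ z, Φ.B z p = 0 → g z = z := fun z hz => mem_fixSp.1 (P ▸ (Φ.mem_perp_singleton).2 hz)
  obtain ⟨x, hx⟩ := hp
  have hx : g x = x + p := by rw [← hx]; simp
  have b : Φ.B x p ≠ 0 := fun e => p0 (by simpa [fx x e] using hx)
  have ha : κ.π (-Φ.B x p) = Φ.Q p := by
    have := hg.2 x
    rw [hx, Φ.Q_add] at this
    rw [map_neg]; linear_combination -this
  refine ⟨p, _, ha, p0, neg_ne_zero.2 b, LinearEquiv.ext fun z => ?_⟩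
  have := fx (z - (Φ.B z p / Φ.B x p) • x) (by simp [b])
  rw [map_sub, map_smul, hx, sub_eq_iff_eq_add] at this
  rw [this, refl_apply, inv_neg, div_eq_inv_mul]; module

theorem Nondeg.rank_of (h : Φ.Nondeg) {g : V ≃ₗ[F] V} {p : V} {c : F} (p0 : p ≠ 0) (hc : c ≠ 0)
    (e : ∀ z, g z = z - (c * Φ.B z p) • p) : finrank F (LinearMap.range ((g : V →ₗ[F] V) - LinearMap.id)) = 1 := by
  suffices H : LinearMap.range ((g : V →ₗ[F] V) - LinearMap.id) = F ∙ p by rw [H, finrank_span_singleton p0]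
  refine le_antisymm ?_ ((Submodule.span_singleton_le_iff_mem _ _).2 ?_)
  · rintro _ ⟨z, rfl⟩
    exact Submodule.mem_span_singleton.2 ⟨-(c * Φ.B z p), by simp [e]⟩
  · obtain ⟨x, hx⟩ := h.exists_ne p0
    refine ⟨-(c * Φ.B x p)⁻¹ • x, ?_⟩
    rw [map_smul]
    simp only [LinearMap.sub_apply, LinearEquiv.coe_coe, e, LinearMap.id_apply, sub_sub_cancel_left, neg_smul, smul_neg, neg_neg,
      smul_smul, neg_mul, inv_mul_cancel₀ (mul_ne_zero hc hx), one_smul]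

theorem Nondeg.t3 (h : Φ.Nondeg) {G : Type*} [Group G] (φ : G →* V ≃ₗ[F] V) (hφ : Function.Injective φ) (hi : ∀ g, φ g ∈ Φ.isom)
    (P : V → Prop) {c : F} (hc : c ≠ 0) {D : Set G} (hD : ∀ g, g ∈ D ↔ ∃ p, P p ∧ ∀ z, φ g z = z - (c * Φ.B z p) • p)
    (h0 : ∀ p, P p → p ≠ 0 ∧ c * Φ.B p p = 2)
    (h3 : ∀ p q, P p → P q → Φ.B p q = 0 ∨ c * Φ.B p q * (c * Φ.B q p) = 1) (hP : ∀ g p, P p → P (φ g p))
    (ht : ∀ p q, P p → P q → ∃ g l, l * κ.σ l = 1 ∧ φ g p = l • q) (hne : D.Nonempty) (hg : closure D = ⊤) :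
    Cfsg.IsThreeTranspositionClass D := by
  have sq : ∀ d ∈ D, d * d = 1 := fun d hd => by
    obtain ⟨p, hp, e⟩ := (hD d).1 hd
    refine hφ (LinearEquiv.ext fun z => ?_)
    rw [map_mul, LinearEquiv.mul_apply, e, e, map_one]
    simp only [map_sub, map_smul, LinearMap.sub_apply, LinearMap.smul_apply, smul_eq_mul, LinearEquiv.coe_one, id]
    have := (h0 p hp).2
    match_scalars
    · ring
    · linear_combination c * Φ.B z p * this
  have cj : ∀ g d p, (∀ z, φ d z = z - (c * Φ.B z p) • p) → ∀ z, φ (g * d * g⁻¹) z = z - (c * Φ.B z (φ g p)) • φ g p :=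
    fun g d p e z => by
      rw [map_mul, map_mul, map_inv, LinearEquiv.mul_apply, LinearEquiv.mul_apply, e, map_sub, map_smul, isom_B_symm' (hi g)]
      simp
  refine ⟨⟨fun d hd => orderOf_eq_prime (by rw [_root_.sq, sq d hd]) ?_, fun d hd d' hd' => ?_⟩, ?_, hg⟩
  · rintro rfl
    obtain ⟨p, hp, e⟩ := (hD 1).1 hd
    obtain ⟨x, hx⟩ := h.exists_ne (h0 p hp).1
    simpa [hc, hx, (h0 p hp).1, eq_sub_iff_add_eq] using e x
  · obtain ⟨p, hp, e⟩ := (hD d).1 hd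
    obtain ⟨q, hq, e'⟩ := (hD d').1 hd'
    refine (h3 p q hp hq).imp (fun b => ?_) fun b => ?_
    · have : d * d' = d' * d := hφ (LinearEquiv.ext fun z => by
        simp only [map_mul, LinearEquiv.mul_apply, e, e', map_sub, map_smul, LinearMap.sub_apply, LinearMap.smul_apply, b,
          Φ.B_zero_symm b]
        module)
      rw [_root_.sq]; nth_rewrite 1 [this]
      rw [mul_assoc, ← mul_assoc d, sq d hd, one_mul, sq d' hd']
    · have : d * d' * d = d' * d * d' := hφ (LinearEquiv.ext fun z => by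
        have h1 := (h0 p hp).2
        have h2 := (h0 q hq).2
        simp only [map_mul, LinearEquiv.mul_apply, e, e', map_sub, map_smul, LinearMap.sub_apply, LinearMap.smul_apply,
          smul_eq_mul]
        match_scalars
        · ring
        all_goals grind)
      calc (d * d') ^ 3 = (d * d' * d) * (d' * d * d') := by simp only [pow_succ, pow_zero, one_mul, mul_assoc]
        _ = d' * (d * (d' * d') * d) * d' := by rw [this]; simp only [mul_assoc]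
        _ = 1 := by rw [sq d' hd', mul_one, sq d hd, mul_one, sq d' hd']
  · obtain ⟨d, hd⟩ := hne
    obtain ⟨p, hp, e⟩ := (hD d).1 hd
    refine ⟨d, hd, Set.ext fun x => ⟨fun hx => ?_, fun hx => ?_⟩⟩
    · obtain ⟨q, hq, e'⟩ := (hD x).1 hx
      obtain ⟨g, l, hl, H⟩ := ht p q hp hq
      refine isConj_iff.2 ⟨g, hφ (LinearEquiv.ext fun z => ?_)⟩
      rw [cj g d p e, e', H, B_smul_right, smul_smul]
      congr 2; linear_combination c * Φ.B z q * hl
    · obtain ⟨g, rfl⟩ := isConj_iff.1 hx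
      exact (hD _).2 ⟨_, hP g p hp, cj g d p e⟩

theorem Nondeg.exists_map [FiniteDimensional F V] (h : Φ.Nondeg) {x y : V} (hx : x ≠ 0) (hy : y ≠ 0) (e : Φ.Q x = Φ.Q y) :
    ∃ g ∈ Φ.isom, g x = y :=
  (h.witt_step (H := ⊥) hx hy e fun z hz => by simp [show z = 0 from hz]).imp fun _ h => ⟨h.1, h.2.1⟩

end general

/-- The orthogonal transvections over the field with two elements. -/
theorem Nondeg.t3_orth {ι : Type} [Fintype ι] [DecidableEq ι] {Φ : Form (Kind.orth (ZMod 2)) (ι → ZMod 2)} (h : Φ.Nondeg)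
    (h5 : 5 ≤ Fintype.card ι) : Cfsg.IsThreeTranspositionClass
      {g : Cfsg.isometryGroup (ZMod 2) Φ.Q | (((g : GL ι (ZMod 2)) : Matrix ι ι (ZMod 2)) - 1).rank = 1} := by
  have two : ∀ a : ZMod 2, a ≠ 0 → a = 1 := by decide
  have hD : ∀ g : Cfsg.isometryGroup (ZMod 2) Φ.Q, (((g : GL ι (ZMod 2)) : Matrix ι ι (ZMod 2)) - 1).rank = 1 ↔
      ∃ p, Φ.Q p = 1 ∧ ∀ z, (oEquiv Φ g).1 z = z - (1 * Φ.B z p) • p := fun g => by
    rw [rank_sub_one (oEquiv_apply Φ g)]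
    refine ⟨fun H => ?_, fun ⟨p, hp, e⟩ => h.rank_of (by rintro rfl; simp at hp) one_ne_zero e⟩
    obtain ⟨p, a, ha, -, a0, e⟩ := h.rank_one (oEquiv Φ g).2 H
    obtain rfl := two a a0
    exact ⟨p, ha.symm, fun z => by rw [e, refl_apply, inv_one]⟩
  have hr : ∀ v, Φ.Q v ≠ 0 → (oEquiv Φ).symm ⟨Φ.r v, Φ.r_mem v⟩ ∈
      {g : Cfsg.isometryGroup (ZMod 2) Φ.Q | (((g : GL ι (ZMod 2)) : Matrix ι ι (ZMod 2)) - 1).rank = 1} := fun v hv =>
    (hD _).2 ⟨v, two _ hv, fun z => by rw [MulEquiv.apply_symm_apply, r_apply, two _ hv, inv_one]⟩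
  refine h.t3 (Φ.isom.subtype.comp (oEquiv Φ).toMonoidHom) (Subtype.val_injective.comp (oEquiv Φ).injective)
    (fun g => (oEquiv Φ g).2) (Φ.Q · = 1) one_ne_zero hD (fun p hp => ⟨by rintro rfl; simp at hp, by simp [orth_self, hp]⟩)
    (fun p q _ _ => ?_) (fun g p hp => ((oEquiv Φ g).2.2 p).trans hp) (fun p q hp hq => ?_) ?_ ?_
  · rw [Φ.orth_symm q p]; generalize Φ.B q p = a; revert a; decide
  · obtain ⟨g, hg, e⟩ := h.exists_map (x := p) (y := q) (by rintro rfl; simp at hp) (by rintro rfl; simp at hq) (hp.trans hq.symm)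
    exact ⟨(oEquiv Φ).symm ⟨g, hg⟩, 1, by simp, by simpa using e⟩
  · obtain ⟨v, hv⟩ := h.orth_universal (by simp; omega) 1
    exact ⟨_, hr v (by simp [hv])⟩
  · refine closure_eq_top_of_equiv (oEquiv Φ) (T := {t | ∃ v, Φ.Q v ≠ 0 ∧ t = Φ.r v}) ?_ ?_
    · rw [← h.orth_RG (.inr (by simp; omega))]
      exact RG_le' fun v hv => subset_closure ⟨v, hv, rfl⟩
    · rintro _ ⟨v, hv, rfl⟩
      exact ⟨_, subset_closure (hr v hv), by simp⟩

section refl
variable {F : Type*} [Field F] {V : Type*} [AddCommGroup V] [Module F V] {Φ : Form (Kind.orth F) V}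

variable (Φ) in
/-- The group generated by the reflections in vectors of norm `c`. -/
def Rn (c : F) : Subgroup (V ≃ₗ[F] V) := closure {t | ∃ v, Φ.Q v = c ∧ t = Φ.r v}

theorem r_mem_Rn {c : F} {v : V} (h : Φ.Q v = c) : Φ.r v ∈ Φ.Rn c := subset_closure ⟨v, h, rfl⟩

theorem Rn_le (c : F) : Φ.Rn c ≤ Φ.isom := (closure_le _).2 (by rintro _ ⟨v, -, rfl⟩; exact Φ.r_mem v)

variable [Fintype F] [FiniteDimensional F V]

theorem Nondeg.exists_perp_Q (h : Φ.Nondeg) (h2 : (2 : F) ≠ 0) (h4 : 4 ≤ finrank F V) (y : V) (d : F) :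
    ∃ x, Φ.B x y = 0 ∧ Φ.Q x = d := by
  by_cases y0 : y = 0
  · obtain ⟨x, hx⟩ := h.orth_universal (by omega) d
    exact ⟨x, by simp [y0], hx⟩
  by_cases hy : Φ.Q y = 0
  · obtain ⟨f, hf⟩ := h.exists_hyp hy y0
    obtain ⟨x, hx⟩ := (hf.perp_nondeg h).orth_universal (by have := hf.finrank_perp h; omega) d
    exact ⟨x, (Φ.mem_perp_pair.1 x.2).1, hx⟩
  · obtain ⟨x, hx⟩ := (h.perp_nondeg (res_line_nondeg (v := y) (by simp [orth_self, h2, hy]))).orth_universal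
      (by have := h.finrank_perp_singleton y0; omega) d
    exact ⟨x, Φ.mem_perp_singleton.1 x.2, hx⟩

theorem Nondeg.exists_perp_Q₂ (h : Φ.Nondeg) (h2 : (2 : F) ≠ 0) (h5 : 5 ≤ finrank F V) {v : V} (hv : Φ.Q v ≠ 0) (y : V) (d : F) :
    ∃ x, Φ.B x v = 0 ∧ Φ.B x y = 0 ∧ Φ.Q x = d := by
  have b : Φ.B v v ≠ 0 := by simp [orth_self, h2, hv]
  obtain ⟨x, h1, hx⟩ := (h.perp_nondeg (res_line_nondeg b)).exists_perp_Q h2
    (by have := h.finrank_perp_singleton (v := v) (by rintro rfl; simp at hv); omega)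
    ⟨y - (Φ.B y v / Φ.B v v) • v, Φ.mem_perp_singleton.2 (by simp [b])⟩ d
  have := Φ.mem_perp_singleton.1 x.2
  exact ⟨x, this, by simpa [B_smul_right, this] using h1, hx⟩

theorem Nondeg.Om_le_Rn (h : Φ.Nondeg) (h2 : (2 : F) ≠ 0) (h5 : 5 ≤ finrank F V) {c : F} (hc : c ≠ 0) : Φ.Om ≤ Φ.Rn c := by
  have E := h.Om_eq_EG (by omega) (.inr (by omega))
  have N : ((Φ.Rn c).subgroupOf Φ.EG).Normal := ⟨fun t ht g => conj_mem_closure (g := g.1) (by
    rintro _ ⟨v, hv, rfl⟩; exact ⟨_, ((EG_le_isom g.2).2 v).trans hv, conj_r (EG_le_isom g.2) v⟩) ht⟩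
  rcases h.EG_normal_cases h5 _ N with H | H
  swap
  · exact E ▸ subgroupOf_eq_top.1 H
  obtain ⟨v, hv⟩ := h.orth_universal (by omega) c
  obtain ⟨w, b, -, hw⟩ := h.exists_perp_Q₂ h2 h5 (hv ▸ hc) 0 c
  obtain ⟨x, b1, b2, hx⟩ := h.exists_perp_Q₂ h2 h5 (hv ▸ hc) w c
  have m := h.rr_mem_Om (hv ▸ hc) (hw.trans hv.symm)
  have := H (x := ⟨_, E ▸ m⟩) (mem_subgroupOf.2 (mul_mem (r_mem_Rn hv) (r_mem_Rn hw)))
  obtain ⟨a, ha⟩ := h.scalar_of_comm_EG h5 (Om_le_isom m) fun t ht => (congrArg Subtype.val (mem_center_iff.1 this ⟨t, ht⟩)).symm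
  have e1 := LinearEquiv.congr_fun ha x
  have e2 := LinearEquiv.congr_fun ha v
  rw [LinearEquiv.mul_apply, r_of_perp b2, r_of_perp b1, scal_apply, eq_comm, ← sub_eq_zero, ← one_smul F x, smul_smul,
    ← sub_smul, smul_eq_zero] at e1
  rw [LinearEquiv.mul_apply, r_of_perp (Φ.B_zero_symm b), r_self (hv ▸ hc), scal_apply, eq_comm, ← sub_eq_zero, sub_neg_eq_add,
    ← one_smul F v, smul_smul, ← add_smul, smul_eq_zero] at e2
  rcases e1 with e1 | rfl
  · rcases e2 with e2 | rfl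
    · exact (h2 (by linear_combination e2 - e1)).elim
    · simp [← hv] at hc
  · simp [← hx] at hc

theorem Nondeg.mem_Rn (h : Φ.Nondeg) (h2 : (2 : F) ≠ 0) (h5 : 5 ≤ finrank F V) {c : F} (hc : c ≠ 0) {g : V ≃ₗ[F] V}
    (hg : g ∈ Φ.isom) : g ∈ Φ.Rn c ↔ Φ.ab g = 1 ∨ Φ.ab g = (-1, sgn c) := by
  have G := h.good h2
  refine ⟨fun H => ?_, fun H => ?_⟩
  · clear hg
    induction H using closure_induction_left with
    | one => exact .inl h.ab_one
    | mul_left x hx y hy ih =>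
      obtain ⟨v, rfl, rfl⟩ := hx
      rw [G.ab_mul (Φ.r_mem v) (Rn_le _ hy), h.ab_r hc]
      rcases ih with e | e <;> simp [e, Prod.ext_iff]
    | inv_mul_cancel x hx y hy ih =>
      obtain ⟨v, rfl, rfl⟩ := hx
      rw [r_inv, G.ab_mul (Φ.r_mem v) (Rn_le _ hy), h.ab_r hc]
      rcases ih with e | e <;> simp [e, Prod.ext_iff]
  · rcases H with H | H
    · exact h.Om_le_Rn h2 h5 hc ((G.mem_Om hg).2 H)
    obtain ⟨v, rfl⟩ := h.orth_universal (by omega) c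
    exact (mul_mem_cancel_right (r_mem_Rn rfl)).1 (h.Om_le_Rn h2 h5 hc (G.mul_mem_Om hg (Φ.r_mem v) (H.trans (h.ab_r hc).symm)))

/-- An isometry can be corrected into `Rn c` by a reflection of the other norm. -/
theorem Nondeg.mem_Rn_or (h : Φ.Nondeg) (h2 : (2 : F) ≠ 0) (h5 : 5 ≤ finrank F V) {c : F} (hc : c ≠ 0) {g : V ≃ₗ[F] V}
    (hg : g ∈ Φ.isom) {x : V} (hx : Φ.Q x ≠ 0) (e : sgn (Φ.Q x) = -sgn c) : g ∈ Φ.Rn c ∨ g * Φ.r x ∈ Φ.Rn c := by
  rw [h.mem_Rn h2 h5 hc hg, h.mem_Rn h2 h5 hc (mul_mem hg (Φ.r_mem x)), (h.good h2).ab_mul hg (Φ.r_mem x), h.ab_r hx, e]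
  generalize Φ.ab g = a
  generalize sgn c = s
  revert a s; decide

theorem Nondeg.Rn_trans (h : Φ.Nondeg) (h2 : (2 : F) ≠ 0) (h5 : 5 ≤ finrank F V) {c : F} (hc : c ≠ 0) {v w w' : V}
    (hw0 : Φ.Q w ≠ 0) (hw : w ∉ F ∙ v) (hw' : w' ∉ F ∙ v) (e : Φ.Q w = Φ.Q w') (b : Φ.B v w = Φ.B v w') :
    ∃ g ∈ Φ.Rn c, g v = v ∧ g w = w' := by
  obtain ⟨g, hg, e1, e2⟩ := h.witt_step hw hw' e fun z hz => by
    obtain ⟨a, rfl⟩ := Submodule.mem_span_singleton.1 hz
    simp [b]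
  obtain ⟨d, d0, hd⟩ := exists_sgn h2 (-sgn c)
  obtain ⟨x, b1, b2, rfl⟩ := h.exists_perp_Q₂ h2 h5 hw0 v d
  have e2 := e2 v (Submodule.mem_span_singleton_self v)
  rcases h.mem_Rn_or h2 h5 hc hg d0 hd with H | H
  · exact ⟨g, H, e2, e1⟩
  · exact ⟨_, H, by rw [LinearEquiv.mul_apply, r_of_perp (Φ.B_zero_symm b2), e2],
      by rw [LinearEquiv.mul_apply, r_of_perp (Φ.B_zero_symm b1), e1]⟩

end refl

section bridge
variable {F : Type*} [Field F] {ι : Type} [Fintype ι] [DecidableEq ι] (Φ : Form (Kind.orth F) (ι → F)) (c : F)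

theorem mem_reflectionsOfNorm (g : Cfsg.isometryGroup F Φ.Q) :
    g ∈ Cfsg.reflectionsOfNorm Φ.Q c ↔ ∃ v, Φ.Q v = c ∧ (oEquiv Φ g).1 = Φ.r v :=
  exists_congr fun v => and_congr_right fun _ => ⟨fun h => LinearEquiv.ext fun x => by
    rw [oEquiv_apply, h, reflectionMatrix_mulVec], fun h => matrix_ext_mulVec fun x => by
    rw [← oEquiv_apply, h, reflectionMatrix_mulVec]⟩

theorem mem_reflectionSubgroup (g : Cfsg.isometryGroup F Φ.Q) :
    g ∈ Cfsg.reflectionSubgroup Φ.Q c ↔ (oEquiv Φ g).1 ∈ Φ.Rn c := by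
  have : Φ.Rn c = (Cfsg.reflectionSubgroup Φ.Q c).map (Φ.isom.subtype.comp (oEquiv Φ).toMonoidHom) := by
    rw [Cfsg.reflectionSubgroup, MonoidHom.map_closure, Rn]
    congr 1
    ext t
    refine ⟨fun ⟨v, hv, e⟩ => ⟨(oEquiv Φ).symm ⟨Φ.r v, Φ.r_mem v⟩, (mem_reflectionsOfNorm ..).2 ⟨v, hv, by simp⟩, by simp [e]⟩, ?_⟩
    rintro ⟨g, hg, rfl⟩
    exact (mem_reflectionsOfNorm ..).1 hg
  rw [this]
  exact (mem_map_iff_mem (Subtype.val_injective.comp (oEquiv Φ).injective)).symm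

/-- The reflection subgroup as a group of linear maps. -/
def rnEquiv : Cfsg.reflectionSubgroup Φ.Q c ≃* Φ.Rn c where
  toFun g := ⟨(oEquiv Φ g.1).1, (mem_reflectionSubgroup ..).1 g.2⟩
  invFun t := ⟨(oEquiv Φ).symm ⟨t.1, Rn_le c t.2⟩, (mem_reflectionSubgroup ..).2 (by simp)⟩
  left_inv g := by simp
  right_inv t := by simp
  map_mul' a b := by simp

theorem rnEquiv_coe (g) : (rnEquiv Φ c g).1 = (oEquiv Φ g.1).1 := rfl

end bridge
end Form
end H5
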