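import Cfsg.Agent.H5.Cj9
import Cfsg.Agent.H5.Mx7
/-! Non-maximal stabilizers of tensor decompositions with a small factor. -/
set_option autoImplicit false
namespace H5.As
open Module Matrix Form TensorProduct Cfsg Cfsg.Geo

universe u
variable {ι : Type} [Fintype ι] [DecidableEq ι] {F : Type u} [Field F] {U W : Type u} [AddCommGroup U] [Module F U] [AddCommGroup W] [Module F W]

theorem exists_tens' {a b : ℕ} (e : ι ≃ Fin a × Fin b) (P : GL ι F) : ∃ T : ((Fin a → F) ⊗[F] (Fin b → F)) ≃ₗ[F] (ι → F),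
    (∀ g, g ∈ tensorProductSubgroup a b e P ↔ ∃ A B, glEquiv g = tc T A B) ∧ ∀ u w, T (u ⊗ₜ w) = P.1 *ᵥ ((fun x : Fin a × Fin b => u x.1 * w x.2) ∘ e) := by
  refine ⟨((Pi.basisFun F _).tensorProduct (Pi.basisFun F _)).equivFun.trans (As.cov e P), fun g => As.mem_tensor.trans (glEquiv.exists_congr fun A => glEquiv.exists_congr fun B => ?_), fun u w => ?_⟩
  · rw [← glEquiv.injective.eq_iff]
    refine iff_of_eq (congrArg _ (tc_ext (((Pi.basisFun F _).tensorProduct (Pi.basisFun F _)).equivFun.trans (As.cov e P)) fun v w => ?_))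
    rw [tc_apply]
    simp only [LinearEquiv.trans_apply, glEquiv_apply, As.cog_coe, As.co_mulVec]
    congr 1; ext ⟨i, j⟩
    simp [mulVec, dotProduct, Fintype.sum_prod_type, Finset.sum_mul_sum, mul_comm, mul_left_comm, mul_assoc]
  · rw [LinearEquiv.trans_apply, cov_apply]; congr 2; ext ⟨i, j⟩; simp [mul_comm]

theorem gram_eq {n : ℕ} {σ : F →+* F} (β : (Fin n → F) →ₗ[F] (Fin n → F) →ₛₗ[σ] F) (x y : Fin n → F) : formOfGram σ (gramMatrix fun u v => β u v) x y = β x y := by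
  conv_rhs => rw [← Finset.univ_sum_single x, ← Finset.univ_sum_single y]
  simp only [formOfGram, gramMatrix, map_sum, LinearMap.sum_apply]
  rw [Finset.sum_comm]
  refine Finset.sum_congr rfl fun a _ => Finset.sum_congr rfl fun b _ => ?_
  rw [show Pi.single b (x b) = x b • (Pi.single b 1 : Fin n → F) by simp [← Pi.single_smul], show Pi.single a (y a) = y a • (Pi.single a 1 : Fin n → F) by simp [← Pi.single_smul]]
  simp; ring

theorem tens_form {a b : ℕ} {e : ι ≃ Fin a × Fin b} {P : GL ι F} {σ : F →+* F} {f} (β : (Fin a → F) →ₗ[F] (Fin a → F) →ₛₗ[σ] F) (γ : (Fin b → F) →ₗ[F] (Fin b → F) →ₛₗ[σ] F)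
    (h : IsTensorFormStructure σ f (fun u v => β u v) (fun u v => γ u v) e P) : ∃ T : ((Fin a → F) ⊗[F] (Fin b → F)) ≃ₗ[F] (ι → F),
    (∀ g, g ∈ tensorProductSubgroup a b e P ↔ ∃ A B, glEquiv g = tc T A B) ∧ (∀ u w, T (u ⊗ₜ w) = P.1 *ᵥ ((fun x : Fin a × Fin b => u x.1 * w x.2) ∘ e)) ∧
    ∃ c, c ≠ 0 ∧ ∀ u w u' w', f (T (u ⊗ₜ w)) (T (u' ⊗ₜ w')) = c * (β u u' * γ w w') := by
  obtain ⟨T, h1, h2⟩ := exists_tens' e P
  obtain ⟨c, c0, h⟩ := h
  refine ⟨T, h1, h2, c, c0, fun u w u' w' => ?_⟩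
  rw [h2, h2, h, ← gram_eq β, ← gram_eq γ]
  generalize gramMatrix (fun u v => β u v) = G, gramMatrix (fun u v => γ u v) = G'
  refine congrArg _ ?_
  simp only [formOfGram, Fintype.sum_prod_type, kroneckerMap_apply, map_mul]
  rw [Finset.sum_mul_sum]
  refine Finset.sum_congr rfl fun i _ => Finset.sum_congr rfl fun i _ => ?_
  rw [Finset.sum_mul_sum]
  exact Finset.sum_congr rfl fun k _ => Finset.sum_congr rfl fun l _ => by ring

theorem tmul_inj {u : U} (h : u ≠ 0) {w w' : W} (e : u ⊗ₜ[F] w = u ⊗ₜ w') : w = w' := by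
  obtain ⟨φ, h1, -⟩ := Submodule.exists_le_ker_of_notMem (p := (⊥ : Submodule F U)) (v := u) h
  simpa [h1] using congrArg (TensorProduct.lid F W ∘ φ.rTensor W) e

variable [Fintype F] [FiniteDimensional F U] [FiniteDimensional F W] {k : Kind F} {Φ : Form k (ι → F)} {Ω H : Subgroup (GL ι F)} {d : ℕ} {T : (U ⊗[F] W) ≃ₗ[F] (ι → F)}

omit [Fintype F] in
theorem tc_small {A B} {u v : ι → F} (l : 2 < finrank F W) (h : ∀ x, ∃ a b : F, tc T A B x = x + a • u + b • v) : ∃ B', tc T A B = tc T 1 B' := by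
  obtain ⟨a, rfl⟩ : ∃ a, A = scal U a := by_contra fun n => by
    have := tens_le (T := T) (B := B) (not_exists.1 n)
    have := (Submodule.finrank_mono (show mv (tc T A B) ≤ Submodule.span F {x | x ∈ [u, v]} by
      rintro _ ⟨x, rfl⟩; obtain ⟨a, b, e⟩ := h x
      rw [span_two]; exact Submodule.mem_sup.2 ⟨_, Submodule.smul_mem _ a (Submodule.mem_span_singleton_self _), _, Submodule.smul_mem _ b (Submodule.mem_span_singleton_self _), by simp [e, add_assoc]⟩)).trans (finrank_span_le _)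
    simp at this; omega
  exact ⟨_, by simpa using tc_scal T (B := B) a 1⟩

theorem CG.nm_tens (h : CG Φ Ω d) (hd : d ≤ 3) (hH : ∀ g, g ∈ H ↔ ∃ A B, glEquiv g = tc T A B) {β : U → U → F} {γ : W → W → F} {c : F} (c0 : c ≠ 0)
    (hT : ∀ u w u' w', Φ.B (T (u ⊗ₜ w)) (T (u' ⊗ₜ w')) = c * (β u u' * γ w w')) (hw : ∃ w w', γ w w' ≠ 0) (l : 2 < finrank F W) (l' : finrank F W + 4 ≤ Fintype.card ι)
    {t : ℕ} (t1 : t ≤ 1) (b : Fin (t + 2) → U) (b0 : ∀ i, b i ≠ 0) (b1 : ∀ i ≠ 0, β (b i) (b 0) = 0)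
    (hA : ∀ (A : U ≃ₗ[F] U) (a : F), (∀ u u', β u u' = a * β (A u) (A u')) → ∀ i, ∃ j, ∃ c : F, A (b i) = c • b j) : NM Ω H := by
  let D := LinearMap.range (T.toLinearMap ∘ₗ TensorProduct.mk F U W (b 0))
  have dD : finrank F D = finrank F W := LinearMap.finrank_range_of_inj fun x y e => tmul_inj (b0 0) (T.injective e)
  obtain ⟨u, hu, u0, qu⟩ := h.iso D (by omega)
  obtain ⟨v, hv, v0, bv⟩ := h.nd.exists_perp_not_mem D (F ∙ u) [u] (by have := finrank_line_le (F := F) u; simp; omega)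
  obtain ⟨a, ha⟩ := Φ.Q_range v
  obtain ⟨g, g1, g2⟩ := Form.ex_eich qu (bv u (by simp)) ha
  have fx : ∀ i ≠ 0, ∀ w, g (T (b i ⊗ₜ w)) = T (b i ⊗ₜ w) := fun i e w => by
    obtain ⟨u, rfl⟩ := hu; obtain ⟨v, rfl⟩ := hv
    simp [g2, hT, b1 i e]
  haveI := finite_of_fd (F := F) (V := W)
  haveI := Fintype.ofFinite W
  have q2 := Fintype.one_lt_card (α := F)
  refine nm_set h.mem h.big (H' := H.map glEquiv.toMonoidHom) (fun g => (Subgroup.mem_map_iff_mem (f := glEquiv.toMonoidHom) glEquiv.injective).symm)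
    (S := Set.range fun p : Fin (t + 2) × W => T (b p.1 ⊗ₜ p.2)) (v := u) (hu.elim fun w e => ⟨(0, w), e⟩) u0 ?_ ?_ g1 ?_ ?_
  · rw [← Set.image_univ]
    refine (Set.ncard_image_le (Set.toFinite _)).trans_lt ?_
    rw [Set.ncard_univ, Nat.card_eq_fintype_card, Fintype.card_prod, Fintype.card_fin, Module.card_eq_pow_finrank (K := F) (V := W)]
    refine lt_of_lt_of_le ?_ (Nat.pow_le_pow_right (by omega) (show 2 + finrank F W ≤ _ by omega))
    rw [pow_add]; exact Nat.mul_lt_mul_of_pos_right (by nlinarith) (by positivity)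
  · rintro _ ⟨x, hx, rfl⟩ k _ ⟨⟨i, w⟩, rfl⟩
    obtain ⟨A, B, e⟩ := (hH x).1 hx
    obtain ⟨w₁, w₂, hw⟩ := hw
    replace k := fun u u' => isom_B (EG_le_isom k) (T (u ⊗ₜ w₁)) (T (u' ⊗ₜ w₂))
    simp only [MulEquiv.toMonoidHom_eq_coe, MonoidHom.coe_coe, e, tc_apply, hT, mul_right_inj' c0] at k ⊢
    obtain ⟨j, c, e⟩ := hA A (γ (B w₁) (B w₂) / γ w₁ w₂) (fun u u' => by field_simp; linear_combination - k u u') i
    exact ⟨(j, c • B w), by simp [e, smul_tmul]⟩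
  · rintro _ ⟨⟨i, w⟩, rfl⟩
    by_cases e : i = 0
    · subst e
      obtain ⟨w', e⟩ : g (T (b 0 ⊗ₜ w)) ∈ D := by rw [g2]; exact D.sub_mem (D.add_mem ⟨w, rfl⟩ (D.smul_mem _ hv)) (D.smul_mem _ hu)
      exact ⟨(0, w'), e⟩
    · exact ⟨(i, w), (fx i e w).symm⟩
  · rintro ⟨x, hx, e⟩
    obtain ⟨A, B, e'⟩ := (hH x).1 hx
    obtain rfl : tc T A B = g := e'.symm.trans e
    obtain ⟨B, e⟩ := tc_small l fun x => ⟨_, _, by rw [g2, sub_eq_add_neg, ← neg_smul, add_right_comm]⟩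
    obtain rfl : B = 1 := LinearEquiv.ext fun w => tmul_inj (b0 1) (T.injective (by simpa [e] using fx 1 (by simp) w))
    rw [e, show tc T 1 1 = 1 from tc_ext T (by simp)] at g2
    refine u0 (h.nd u fun x => by_contra fun n => v0 (Submodule.mem_span_singleton.2 ⟨(Φ.B x u)⁻¹ * (k.ε * (Φ.B x v + a * Φ.B x u)), ?_⟩))
    rw [mul_smul, inv_smul_eq_iff₀ n]
    exact (sub_eq_zero.1 (by simpa [add_sub_assoc] using (g2 x).symm)).symm

theorem frame_three (hq : Fintype.card F = 3) {f : (Fin 3 → F) → (Fin 3 → F) → F} (hf : IsSymmetricForm f) : ∃ b : Fin (1 + 2) → Fin 3 → F, (∀ i, b i ≠ 0) ∧ (∀ i ≠ 0, f (b i) (b 0) = 0) ∧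
    ∀ (A : (Fin 3 → F) ≃ₗ[F] (Fin 3 → F)) (a : F), (∀ u u', f u u' = a * f (A u) (A u')) → ∀ i, ∃ j, ∃ c : F, A (b i) = c • b j := by
  have h2 : (2 : F) ≠ 0 := two_ne_zero_of_odd (by rw [hq]; decide)
  have h3 : (1 : F) + 1 + 1 = 0 := by simpa [hq, ← two_add_one_eq_three, ← one_add_one_eq_two] using FiniteField.cast_card_eq_zero F
  let Ψ := ofQuadFun (fun v => f v v) ((2 : F) • LinearMap.mk₂ F f hf.1.1 hf.1.2 hf.1.3 hf.1.4) (fun c x => by rw [hf.1.2, hf.1.4, mul_assoc]) fun x y => by simp [hf.1.1, hf.1.3, hf.2 y x]; ring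
  obtain ⟨T, c, c0, hT⟩ := Form.odd_sim (Ψ := Ψ) (nd_sumsq (κ := Fin 3) h2) (fun y hy => by_contra fun h => (hf.3 y h).1.elim fun x k => k ((mul_eq_zero.1 (hy x)).resolve_left h2)) (m := 1) (by simp) (by simp)
  replace hT : ∀ x y, f (T x) (T y) = c * ∑ i, x i * y i := fun x y => mul_left_cancel₀ h2 ((Form.B_of_sim (e := T.toLinearMap) hT x y).trans (by simp [fA_B, Fin.sum_univ_three]; ring))
  refine ⟨fun i => T (Pi.single i 1), fun i => by simp, fun i e => by simp [hT, Pi.single_apply, e, e.symm], fun A a h i => ?_⟩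
  choose X hX using fun i => T.surjective (A (T (Pi.single i 1)))
  replace h : ∀ i j, a * ∑ l, X i l * X j l = if i = j then 1 else 0 := fun i j => mul_left_cancel₀ c0 (by
    rw [mul_left_comm, ← hT, hX, hX, ← h, hT]; simp [Pi.single_apply, eq_comm])
  have a0 : a ≠ 0 := by rintro rfl; simpa using h 0 0
  obtain rfl | rfl := mul_self_eq_one_iff.1 ((sq_three hq a).resolve_left a0)
  · obtain ⟨j, hj⟩ : ∃ j, ∀ l ≠ j, X i l = 0 := by
      have hx := h i i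
      rcases sq_three hq (X i 0) with e0 | e0 <;> rcases sq_three hq (X i 1) with e1 | e1 <;> rcases sq_three hq (X i 2) with e2 | e2 <;>
        simp_all [Fin.sum_univ_three, Fin.exists_fin_succ, Fin.forall_fin_succ]
    refine ⟨j, X i j, ?_⟩
    rw [← hX, ← map_smul]; congr 1; ext l
    by_cases e : l = j <;> simp [e, hj l]
  have := congrArg det (show of X * (of X)ᵀ = -1 by ext i j; rw [neg_apply, one_apply, ← h]; simp [mul_apply])
  rw [det_mul, det_transpose, det_neg] at this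
  rw [show ((-1 : F) ^ Fintype.card (Fin (1 + 2)) * det (1 : Matrix (Fin (1 + 2)) (Fin (1 + 2)) F)) = -1 by simp; ring] at this
  rcases sq_three hq (of X).det with e | e <;> rw [e] at this
  exacts [absurd this (by simp), absurd (by linear_combination this) h2]

theorem frame_two (hF : Fintype.card F = 2 ^ 2) {Ψ : Form (unitK hF) (Fin 2 → F)} (n : Ψ.Nondeg) : ∃ b : Fin (0 + 2) → Fin 2 → F, (∀ i, b i ≠ 0) ∧ (∀ i ≠ 0, Ψ.B (b i) (b 0) = 0) ∧
    ∀ (A : (Fin 2 → F) ≃ₗ[F] (Fin 2 → F)) (a : F), (∀ u u', Ψ.B u u' = a * Ψ.B (A u) (A u')) → ∀ i, ∃ j, ∃ c : F, A (b i) = c • b j := by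
  have h1 : ∀ a : F, a ≠ 0 → a * conj hF a = 1 := fun a ha => by rw [norm_eq_pow, ← FiniteField.pow_card_sub_one_eq_one a ha, hF]; rfl
  have h2 : (1 : F) + 1 = 0 := by
    have := FiniteField.cast_card_eq_zero F
    rw [hF] at this; push_cast at this; rw [one_add_one_eq_two]; exact pow_eq_zero_iff two_ne_zero |>.1 (by linear_combination this)
  obtain ⟨T, hT⟩ := Form.unit_iso (hermF_nondeg 2 hF) n rfl
  replace hT : ∀ u v, Ψ.B (T u) (T v) = ∑ a, u a * conj hF (v a) := hT.1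
  refine ⟨fun i => T (Pi.single i 1), fun i => by simp, fun i e => by simp [hT, Pi.single_apply, e, e.symm], fun A a h i => ?_⟩
  obtain ⟨y, hy⟩ := T.surjective (A (T (Pi.single i 1)))
  have q := h (T (Pi.single i 1)) (T (Pi.single i 1))
  rw [← hy, hT, hT, Fin.sum_univ_two (fun a => y a * _)] at q
  rw [← hy]
  by_cases h0 : y 0 = 0
  · exact ⟨1, y 1, by rw [← map_smul]; congr 1; ext i; fin_cases i <;> simp [h0]⟩
  · have : y 1 = 0 := by_contra fun h4 => by simp [h1 _ h0, h1 _ h4, h2, Pi.single_apply] at q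
    exact ⟨0, y 0, by rw [← map_smul]; congr 1; ext i; fin_cases i <;> simp [this]⟩

omit [Fintype F] in
theorem ex_ne {n : ℕ} (h : 0 < n) {f : (Fin n → F) → (Fin n → F) → F} (hf : IsNondegenerateForm f) : ∃ w w', f w w' ≠ 0 :=
  ⟨_, (hf (Pi.single ⟨0, h⟩ 1) (by simp)).2⟩

theorem CG.nm_o3 {Φ : Form (.orth F) (ι → F)} (h : CG Φ Ω 3) (hq : Fintype.card F = 3) {n : ℕ} (h2 : 3 < n) {e : ι ≃ Fin 3 × Fin n} {P : GL ι F} {f₁ f₂} (hf₁ : IsSymmetricForm f₁) (hf₂ : IsSymmetricForm f₂)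
    (hT : IsTensorFormStructure id (QuadraticMap.polar Φ.Q) f₁ f₂ e P) : NM Ω (tensorProductSubgroup 3 n e P) := by
  obtain ⟨T, hH, -, c, c0, hT⟩ := tens_form (σ := .id F) (LinearMap.mk₂ F f₁ hf₁.1.1 hf₁.1.2 hf₁.1.3 hf₁.1.4) (LinearMap.mk₂ F f₂ hf₂.1.1 hf₂.1.2 hf₂.1.3 hf₂.1.4) hT
  obtain ⟨b, b0, b1, hA⟩ := frame_three hq hf₁
  exact h.nm_tens le_rfl hH (β := f₁) (γ := f₂) c0 (fun _ _ _ _ => (Φ.orth_polar ..).symm.trans (hT ..)) (ex_ne (by omega) hf₂.3) (by simp; omega) (by simp [Fintype.card_congr e]; omega) le_rfl b b0 b1 hA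

end H5.As
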