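import Cfsg.Agent.H5.Tm
/-! Non-maximal stabilizers of tensor decompositions with a two-dimensional factor over the field with two elements. -/
set_option autoImplicit false
namespace H5.As
open Module Matrix Form TensorProduct Cfsg Cfsg.Geo

universe u
variable {ι : Type} [Fintype ι] [DecidableEq ι] {F : Type u} [Field F] [Fintype F] {W : Type u} [AddCommGroup W] [Module F W]
  {Ω H : Subgroup (GL ι F)} {G : Subgroup ((ι → F) ≃ₗ[F] (ι → F))} {T : ((Fin 2 → F) ⊗[F] W) ≃ₗ[F] (ι → F)} (hq : Fintype.card F = 2)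
include hq

theorem two_add : (1 : F) + 1 = 0 := by simpa [hq, ← one_add_one_eq_two] using FiniteField.cast_card_eq_zero F

theorem exists_om : ∃ ω : (Fin 2 → F) ≃ₗ[F] (Fin 2 → F), (∀ x, ω x = ![x 1, x 0 + x 1]) ∧ (∀ x, ω (ω x) = ω x + x) ∧ ∀ A, A * ω * A⁻¹ = ω ∨ A * ω * A⁻¹ = ω⁻¹ := by
  have h2 := two_add hq
  have h3 : ∀ a : F, a + a = 0 := fun a => by linear_combination a * h2
  let ω : (Fin 2 → F) ≃ₗ[F] (Fin 2 → F) := ⟨⟨⟨fun x => ![x 1, x 0 + x 1], fun x y => by ext i; fin_cases i <;> simp; ring⟩, fun c x => by ext i; fin_cases i <;> simp; ring⟩, fun x => ![x 1 - x 0, x 0],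
    fun x => by ext i; fin_cases i <;> simp, fun x => by ext i; fin_cases i <;> simp⟩
  have o : ∀ x, ω (ω x) = ω x + x := fun x => by ext i; fin_cases i <;> simp [ω] <;> ring
  refine ⟨ω, fun _ => rfl, o, fun A => ?_⟩
  have h : ∀ x, (A * ω * A⁻¹) ((A * ω * A⁻¹) x) = (A * ω * A⁻¹) x + x := fun x => by simp [o]
  generalize A * ω * A⁻¹ = η at h
  have e : ∀ x, η x = x 0 • η ![1, 0] + x 1 • η ![0, 1] := fun x => by rw [← map_smul, ← map_smul, ← map_add]; congr 1; ext i; fin_cases i <;> simp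
  have h0 := h ![1, 0]
  have h1 := h ![0, 1]
  rw [e (η _)] at h0 h1
  generalize η ![1, 0] = a, η ![0, 1] = b at e h0 h1
  have c : ∀ a : F, a = 0 ∨ a = 1 := fun a => (em _).imp_right (eq_one_of_card (by omega))
  suffices (a 0 = 0 ∧ a 1 = 1 ∧ b 0 = 1 ∧ b 1 = 1) ∨ (a 0 = 1 ∧ a 1 = 1 ∧ b 0 = 1 ∧ b 1 = 0) from this.imp (fun ⟨k, l, m, n⟩ => LinearEquiv.ext fun x => by rw [e]; ext i; fin_cases i <;> simp [ω, k, l, m, n])
    fun ⟨k, l, m, n⟩ => eq_inv_of_mul_eq_one_right (LinearEquiv.ext fun x => by rw [LinearEquiv.mul_apply, e]; ext i; fin_cases i <;> simp [ω, k, l, m, n]; linear_combination h3 (x 0))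
  have h00 := congrFun h0 0
  have h01 := congrFun h0 1
  have h11 := congrFun h1 1
  rcases c (a 0) with k | k <;> rcases c (a 1) with l | l <;> rcases c (b 0) with m | m <;> rcases c (b 1) with n | n <;> simp [k, l, m, n, h2] at h00 h01 h11 ⊢

variable [FiniteDimensional F W]

theorem nm_om (hΩ : ∀ g, g ∈ Ω ↔ glEquiv g ∈ G) (hH : ∀ g, g ∈ H ↔ ∃ A B, glEquiv g = tc T A B) (l : 2 < finrank F W)
    (h : ∀ w : (ι → F) ≃ₗ[F] (ι → F), (∀ x, w (w x) = w x + x) → (∀ u x, w (T (u ⊗ₜ x)) = T (![u 1, u 0 + u 1] ⊗ₜ x)) → (∃ g ∈ G, (∀ x, g (w x) = w (g x)) ∧ (∃ u v, ∀ x, ∃ a b : F, g x = x + a • u + b • v) ∧ ∀ B, g ≠ tc T 1 B) ∧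
      ∃ t ∈ G, (∃ x ≠ 0, t x = x ∧ t (w x) = w x) ∧ ∃ y, t y = y ∧ t (w y) ≠ w y) : NM Ω H := by
  obtain ⟨ω, o1, o2, o3⟩ := exists_om hq
  have o4 : ∀ x, tc T ω 1 (tc T ω 1 x) = tc T ω 1 x + x := T.surjective.forall.2 fun x => by clear o1 o3 h hH hΩ; induction x <;> simp_all [add_tmul, add_add_add_comm]
  obtain ⟨⟨g, g1, g2, ⟨u, v, g3⟩, g4⟩, t, t1, ⟨x, x0, t2, t3⟩, y, t4, t5⟩ := h (tc T ω 1) o4 (by simp [o1])
  have k : ∀ A B, tc T A B * tc T ω 1 * (tc T A B)⁻¹ = tc T ω 1 ∨ tc T A B * tc T ω 1 * (tc T A B)⁻¹ = (tc T ω 1)⁻¹ := fun A B => (o3 A).imp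
    (fun e => mul_inv_eq_of_eq_mul (tc_ext T fun u w => by simpa using congrArg (fun x => T (x ⊗ₜ B w)) (LinearEquiv.congr_fun (mul_inv_eq_iff_eq_mul.1 e) u)))
    fun e => mul_inv_eq_of_eq_mul (eq_inv_mul_of_mul_eq (tc_ext T fun u w => by simpa using congrArg (fun x => T (x ⊗ₜ B w)) (LinearEquiv.congr_fun (eq_inv_mul_iff_mul_eq.1 (mul_inv_eq_iff_eq_mul.1 e)) u)))
  generalize tc T ω 1 = w at *
  let M : Subgroup ((ι → F) ≃ₗ[F] (ι → F)) := ⟨⟨⟨{g | MulAut.conj g w = w ∨ MulAut.conj g w = w⁻¹}, fun {a b} ha hb => by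
    rcases hb with hb | hb <;> rcases ha with ha | ha <;> simp only [Set.mem_ofPred_eq, map_mul, MulAut.mul_apply, hb, ha, map_inv, inv_inv, true_or, or_true]⟩, .inl (by simp)⟩, fun {a} ha =>
    ha.imp (fun e => by rw [map_inv, MulAut.inv_apply, MulEquiv.symm_apply_eq, e]) fun e => by rw [map_inv, MulAut.inv_apply, MulEquiv.symm_apply_eq, map_inv, e, inv_inv]⟩
  refine nm_of hΩ (H' := H.map glEquiv.toMonoidHom) (fun g => (Subgroup.mem_map_iff_mem (f := glEquiv.toMonoidHom) glEquiv.injective).symm) (M := M) ?_ g1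
    (.inl (mul_inv_eq_of_eq_mul (LinearEquiv.ext g2))) ?_ fun e => ?_
  · rintro _ ⟨⟨x, hx, rfl⟩, -⟩
    obtain ⟨A, B, e⟩ := (hH x).1 hx
    exact e ▸ k A B
  · rintro ⟨x, hx, e⟩
    obtain ⟨A, B, e'⟩ := (hH x).1 hx
    obtain rfl : tc T A B = g := e'.symm.trans e
    exact (tc_small l g3).elim g4
  rcases (by simpa using e (glEquiv.symm t) ((hΩ _).2 (by simpa)) : t ∈ M) with e | e
  · exact t5 (by simpa [t4] using LinearEquiv.congr_fun (mul_inv_eq_iff_eq_mul.1 e) y)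
  · exact x0 (by simpa [t2, t3, o4] using LinearEquiv.congr_fun (eq_inv_mul_iff_mul_eq.1 (mul_inv_eq_iff_eq_mul.1 e)) x)

omit hq [Fintype F] [FiniteDimensional F W] [DecidableEq ι] [Fintype ι] in
theorem ex_fn (α : Dual F (Fin 2 → F)) (β : Dual F W) : ∃ φ : Dual F (ι → F), ∀ u w, φ (T (u ⊗ₜ w)) = α u * β w :=
  ⟨TensorProduct.lift ((LinearMap.mul F F).compl₁₂ α β) ∘ₗ T.symm.toLinearMap, by simp⟩

theorem nm_SL_om {n : ℕ} (l : 2 < n) (e : ι ≃ Fin 2 × Fin n) (P : GL ι F) : NM (specialLinear ι F) (tensorProductSubgroup 2 n e P) := by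
  obtain ⟨T, hH, -⟩ := exists_tens' e P
  obtain ⟨n, rfl⟩ : ∃ m, n = m + 2 := ⟨n - 2, by omega⟩
  obtain ⟨φ, hφ⟩ := ex_fn (T := T) (.proj 1) (.proj 0)
  obtain ⟨ψ, hψ⟩ := ex_fn (T := T) (.proj 1) (.proj 1)
  have a : φ (T (![1, 0] ⊗ₜ Pi.single 1 1)) = 0 := by simp [hφ]
  have v0 : T (![1, 0] ⊗ₜ Pi.single 1 1) ≠ 0 := fun z => by simpa using tmul_inj (F := F) (u := ![(1 : F), 0]) (by simp) (T.injective (z.trans (by simp : _ = T (_ ⊗ₜ 0))))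
  refine nm_om hq mem_SL_up hH (by simp; omega) fun w w1 w2 => ?_
  have b : φ (w (T (![1, 0] ⊗ₜ Pi.single 1 1))) = 0 := by simp [hφ, w2]
  have c : (φ ∘ₗ w.toLinearMap) (w (T (![1, 0] ⊗ₜ Pi.single 1 1))) = 0 := by simp [w1, a, b]
  refine ⟨⟨_, mul_mem (tv_mem_SLG a) (tv_mem_SLG c), fun x => ?_, ⟨_, _, fun x => ⟨_, _, rfl⟩⟩, fun B e => ?_⟩, _, tv_mem_SLG a, ⟨_, v0, ?_, ?_⟩, T (![1, 0] ⊗ₜ Pi.single 0 1), ?_, ?_⟩
  · simp [LinearEquiv.transvection.apply, LinearMap.transvection.apply, w1, b, add_smul]; abel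
  · simpa [LinearEquiv.transvection.apply, LinearMap.transvection.apply, w2, hφ, hψ] using congrArg ψ (LinearEquiv.congr_fun e (T (![1, 0] ⊗ₜ Pi.single 0 1)))
  all_goals simp [LinearEquiv.transvection.apply, LinearMap.transvection.apply, w2, hφ, v0]

theorem CG.nm_o2 {Φ : Form (.orth F) (ι → F)} {d : ℕ} (h : CG Φ Ω d) {n : ℕ} (l : 2 < n) {e : ι ≃ Fin 2 × Fin n} {P : GL ι F} {f₁ f₂} (hf₁ : IsSymplecticForm f₁) (hf₂ : IsSymplecticForm f₂)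
    (hT : IsTensorFormStructure id (QuadraticMap.polar Φ.Q) f₁ f₂ e P) (hp : ∀ (x₁ : Fin 2 → F) (x₂ : Fin n → F), Φ.Q (P.1 *ᵥ ((fun a : Fin 2 × Fin n => x₁ a.1 * x₂ a.2) ∘ e)) = 0) :
    NM Ω (tensorProductSubgroup 2 n e P) := by
  let Ψ := ofAlt (LinearMap.mk₂ F f₂ hf₂.1.1 hf₂.1.2 hf₂.1.3 hf₂.1.4) hf₂.3
  have nd : Ψ.Nondeg := fun y hy => by_contra fun h => (hf₂.4 y h).1.elim fun x k => k (hy x)
  obtain ⟨T, hH, h2, c, c0, hT⟩ := tens_form (σ := .id F) (LinearMap.mk₂ F f₁ hf₁.1.1 hf₁.1.2 hf₁.1.3 hf₁.1.4) Ψ.B hT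
  simp only [← h2] at hp
  clear h2
  obtain ⟨δ, f1⟩ : ∃ δ, ∀ u u', f₁ u u' = δ * (u 0 * u' 1 - u 1 * u' 0) := ⟨f₁ (Pi.single 0 1) (Pi.single 1 1), fun u u' =>
    (gram_eq (σ := .id F) (LinearMap.mk₂ F f₁ hf₁.1.1 hf₁.1.2 hf₁.1.3 hf₁.1.4) u u').symm.trans (by simp [formOfGram, gramMatrix, hf₁.3, hf₁.2 (Pi.single 1 1)]; ring)⟩
  have δ0 : δ ≠ 0 := by rintro rfl; simpa [f1] using ex_ne two_pos hf₁.4
  replace hT : ∀ u w u' w', Φ.B (T (u ⊗ₜ w)) (T (u' ⊗ₜ w')) = c * (δ * (u 0 * u' 1 - u 1 * u' 0) * Ψ.B w w') := fun _ _ _ _ => by rw [← Φ.orth_polar, hT, ← f1]; rfl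
  obtain ⟨y, b, yb⟩ : ∃ y b, Ψ.B y b ≠ 0 := ex_ne (by omega) hf₂.4
  obtain ⟨a, -, a0, ab⟩ := nd.exists_perp_not_mem ⊤ (F ∙ b) [b] (by have := finrank_line_le (F := F) b; simp; omega)
  replace ab := ab b (by simp)
  have ba : Ψ.B b a = 0 := by rw [Ψ.B_symm, ab]; simp
  have al : ∀ x, Ψ.B x x = 0 := hf₂.3
  obtain ⟨lm, l1, l2⟩ := exists_dual a0
  replace l2 := l2 b (Submodule.mem_span_singleton_self b)
  obtain ⟨φ, hφ⟩ := ex_fn (T := T) (.proj 1) lm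
  obtain ⟨ψ, hψ⟩ := ex_fn (T := T) (.proj 0) lm
  refine nm_om hq h.mem hH (by simpa) fun w w1 w2 => ?_
  have wB : ∀ x y, Φ.B (w x) (w y) = Φ.B x y := T.surjective.forall₂.2 fun x y => by
    induction x with
    | zero => simp
    | add => simp [*]
    | tmul u v => induction y with
      | zero => simp
      | add _ _ i j => simp only [map_add, i, j]
      | tmul u' v' => rw [w2, w2, hT, hT]; simp only [cons_val_zero, cons_val_one]; linear_combination (c * δ * Ψ.B v v' * (u 1 * u' 0 - u 0 * u' 1)) * two_add hq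
  obtain ⟨g, g1, g2⟩ := Form.ex_eich (Φ := Φ) (u := T (![1, 0] ⊗ₜ a) + T (![0, 1] ⊗ₜ b)) (v := w (T (![1, 0] ⊗ₜ a) + T (![0, 1] ⊗ₜ b))) (a := 0) (by simp [orth_add, hp, hT, ab])
    (by simp [w2, hT, ab, ba, al]) (by simp [w2, orth_add, hp, hT, ab])
  obtain ⟨t, t1, t2⟩ := Form.ex_eich (Φ := Φ) (u := T (![1, 0] ⊗ₜ a)) (v := T (![1, 0] ⊗ₜ b)) (a := 0) (hp ..) (by simp [hT]) (by simp [hp])
  refine ⟨⟨g, g1, fun x => ?_, ⟨_, _, fun x => ⟨_, _, by rw [g2, sub_eq_add_neg, ← neg_smul]⟩⟩, fun B e => ?_⟩, t, t1, ⟨T (![1, 0] ⊗ₜ a), fun z => ?_, ?_, ?_⟩, T (![1, 0] ⊗ₜ y), ?_, fun z => ?_⟩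
  · generalize T (![1, 0] ⊗ₜ a) + T (![0, 1] ⊗ₜ b) = u at g2
    have : Φ.B (w x) u = Φ.B x (w u) - Φ.B x u := by rw [← wB x, ← wB x, w1 u]; simp
    simp only [g2, map_add, map_sub, map_smul, wB, w1, this, Kind.orth_ε]
    linear_combination (norm := module) two_add hq • ((Φ.B x (w u) - Φ.B x u) • w u - Φ.B x u • u)
  · simpa [g2, w2, hφ, hT, l1, l2, c0, δ0, yb] using congrArg φ (LinearEquiv.congr_fun e (T (![1, 0] ⊗ₜ y)))
  · simpa [hψ, l1] using congrArg ψ z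
  · simp [t2, hT]
  · simp [t2, w2, hT, al, ab]
  · simp [t2, hT]
  · simpa [t2, w2, hψ, hT, l1, l2, c0, δ0, yb] using congrArg ψ z

end H5.As
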