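import Cfsg.Agent.H5.Tm
import Cfsg.Agent.H5.Se2
/-! Elements of prime order of `PSp` and stabilizers of tensor decompositions symplectic ⊗ orthogonal. -/
set_option autoImplicit false
namespace H5
open Module Pointwise Matrix Form TensorProduct

universe u
variable {F : Type u} [Field F] [Fintype F] {V U W : Type u} [AddCommGroup V] [Module F V] [FiniteDimensional F V] [AddCommGroup U] [Module F U] [FiniteDimensional F U]
  [AddCommGroup W] [Module F W] [FiniteDimensional F W] {r : ℕ} {H : Subgroup (V ≃ₗ[F] V)} {A : U ≃ₗ[F] U} {B : W ≃ₗ[F] W} {T : (U ⊗[F] W) ≃ₗ[F] V} [hr : Fact r.Prime]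

theorem tens_le2 (r0 : (r : F) ≠ 0) (d : ¬ r ∣ Fintype.card F ^ 2 - 1) (a1 : A ≠ 1) (a2 : A ^ r = 1) : 2 * finrank F W ≤ finrank F (mv (tc T A B)) := by
  obtain ⟨v, hv⟩ : ∃ v, A v ≠ v := by_contra fun k => a1 (LinearEquiv.ext (by simpa using k))
  have m : ∀ x ∈ [v, A v], x ∈ Submodule.span F {x | x ∈ [v, A v]} := fun x h => Submodule.subset_span h
  have n : v ∉ (Submodule.span F {x | x ∈ [v, A v]}).map (A : U →ₗ[F] U) := fun k => by
    have e := Submodule.eq_of_le_of_finrank_eq (S₁ := Submodule.span F {x | x ∈ [v, A v]}) (Submodule.span_le.2 fun x h => by rcases (by simpa using h : x = v ∨ x = A v) with rfl | rfl; exacts [k, map_mem_map A (m _ (by simp))]) (finrank_map_equiv _ A).symm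
    have i : ∀ x ∈ Submodule.span F {x | x ∈ [v, A v]}, A x ∈ Submodule.span F {x | x ∈ [v, A v]} := fun x h => e.ge (map_mem_map A h)
    have o := orderOf_dvd_natCard (resAut A _ i)
    obtain ⟨j, hj⟩ := card_aut' (F := F) (V := Submodule.span F {x | x ∈ [v, A v]})
    rw [orderOf_eq_prime (p := r) (by simpa using res_scal (z := 1) (by simpa using a2) i) fun z => hv (congrArg Subtype.val (LinearEquiv.congr_fun z ⟨v, m v (by simp)⟩)), hj] at o
    rcases hr.out.dvd_mul.1 o with o | o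
    · obtain ⟨p, _, _, pp, e⟩ := FiniteField.card' F
      rw [e, ← pow_mul] at o
      exact r0 (((Nat.prime_dvd_prime_iff_eq hr.out pp).1 (hr.out.dvd_of_dvd_pow o)) ▸ CharP.cast_eq_zero F p)
    obtain ⟨l, hl, o⟩ := (Prime.dvd_finsetProd_iff hr.out.prime _).1 o
    have := (Finset.mem_range.1 hl).trans_le (finrank_span_le _)
    exact d (o.trans (Nat.pow_sub_one_dvd_pow_sub_one _ (by simp at this; interval_cases l <;> decide)))
  obtain ⟨φ, h1, h2⟩ := exists_dual n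
  obtain ⟨ψ, h3, h4⟩ := exists_dual (W := F ∙ A (A v)) (x := A v) fun k => by
    obtain ⟨c, e⟩ := Submodule.mem_span_singleton.1 k
    exact n ((congrArg (· ∈ _) (A.injective ((map_smul ..).trans e))).mp (Submodule.smul_mem _ c (map_mem_map A (m v (by simp)))))
  rw [tc, mv_autCongr, two_mul, ← finrank_prod]
  refine (LinearMap.finrank_range_of_inj (f := nl (congr A B) ∘ₗ (TensorProduct.mk F U W v).coprod (TensorProduct.mk F U W (A v))) ((injective_iff_map_eq_zero _).2 fun ⟨w, w'⟩ hw => ?_)).ge.trans (Submodule.finrank_mono (LinearMap.range_comp_le_range ..))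
  obtain rfl : w = 0 := by simpa [h1, h2 _ (map_mem_map A (m v (by simp))), h2 _ (map_mem_map A (m (A v) (by simp)))] using congrArg (TensorProduct.lid F W ∘ φ.rTensor W) hw
  simpa [h3, h4 _ (Submodule.mem_span_singleton_self _)] using congrArg (TensorProduct.lid F W ∘ ψ.rTensor W) hw

theorem tsp_iff {Φ : Form (.symp F) V} {Ψ : Form (.symp F) U} {Θ : Form (.orth F) W} (n : Φ.Nondeg) (n₁ : Ψ.Nondeg) (n₂ : Θ.Nondeg) (h2 : (2 : F) ≠ 0) (hH : ∀ g, g ∈ H ↔ ∃ A B, g = tc T A B) {κ : F} (κ0 : κ ≠ 0)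
    (hT : ∀ u w u' w', Φ.B (T (u ⊗ₜ w)) (T (u' ⊗ₜ w')) = κ * (Ψ.B u u' * Θ.B w w')) (a2 : 2 ≤ finrank F U) (b3 : 3 ≤ finrank F W) (d : r ∣ H.relIndex Φ.isom) :
    ElG Φ.isom r (fun x => ∃ t ∈ Φ.isom, t⁻¹ * x * t ∈ H) ↔ r = 2 ∧ finrank F U = 2 := by
  have dm : finrank F V = finrank F U * finrank F W := by rw [← T.finrank_eq, finrank_tensorProduct]
  have n6 : 2 * finrank F W ≤ finrank F V := dm ▸ Nat.mul_le_mul_right _ a2
  have n4 : 4 ≤ finrank F V := by omega
  haveI : Nontrivial U := nontrivial_of_finrank_pos (R := F) (by omega)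
  haveI : Nontrivial W := nontrivial_of_finrank_pos (R := F) (by omega)
  have mem : ∀ A ∈ Ψ.isom, ∀ B ∈ Θ.isom, tc T A B ∈ Φ.isom := fun A a B b => (mem_isom_symp _).2 (T.surjective.forall₂.2 fun x y => by
    induction x with
    | zero => simp
    | add _ _ i j => simp only [map_add, LinearMap.add_apply, i, j]
    | tmul u v => induction y with
      | zero => simp
      | add _ _ i j => simp only [map_add, i, j]
      | tmul u' v' => simp [hT, isom_B a, isom_B b])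
  have sm : ∀ g, (∃ t ∈ Φ.isom, t⁻¹ * g * t ∈ H) → finrank F (mv g) < finrank F W → finrank F U ∣ finrank F (mv g) := fun g ⟨t, t1, h⟩ l => by have := tens_small hH ⟨t, n.symp_det t1, h⟩ l 1; rwa [map_one, mul_one] at this
  obtain ⟨p, _, _, pp, -⟩ := FiniteField.card' F
  haveI := Fact.mk pp
  by_cases rp : r = p
  · subst rp
    obtain ⟨g, g1, g2, g3⟩ := symp_transv n r (by omega)
    refine iff_of_false (fun E => ?_) fun ⟨e, _⟩ => h2 ((two_iff r).2 e)
    have := Nat.dvd_one.1 (g3 ▸ sm g (E g g1 ⟨1, by simpa⟩ (ne_scal (by omega) (by omega))) (by omega)); omega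
  have r0 := cast_ne (F := F) p hr.out rp
  by_cases r2 : r = 2
  · subst r2
    by_cases a : finrank F U = 2; swap
    · obtain ⟨W, w1, w2⟩ := n.exists_nd (a := 1) (by omega)
      obtain ⟨g, g1, g2, g3⟩ := n.exists_neg' h2 w1
      refine iff_of_false (fun E => ?_) fun h => a h.2
      have := Nat.le_of_dvd (by omega) (sm g (E g g1 ⟨1, by simpa⟩ (ne_scal (by omega) (by omega))) (by omega)); omega
    refine iff_of_true (fun g g1 ⟨z, g2⟩ _ => ?_) ⟨rfl, a⟩
    rcases sx_sq n n4 g1 g2 with g2 | g2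
    · obtain ⟨k, hk, -⟩ := (n.mv_nondeg g1 (n := 2) (by simpa) g2).symp_hasTS
      obtain ⟨X, w1, w2⟩ := n₂.orth_nd h2 (m := k) (by have := (mv g).finrank_le; rw [dm, a] at this; omega)
      obtain ⟨s, s1, s2, s3⟩ := n₂.exists_neg' h2 w2
      exact symp_two n h2 g1 (mem 1 (one_mem _) s s1) ((hH _).2 ⟨_, _, rfl⟩) (.inl ⟨g2, by rw [tc_pow, s2]; exact tc_ext T (by simp), by rw [tens_one, a, s3, w1, hk]⟩)
    obtain ⟨j, hj⟩ := symp_iso (sympF_nondeg 1) n₁ (by simp [a])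
    exact symp_two n h2 g1 (mem _ ((hj.mem_iff _).1 (spEquiv 1 ⟨_, SymplecticGroup.J_mem _ F⟩).2) 1 (one_mem _)) ((hH _).2 ⟨_, _, rfl⟩)
      (.inr ⟨g2, tc_ext T fun u w => by simp [sq, autCongr_apply, J_squared, neg_mulVec, neg_tmul]⟩)
  refine iff_of_false (fun E => ?_) fun h => r2 h.1
  obtain ⟨Bs, Bo, -, -, -, b⟩ := blk_so (F := F) r2 p rp rfl rfl
  generalize (if Even (orderOf (Fintype.card F : ZMod r)) then orderOf (Fintype.card F : ZMod r) else 2 * orderOf (Fintype.card F : ZMod r)) = c at Bs Bo b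
  have c0 := Bs.pos
  have rk : ∀ {κ : Kind F} {X : Type u} [AddCommGroup X] [Module F X] [FiniteDimensional F X] {Ξ : Form κ X}, Blk κ r c → Ξ.Nondeg → ∀ g ∈ Ξ.isom, g ^ r = 1 → c ∣ finrank F (mv g) := fun b n g g1 g2 => by
    obtain ⟨k, hk, -⟩ := b.dim n g1 g2
    exact ⟨k, by have := finrank_mv_add g; omega⟩
  have le : ∀ {X : Type u} [AddCommGroup X] [Module F X] [FiniteDimensional F X] {g : X ≃ₗ[F] X}, g ≠ 1 → c ∣ finrank F (mv g) → c ≤ finrank F X := fun {X} _ _ _ g a b =>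
    (Nat.le_of_dvd (Submodule.one_le_finrank_iff.2 (mt mv_eq_bot.1 a)) b).trans (mv g).finrank_le
  haveI := finite_aut (F := F) (V := V)
  obtain ⟨g, hg⟩ := exists_prime_orderOf_dvd_card' r (d.trans (H.relIndex_dvd_card _))
  obtain ⟨g, g1, g2, g3, g4⟩ := sx_odd n n4 r2 Bs (le (g := g.1) (fun z => hr.out.ne_one (by rw [← hg, orderOf_eq_one_iff]; exact Subtype.ext z)) (rk Bs n _ g.2 (congrArg Subtype.val (hg ▸ pow_orderOf_eq_one g)))) E
  obtain ⟨A, B, rfl⟩ := (hH _).1 g1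
  obtain ⟨u₁, u₀⟩ := exists_ne (0 : U)
  obtain ⟨u₂, hu⟩ : ∃ u₂, Ψ.B u₂ u₁ ≠ 0 := by_contra fun k => u₀ (n₁ _ (by simpa using k))
  have sB : ∀ {A B}, tc T A B ∈ Φ.isom → A ∈ Ψ.isom → B ∈ Θ.isom := fun {A B} g a => by
    have : ∀ x y, Θ.B (B x) (B y) = Θ.B x y := fun x y => by simpa [hT, isom_B a, κ0, hu] using isom_B g (T (u₂ ⊗ₜ x)) (T (u₁ ⊗ₜ y))
    exact ⟨this, fun x => mul_left_cancel₀ h2 (by rw [← orth_self, ← orth_self, this])⟩
  have pB : ∀ {A B}, tc T A B ^ r = 1 → A ^ r = 1 → B ^ r = 1 := fun {A B} g a => LinearEquiv.ext fun w => As.tmul_inj u₀ (T.injective (by simpa [tc_pow, a] using LinearEquiv.congr_fun g (T (u₁ ⊗ₜ w))))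
  have fin : ∀ {k l : ℕ}, 2 ≤ k → c ∣ l → c ≠ k * l := by rintro k _ h ⟨_ | l, rfl⟩ e; exacts [by omega, by nlinarith [Nat.zero_le (c * l)]]
  have one : ∀ B, tc T 1 B ∈ Φ.isom → tc T 1 B ^ r = 1 → finrank F (mv (tc T 1 B)) ≠ c := fun B a b e => fin a2 (rk Bo n₂ B (sB a (one_mem _)) (pB b (one_pow _))) (by rw [← e, tens_one])
  by_cases l : c < finrank F W
  · obtain ⟨a, rfl⟩ : ∃ a, A = scal U a := by_contra fun k => by have := tens_le (T := T) (B := B) (not_exists.1 k); omega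
    have := tc_scal T (B := B) a 1
    rw [map_one, mul_one] at this
    rw [this] at g2 g3 g4; exact one _ g2 g3 g4
  have d2 : ¬ r ∣ Fintype.card F ^ 2 - 1 := fun e => by have := Nat.le_of_dvd two_pos ((b 1).1 e); omega
  have cop : (Nat.card Fˣ).Coprime r := ((hr.out.coprime_iff_not_dvd).2 fun e => d2 (e.trans (by rw [Nat.card_units, Nat.card_eq_fintype_card]; simpa using Nat.pow_sub_one_dvd_pow_sub_one (Fintype.card F) (one_dvd 2)))).symm
  obtain ⟨a, ha⟩ : ∃ a, A ^ r = scal U a := by_contra fun k => by have := tens_le (T := T) (B := B ^ r) (not_exists.1 k); rw [← tc_pow, g3, mv_one, finrank_bot] at this; omega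
  obtain ⟨a, rfl⟩ := (powCoprime cop).surjective a
  have e : tc T A B = tc T (A * scal U a⁻¹) (B * scal W a) := tc_ext T fun u w => by simp only [tc_apply, LinearEquiv.mul_apply, scal_apply, map_smul, smul_tmul, smul_smul, Units.inv_mul, one_smul]
  have a1 : (A * scal U a⁻¹) ^ r = 1 := by rw [Commute.mul_pow (scal_comm ..), ha, ← map_pow, ← map_mul]; simp
  rw [e] at g2 g3 g4
  generalize A * scal U a⁻¹ = A, B * scal W a = B at *
  obtain ⟨w₁, w₀⟩ := exists_ne (0 : W)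
  obtain ⟨w₂, hw⟩ : ∃ w₂, Θ.B w₂ (B w₁) ≠ 0 := by_contra fun k => w₀ (by simpa using n₂ (B w₁) (by simpa using k))
  obtain ⟨w₂, rfl⟩ := B.surjective w₂
  have s : ∀ x y, Ψ.B (A x) (A y) = (Θ.B w₂ w₁ / Θ.B (B w₂) (B w₁)) * Ψ.B x y := fun x y => by
    have := isom_B g2 (T (x ⊗ₜ w₂)) (T (y ⊗ₜ w₁))
    simp only [tc_apply, hT, mul_right_inj' κ0] at this
    field_simp; linear_combination this
  have s0 : Θ.B w₂ w₁ / Θ.B (B w₂) (B w₁) ≠ 0 := fun z => hu (by simpa [z] using s (A.symm u₂) (A.symm u₁))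
  have s1 := (powCoprime cop).injective ((n₁.sim_one (c := .mk0 _ s0) s a1).trans (one_pow r).symm)
  have aI : A ∈ Ψ.isom := (mem_isom_symp _).2 fun x y => by rw [s, show _ / _ = (1 : F) from congrArg Units.val s1, one_mul]
  by_cases A1 : A = 1
  · subst A1; exact one _ g2 g3 g4
  by_cases B1 : B = 1
  · subst B1
    exact fin (by omega : 2 ≤ finrank F W) (rk Bs n₁ A aI a1) (by rw [← g4, ← tens_one (T := (TensorProduct.comm F _ _).trans T)]; exact congrArg (fun g => finrank F (mv g)) (tc_ext T fun u w => (tc_apply ..).trans (tc_apply ((TensorProduct.comm F _ _).trans T) w u).symm))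
  have := le B1 (rk Bo n₂ B (sB g2 aI) (pB g3 a1))
  have := tens_le2 (T := T) (B := B) r0 d2 A1 a1
  omega

end H5
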