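import Cfsg.Prelude.Def_ClassicalGeometry
/-! Monomial symplectic matrices. -/
set_option autoImplicit false
namespace H5.Wc
open Matrix

variable {F : Type*} [Field F] {m : ℕ}

def mon (σ : Fin m ⊕ Fin m → Fin m ⊕ Fin m) (d : Fin m ⊕ Fin m → F) : Matrix (Fin m ⊕ Fin m) (Fin m ⊕ Fin m) F := of fun j i => if j = σ i then d i else 0

theorem mon_mem {σ : Fin m ⊕ Fin m → Fin m ⊕ Fin m} {d : Fin m ⊕ Fin m → F} : mon σ d ∈ symplecticGroup (Fin m) F ↔ ∀ i j, d i * J (Fin m) F (σ i) (σ j) * d j = J (Fin m) F i j := by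
  rw [SymplecticGroup.mem_iff', ← Matrix.ext_iff]
  simp [mul_apply, mon]

def sg (π : Equiv.Perm (Fin m)) (s : Fin m → Bool) : Fin m ⊕ Fin m → Fin m ⊕ Fin m
  | .inl i => if s i then .inr (π i) else .inl (π i)
  | .inr i => if s i then .inl (π i) else .inr (π i)

def dg (s : Fin m → Bool) (c : Fin m → Fˣ) : Fin m ⊕ Fin m → F
  | .inl i => c i
  | .inr i => if s i then -(c i : F)⁻¹ else (c i : F)⁻¹

def el (p : Equiv.Perm (Fin m) × (Fin m → Bool) × (Fin m → Fˣ)) : symplecticGroup (Fin m) F := ⟨mon (sg p.1 p.2.1) (dg p.2.1 p.2.2), mon_mem.2 fun i j => by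
  rcases i with i | i <;> rcases j with j | j <;> by_cases e : i = j <;> cases h : p.2.1 i <;> cases k : p.2.1 j <;> simp_all [sg, dg, J, one_apply]⟩

theorem sg_inj (π : Equiv.Perm (Fin m)) (s : Fin m → Bool) : Function.Injective (sg π s) := fun i j e => by
  rcases i with i | i <;> rcases j with j | j <;> cases h : s i <;> cases k : s j <;> simp_all [sg]

theorem el_inj : Function.Injective (el (F := F) (m := m)) := fun ⟨π, s, c⟩ ⟨π', s', c'⟩ e => by
  have h : ∀ i, sg π s (.inl i) = sg π' s' (.inl i) ∧ c i = c' i := fun i => by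
    have := congrFun₂ (congrArg Subtype.val e) (sg π s (.inl i)) (.inl i)
    by_cases k : sg π s (.inl i) = sg π' s' (.inl i) <;> simpa [el, mon, dg, Units.ext_iff, k] using this
  have k : ∀ i, π i = π' i ∧ s i = s' i := fun i => by have := (h i).1; cases a : s i <;> cases b : s' i <;> simp_all [sg]
  exact Prod.ext (Equiv.ext fun i => (k i).1) (Prod.ext (funext fun i => (k i).2) (funext fun i => (h i).2))

theorem el_surj {σ : Fin m ⊕ Fin m → Fin m ⊕ Fin m} {d : Fin m ⊕ Fin m → F} (h : mon σ d ∈ symplecticGroup (Fin m) F) : ∃ p, el p = ⟨_, h⟩ := by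
  replace k := mon_mem.1 h
  have a : ∀ i, σ (.inr i) = (σ (.inl i)).swap ∧ d (.inl i) ≠ 0 ∧ d (.inr i) = if (σ (.inl i)).isRight then -(d (.inl i))⁻¹ else (d (.inl i))⁻¹ := fun i => by
    have := k (.inl i) (.inr i)
    have d0 : d (.inl i) ≠ 0 := fun z => by simp [z, J] at this
    rcases e : σ (.inl i) with x | x <;> rcases e' : σ (.inr i) with y | y <;> by_cases e'' : x = y <;> simp [e, e', e'', J, one_apply] at this <;> simp [e'', d0] <;> field_simp <;> linear_combination this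
  have b : Function.Injective fun i => Sum.elim id id (σ (.inl i)) := fun i j e => by_contra fun n => by
    have h1 := k (.inl i) (.inr j)
    have h2 := k (.inl i) (.inl j)
    have := (a i).2.1
    have := (a j).2.1
    rw [(a j).1, (a j).2.2] at h1
    rcases e : σ (.inl i) with x | x <;> rcases e' : σ (.inl j) with y | y <;> simp_all [J, one_apply]
  refine ⟨⟨.ofBijective _ (Finite.injective_iff_bijective.1 b), fun i => (σ (.inl i)).isRight, fun i => .mk0 _ (a i).2.1⟩, Subtype.ext (congrArg₂ mon (funext fun i => ?_) (funext fun i => ?_))⟩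
  · rcases i with i | i <;> rcases e : σ (.inl i) with x | x <;> simp [sg, (a i).1, e]
  · rcases i with i | i <;> simp [dg, (a i).2.2]

theorem col (g : symplecticGroup (Fin m) F) (i) : ∃ j, g.1 j i ≠ 0 := by
  by_contra! h; exact (SymplecticGroup.symplectic_det g.2).ne_zero (det_eq_zero_of_column_eq_zero i h)

theorem mem_T (t : symplecticGroup (Fin m) F) : (t ∈ ⨅ i : Fin m ⊕ Fin m, (Cfsg.stabilizing (Cfsg.spToMat m F) (F ∙ (Pi.single i 1 : Fin m ⊕ Fin m → F)) : Set _)) ↔ ∃ d, t.1 = diagonal d := by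
  have s : ∀ (i : Fin m ⊕ Fin m) v, v ∈ F ∙ (Pi.single i 1 : Fin m ⊕ Fin m → F) ↔ ∀ j ≠ i, v j = 0 := fun i v => Submodule.mem_span_singleton.trans
    ⟨by rintro ⟨a, rfl⟩ j e; simp [e], fun h => ⟨v i, funext fun j => by by_cases e : j = i <;> simp [e, h j]⟩⟩
  simp only [Set.iInf_eq_iInter, Set.mem_iInter]
  refine ⟨fun h => ⟨t.1.diag, ext fun j i => ?_⟩, fun ⟨d, h⟩ i v => ?_⟩
  · by_cases e : j = i
    · simp [e]
    · simpa [e] using (s ..).1 ((h i _).1 (Submodule.mem_span_singleton_self _)) j e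
  · have : ∀ j, d j ≠ 0 := fun j z => (col t j).elim fun l => by simp [h, diagonal_apply, z] <;> aesop
    simp [s, h, mulVec_diagonal, this]

theorem card_norm [Fintype F] (hq : 4 ≤ Fintype.card F) : Nat.card (Subgroup.normalizer (⨅ i : Fin m ⊕ Fin m, (Cfsg.stabilizing (Cfsg.spToMat m F) (F ∙ (Pi.single i 1 : Fin m ⊕ Fin m → F)) : Set (symplecticGroup (Fin m) F)))) =
    2 ^ m * m.factorial * (Fintype.card F - 1) ^ m := by
  classical
  obtain ⟨x, x0, x1, x2⟩ : ∃ x : F, x ≠ 0 ∧ x ≠ 1 ∧ x ≠ -1 := by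
    obtain ⟨x, -, h⟩ := Finset.exists_mem_notMem_of_card_lt_card (s := {0, 1, -1}) (t := (Finset.univ : Finset F)) (Finset.card_le_three.trans_lt hq)
    exact ⟨x, by simpa using h⟩
  have x3 : x ≠ x⁻¹ := fun e => (mul_self_eq_one_iff.1 (by nth_rw 2 [e]; simp [x0])).elim x1 x2
  have N : ∀ p, el p ∈ Subgroup.normalizer (⨅ i : Fin m ⊕ Fin m, (Cfsg.stabilizing (Cfsg.spToMat m F) (F ∙ (Pi.single i 1 : Fin m ⊕ Fin m → F)) : Set (symplecticGroup (Fin m) F))) := fun p => Subgroup.mem_normalizer_fintype fun t ht => by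
    obtain ⟨d, hd⟩ := (mem_T t).1 ht
    let e := Equiv.ofBijective _ (Finite.injective_iff_bijective.1 (sg_inj p.1 p.2.1))
    refine (mem_T _).2 ⟨d ∘ e.symm, ?_⟩
    suffices (el p).1 * t.1 = diagonal (d ∘ e.symm) * (el p).1 by rw [Submonoid.coe_mul, Submonoid.coe_mul, this, mul_assoc, ← Submonoid.coe_mul, mul_inv_cancel]; simp
    ext j i
    rw [hd, mul_diagonal, diagonal_mul, mul_comm]
    by_cases h : j = e i
    · simp [h]
    · simp [el, mon, show j ≠ sg p.1 p.2.1 i from h]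
  refine (Nat.card_congr (Equiv.ofBijective (fun p => (⟨el p, N p⟩ : Subgroup.normalizer _)) ⟨fun p p' e => el_inj (congrArg Subtype.val e), fun ⟨g, hg⟩ => ?_⟩)).symm.trans
    (by simp [Fintype.card_perm, Fintype.card_units]; ring)
  choose σ hσ using col g
  have : g.1 = mon σ fun i => g.1 (σ i) i := ext fun j i => by
    by_cases e : j = σ i
    · simp [mon, e]
    obtain ⟨c, hc⟩ : ∃ c : Fin m → Fˣ, dg (fun _ => false) c j ≠ dg (fun _ => false) c (σ i) := ⟨Function.update 1 (Sum.elim id id j) (.mk0 x x0), by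
      rcases j with j | j <;> rcases e' : σ i with l | l <;> by_cases e'' : l = j <;> simp_all [dg, eq_comm]⟩
    have ht : (el (1, fun _ => false, c)).1 = diagonal (dg (fun _ => false) c) := ext fun a b => by rcases b with b | b <;> simp [el, mon, sg, diagonal_apply] <;> aesop
    obtain ⟨d, hd⟩ := (mem_T _).1 ((Subgroup.mem_set_normalizer_iff''.1 hg _).1 ((mem_T _).2 ⟨_, ht⟩))
    have k : diagonal (dg (fun _ => false) c) * g.1 = g.1 * diagonal d := by rw [← hd, ← ht, ← Submonoid.coe_mul, ← Submonoid.coe_mul]; congr 1; group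
    have k1 := congrFun₂ k j i
    have k2 := congrFun₂ k (σ i) i
    rw [mul_diagonal, diagonal_mul, mul_comm] at k1 k2
    rw [← mul_left_cancel₀ (hσ i) k2] at k1
    simpa [mon, e, hc] using k1
  obtain ⟨p, hp⟩ := el_surj (this ▸ g.2)
  exact ⟨p, Subtype.ext (hp.trans (Subtype.ext this.symm))⟩

end H5.Wc
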